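import Cfsg.Agent.Lib.Elusive.ExB
import Cfsg.Agent.Lib.FGS.ConjSub
import Cfsg.Agent.Lib.MatConj.UEig

/-! Elements of prime order and the normaliser of an extraspecial group of order `27`. -/

set_option autoImplicit false
set_option linter.unusedSectionVars false

namespace H99

open Matrix Polynomial H72.Cls H66 Cfsg.Geo Subgroup
open scoped commutatorElement

variable {F : Type*} [Field F] {μ : F} {R G G' : Subgroup (GL (Fin 3) F)}
  {g a b z y : GL (Fin 3) F} {M : Matrix (Fin 3) (Fin 3) F}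

theorem cube_of (h : μ ^ 2 + μ + 1 = 0) : μ ^ 3 = 1 := by linear_combination (μ - 1) * h

theorem exists_pow_of_cube (h : μ ^ 2 + μ + 1 = 0) {t : F} (ht : t ^ 3 = 1) : ∃ j : ℕ, t = μ ^ j := by
  have : (t - 1) * (t - μ) * (t - μ ^ 2) = 0 := by
    linear_combination ht + (t * μ - t ^ 2 - (μ - 1)) * h
  simp only [mul_eq_zero, sub_eq_zero] at this
  rcases this with (h1 | h1) | h1
  exacts [⟨0, by simpa using h1⟩, ⟨1, by simpa using h1⟩, ⟨2, h1⟩]

/-- The diagonal generator. -/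
def D3 (μ : F) : Matrix (Fin 3) (Fin 3) F := diagonal ![1, μ, μ ^ 2]

/-- The cyclic generator. -/
def P3 (F : Type*) [Field F] : Matrix (Fin 3) (Fin 3) F := !![0, 0, 1; 1, 0, 0; 0, 1, 0]

/-- The transposition. -/
def S3 (F : Type*) [Field F] : Matrix (Fin 3) (Fin 3) F := !![1, 0, 0; 0, 0, 1; 0, 1, 0]

theorem D3_pow (j : ℕ) : D3 μ ^ j = D3 (μ ^ j) := by
  rw [D3, diagonal_pow]
  congr 1
  ext i
  fin_cases i <;> simp [← pow_mul, mul_comm]

theorem exists_eigen {A : Matrix (Fin 3) (Fin 3) F} (h : μ ^ 2 + μ + 1 = 0) (h3 : (3 : F) ≠ 0)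
    (hA : A ^ 3 = 1) (W : Submodule F (Fin 3 → F)) (hW : ∀ v ∈ W, A *ᵥ v ∈ W) {u : Fin 3 → F}
    (hu : u ∈ W) (h0 : u ≠ 0) : ∃ t : F, t ^ 3 = 1 ∧ ∃ v ∈ W, v ≠ 0 ∧ A *ᵥ v = t • v := by
  have h1 : A *ᵥ (A *ᵥ (A *ᵥ u)) = u := by
    rw [mulVec_mulVec, mulVec_mulVec, ← pow_two, ← pow_succ, hA, one_mulVec]
  have h2 : ∀ t : F, t ^ 3 = 1 → u + t ^ 2 • A *ᵥ u + t • A *ᵥ (A *ᵥ u) ≠ 0 →
      ∃ t : F, t ^ 3 = 1 ∧ ∃ v ∈ W, v ≠ 0 ∧ A *ᵥ v = t • v := fun t ht e =>
    ⟨t, ht, _, add_mem (add_mem hu (W.smul_mem _ (hW _ hu))) (W.smul_mem _ (hW _ (hW _ hu))), e, by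
      simp only [mulVec_add, mulVec_smul, h1]
      linear_combination (norm := module) -(ht • (A *ᵥ u))⟩
  by_contra h4
  have h5 := cube_of h
  have e1 := of_not_not (mt (h2 1 (one_pow 3)) h4)
  have e2 := of_not_not (mt (h2 μ h5) h4)
  have e3 := of_not_not (mt (h2 (μ ^ 2) (by rw [← pow_mul, mul_comm, pow_mul, h5, one_pow])) h4)
  refine smul_ne_zero h3 h0 ?_
  linear_combination (norm := module) e1 + e2 + e3 - (h + μ * h5) • (A *ᵥ u) - h • A *ᵥ (A *ᵥ u)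

theorem exists_basis3 {A B Z : Matrix (Fin 3) (Fin 3) F} {ω : F} (h : ω ^ 2 + ω + 1 = 0)
    (h3 : (3 : F) ≠ 0) (hA : A ^ 3 = 1) (hB : B ^ 3 = 1) (hZ : Z ^ 3 = 1) (h1 : Z ≠ 1)
    (hAB : A * B = Z * (B * A)) (hZA : Z * A = A * Z) (hZB : Z * B = B * Z) :
    ∃ (μ : F) (g : GL (Fin 3) F), μ ^ 2 + μ + 1 = 0 ∧ Rel g A (D3 μ) ∧ Rel g B (P3 F) ∧
      Z = μ • 1 := by
  obtain ⟨w, hw⟩ : ∃ w, Z *ᵥ w - w ≠ 0 := by
    by_contra h4
    exact h1 (toLin'.injective (LinearMap.ext fun w => by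
      simpa [sub_eq_zero] using not_exists.1 h4 w))
  obtain ⟨μ, -, u, ⟨w', rfl⟩, u0, hu⟩ := exists_eigen h h3 hZ (LinearMap.range (toLin' (Z - 1)))
    (by rintro _ ⟨v, rfl⟩; exact ⟨Z *ᵥ v, by
      simp only [toLin'_apply, mulVec_mulVec, mul_sub, sub_mul, one_mul, mul_one]⟩)
    ⟨w, by simp [sub_mulVec]⟩ hw
  set u := toLin' (Z - 1) w' with hu'
  have hμ : μ ^ 2 + μ + 1 = 0 := smul_left_injective F u0 (by
    have : (Z ^ 2 + Z + 1) *ᵥ u = 0 := by
      rw [hu', toLin'_apply, mulVec_mulVec, show (Z ^ 2 + Z + 1) * (Z - 1) = Z ^ 3 - 1 by noncomm_ring,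
        hZ, sub_self, zero_mulVec]
    rw [add_mulVec, add_mulVec, pow_two, ← mulVec_mulVec, hu, mulVec_smul, hu, one_mulVec] at this
    linear_combination (norm := module) this)
  have h5 := cube_of hμ
  let W : Submodule F (Fin 3 → F) := LinearMap.ker (toLin' Z - μ • 1)
  have hW : ∀ v, v ∈ W ↔ Z *ᵥ v = μ • v := fun v => by simp [W, sub_eq_zero]
  have hc : ∀ C : Matrix (Fin 3) (Fin 3) F, Z * C = C * Z → ∀ v ∈ W, C *ᵥ v ∈ W := fun C e v hv => by
    rw [hW, mulVec_mulVec, e, ← mulVec_mulVec, (hW v).1 hv, mulVec_smul]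
  have hs : ∀ (t : F), ∀ v ∈ W, A *ᵥ v = t • v → A *ᵥ (B *ᵥ v) = (μ * t) • B *ᵥ v := fun t v hv e => by
    rw [mulVec_mulVec, hAB, ← mulVec_mulVec, ← mulVec_mulVec, e, mulVec_smul, mulVec_smul,
      (hW _).1 (hc B hZB v hv), smul_smul, mul_comm]
  have hB0 : ∀ v, B *ᵥ (B *ᵥ (B *ᵥ v)) = v := fun v => by
    rw [mulVec_mulVec, mulVec_mulVec, ← pow_two, ← pow_succ, hB, one_mulVec]
  have hB1 : ∀ v, v ≠ 0 → B *ᵥ v ≠ 0 := fun v hv e => hv (by rw [← hB0 v, e]; simp)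
  obtain ⟨v, hv, v0, e⟩ : ∃ v ∈ W, v ≠ 0 ∧ A *ᵥ v = v := by
    obtain ⟨t, ht, v, hv, v0, e⟩ := exists_eigen h h3 hA W (hc A hZA) ((hW u).2 hu) u0
    have e1 := hs _ _ hv e
    have e2 := hs _ _ (hc B hZB v hv) e1
    have : (t - 1) * (μ * t - 1) * (μ * (μ * t) - 1) = 0 := by
      linear_combination ht + t ^ 3 * h5 + (t - t ^ 2 * μ) * hμ
    simp only [mul_eq_zero, sub_eq_zero] at this
    rcases this with (h4 | h4) | h4
    · exact ⟨v, hv, v0, by rw [e, h4, one_smul]⟩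
    · exact ⟨_, hc B hZB v hv, hB1 v v0, by rw [e1, h4, one_smul]⟩
    · exact ⟨_, hc B hZB _ (hc B hZB v hv), hB1 _ (hB1 v v0), by rw [e2, h4, one_smul]⟩
  have e1 := hs 1 _ hv (by rw [e, one_smul])
  have e2 := hs _ _ (hc B hZB v hv) e1
  let g : Matrix (Fin 3) (Fin 3) F := (of ![v, B *ᵥ v, B *ᵥ (B *ᵥ v)])ᵀ
  have hg : ∀ c, g *ᵥ c = c 0 • v + c 1 • B *ᵥ v + c 2 • B *ᵥ (B *ᵥ v) := fun c => by
    ext i
    simp [g, mulVec, dotProduct, Fin.sum_univ_three, mul_comm]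
  have ext : ∀ {X Y : Matrix (Fin 3) (Fin 3) F}, (∀ c, X *ᵥ c = Y *ᵥ c) → X = Y := fun h =>
    toLin'.injective (LinearMap.ext h)
  have rA : A * g = g * D3 μ := ext fun c => by
    rw [← mulVec_mulVec, ← mulVec_mulVec, hg, hg]
    simp only [mulVec_add, mulVec_smul, e, e1, e2, D3, mulVec_diagonal]
    simp only [cons_val_zero, cons_val_one, cons_val]
    module
  have rB : B * g = g * P3 F := ext fun c => by
    rw [← mulVec_mulVec, ← mulVec_mulVec, hg, hg]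
    simp only [mulVec_add, mulVec_smul, hB0]
    simp [P3, mulVec, dotProduct, Fin.sum_univ_three]
    module
  have k1 : ∀ c, g *ᵥ c = 0 → c 0 = 0 := fun c hc => by
    have a1 : g *ᵥ (D3 μ *ᵥ c) = 0 := by rw [mulVec_mulVec, ← rA, ← mulVec_mulVec, hc, mulVec_zero]
    have a2 : g *ᵥ (D3 μ *ᵥ (D3 μ *ᵥ c)) = 0 := by
      rw [mulVec_mulVec, ← rA, ← mulVec_mulVec, a1, mulVec_zero]
    rw [hg] at hc a1 a2
    simp only [D3, mulVec_diagonal, cons_val_zero, cons_val_one, cons_val] at a1 a2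
    refine (mul_eq_zero.1 ((smul_eq_zero_iff_left v0).1 ?_ : 3 * c 0 = 0)).resolve_left h3
    linear_combination (norm := module) hc + a1 + a2 - (c 1 * hμ) • B *ᵥ v -
      (c 2 * (hμ + μ * h5)) • B *ᵥ (B *ᵥ v)
  have k2 : ∀ c, g *ᵥ c = 0 → g *ᵥ (P3 F *ᵥ c) = 0 := fun c hc => by
    rw [mulVec_mulVec, ← rB, ← mulVec_mulVec, hc, mulVec_zero]
  have hu : IsUnit g := mulVec_injective_iff_isUnit.1 ((injective_iff_map_eq_zero (toLin' g)).2
    fun c hc => by
      have a1 := k1 _ hc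
      have a2 := k1 _ (k2 _ hc)
      have a3 := k1 _ (k2 _ (k2 _ hc))
      simp [P3, mulVec, dotProduct, Fin.sum_univ_three] at a2 a3
      ext i; fin_cases i <;> assumption)
  refine ⟨μ, hu.unit, hμ, rA, rB, hu.mul_right_cancel (ext fun c => ?_)⟩
  rw [← mulVec_mulVec, (hW _).1, smul_mul_assoc, one_mul, smul_mulVec]
  rw [hg]
  exact add_mem (add_mem (W.smul_mem _ hv) (W.smul_mem _ (hc B hZB v hv)))
    (W.smul_mem _ (hc B hZB _ (hc B hZB v hv)))

/-- Standard generators of the extraspecial group of order `27`. -/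
structure Fr3 (R : Subgroup (GL (Fin 3) F)) (μ : F) (g a b z : GL (Fin 3) F) : Prop where
  hμ : μ ^ 2 + μ + 1 = 0
  h3 : (3 : F) ≠ 0
  ha : a ∈ R
  hb : b ∈ R
  hz : z ∈ R
  ea : Rel g a (D3 μ)
  eb : Rel g b (P3 F)
  ez : (z : Matrix (Fin 3) (Fin 3) F) = μ • 1
  gen : ∀ K : Subgroup (GL (Fin 3) F), a ∈ K → b ∈ K → z ∈ K → R ≤ K

theorem eq_smul_of_comm (h : μ ^ 2 + μ + 1 = 0) (h3 : (3 : F) ≠ 0) (h1 : M * D3 μ = D3 μ * M)
    (h2 : M * P3 F = P3 F * M) : ∃ c : F, M = c • 1 := by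
  have h4 : μ - 1 ≠ 0 := fun e => h3 (by linear_combination h - (μ + 2) * e)
  have h5 : μ ^ 2 - 1 ≠ 0 := fun e => h3 (by linear_combination (2 - μ) * h + (μ - 1) * e)
  have e := fun i j => congrFun (congrFun h1 i) j
  have e' := fun i j => congrFun (congrFun h2 i) j
  simp only [D3, mul_diagonal, diagonal_mul] at e
  have a1 : M 0 1 = 0 := (mul_eq_zero.1 (by simpa [mul_sub] using sub_eq_zero.2 (e 0 1))).resolve_right h4
  have a2 : M 0 2 = 0 := (mul_eq_zero.1 (by simpa [mul_sub] using sub_eq_zero.2 (e 0 2))).resolve_right h5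
  have b1 := e' 0 0
  have b2 := e' 0 1
  have b3 := e' 0 2
  have b4 := e' 1 0
  have b5 := e' 1 1
  have b6 := e' 1 2
  simp [P3, mul_apply, Fin.sum_univ_three] at b1 b2 b3 b4 b5 b6
  refine ⟨M 0 0, ?_⟩
  ext i j
  fin_cases i <;> fin_cases j <;> simp <;> simp_all

theorem exists_fr3 [Finite F] {ω : F} (h : ω ^ 2 + ω + 1 = 0) (h3 : (3 : F) ≠ 0)
    (hR : Nat.card R = 27) (hRe : Monoid.exponent R = 3) (hna : ¬ IsMulCommutative R) :
    ∃ μ g a b z, Fr3 R μ g a b z := by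
  have : Fact (Nat.Prime 3) := ⟨Nat.prime_three⟩
  obtain ⟨z, hz⟩ := H78.ConjSub.wes_of_card_cube (p := 3) (Q := R) hR hna
  obtain ⟨a, ha, b, hb, hab⟩ := hz.exists_commutator_eq Nat.prime_three (fun e => by
    have := hz.card_zpowers
    rw [← e, hR] at this
    omega)
  have he : ∀ x ∈ R, (x : Matrix (Fin 3) (Fin 3) F) ^ 3 = 1 := fun x hx => by
    simpa [hRe] using congrArg (fun t : R => ((t : GL (Fin 3) F) : Matrix (Fin 3) (Fin 3) F))
      (Monoid.pow_exponent_eq_one (⟨x, hx⟩ : R))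
  have h1 : z ≠ 1 := fun e => by simpa [e] using hz.ord
  obtain ⟨μ, g, h4, h5, h6, h7⟩ := exists_basis3 h h3 (he a ha) (he b hb) (he z hz.mem)
    (fun e => h1 (Units.ext e))
    (congrArg Units.val (show a * b = z * (b * a) by rw [← hab, commutatorElement_def]; group))
    (congrArg Units.val (hz.commute (mem_zpowers z) ha).eq.symm)
    (congrArg Units.val (hz.commute (mem_zpowers z) hb).eq.symm)
  refine ⟨μ, g, a, b, z, h4, h3, ha, hb, hz.mem, h5, h6, h7, fun K k1 k2 k3 x hx => ?_⟩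
  obtain ⟨i, j, c, ⟨⟨c1, c2⟩, c3⟩, rfl⟩ := hz.exists_decomp Nat.prime_three ha hb (hab ▸ h1) hx
  refine mul_mem (mul_mem (zpow_mem k1 i) (zpow_mem k2 j)) (zpowers_le.2 k3 ?_)
  have r1 := Rel.conj' g (c : Matrix (Fin 3) (Fin 3) F)
  have r2 : ∀ {u : GL (Fin 3) F} {U}, c ∈ centralizer {u} → Rel g u U →
      (g⁻¹ : GL (Fin 3) F) * (c : Matrix (Fin 3) (Fin 3) F) * g * U = U * ((g⁻¹ : GL (Fin 3) F) * c * g) :=
    fun {u U} e r => (r1.mul r).inj' (by
      rw [← Units.val_mul, mem_centralizer_singleton_iff.1 e]; exact r.mul r1)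
  obtain ⟨t, ht⟩ := eq_smul_of_comm h4 h3 (r2 c2 h5) (r2 c3 h6)
  exact hz.mem_zpowers_of_commute c1 fun y _ => Units.ext (by simp [r1.scalar.2 ht])

theorem D3_det (h : μ ^ 2 + μ + 1 = 0) : (D3 μ).det = 1 := by
  simp [D3, Fin.prod_univ_three]; linear_combination cube_of h

namespace Fr3

variable (h : Fr3 R μ g a b z)
include h

theorem le_sl : R ≤ specialLinear (Fin 3) F :=
  h.gen _ (mem_sl.2 (h.ea.det.trans (D3_det h.hμ)))
    (mem_sl.2 (h.eb.det.trans (by simp [P3, det_fin_three])))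
    (mem_sl.2 (by simpa [h.ez] using cube_of h.hμ))

theorem scalar (h1 : y * a = a * y) (h2 : y * b = b * y) :
    ∃ c : F, (y : Matrix (Fin 3) (Fin 3) F) = c • 1 := by
  have r1 := Rel.conj' g (y : Matrix (Fin 3) (Fin 3) F)
  obtain ⟨t, ht⟩ := eq_smul_of_comm h.hμ h.h3
    ((r1.mul h.ea).inj' (by rw [← Units.val_mul, h1]; exact h.ea.mul r1))
    ((r1.mul h.eb).inj' (by rw [← Units.val_mul, h2]; exact h.eb.mul r1))
  exact ⟨t, r1.scalar.2 ht⟩

theorem mem_norm [Finite F] (hy : Rel g y M) {u v : GL (Fin 3) F} {U V : Matrix (Fin 3) (Fin 3) F}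
    (hu : u ∈ R) (hv : v ∈ R) (ru : Rel g u U) (rv : Rel g v V) (e1 : M * D3 μ = U * M)
    (e2 : M * P3 F = V * M) : y ∈ subgroupNormalizer R :=
  mem_normalizer_fintype (h.gen (R.comap (MulAut.conj y).toMonoidHom)
    (by
      have : y * a = u * y := Units.ext ((hy.mul h.ea).inj (e1 ▸ ru.mul hy))
      simpa [this] using hu)
    (by
      have : y * b = v * y := Units.ext ((hy.mul h.eb).inj (e2 ▸ rv.mul hy))
      simpa [this] using hv)
    (by
      have : y * z = z * y := Units.ext (by simp [h.ez])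
      simpa [this] using h.hz))

theorem dg_mem [Finite F] {c : F} {d : Fin 3 → F} (hd : ∀ i, d i ^ 3 = 1)
    (hy : Rel g y (c • diagonal d)) : y ∈ subgroupNormalizer R := by
  obtain ⟨i, hi⟩ := exists_pow_of_cube h.hμ (t := d 1 * d 0 ^ 2) (by
    rw [mul_pow, ← pow_mul, mul_comm 2, pow_mul, hd, hd]; simp)
  obtain ⟨j, hj⟩ := exists_pow_of_cube h.hμ (t := d 0 * d 1 * d 2) (by simp [mul_pow, hd])
  refine h.mem_norm hy h.ha (mul_mem (pow_mem h.hz i) (mul_mem h.hb (pow_mem h.ha j))) h.ea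
    (V := μ ^ i • (P3 F * D3 (μ ^ j))) ?_ (by simp [D3, mul_comm]) ?_
  · simpa [h.ez, _root_.smul_pow, D3_pow] using (h.eb.mul (h.ea.pow j)).smul (μ ^ i)
  · rw [← hi, ← hj]
    ext k l
    fin_cases k <;> fin_cases l <;> simp [P3, D3, vecMul_diagonal]
    · left; linear_combination (-d 0) * ((d 0 ^ 3 * d 1 ^ 3) * hd 2 + d 0 ^ 3 * hd 1 + hd 0)
    · left; linear_combination (-d 1) * hd 0
    · left; linear_combination (-d 2) * (d 0 ^ 3 * hd 1 + hd 0)

theorem swap_mem [Finite F] {c : F} (hy : Rel g y (c • S3 F)) : y ∈ subgroupNormalizer R := by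
  refine h.mem_norm hy (pow_mem h.ha 2) (pow_mem h.hb 2) (h.ea.pow 2) (h.eb.pow 2) ?_ ?_
  · rw [D3_pow]
    ext k l
    fin_cases k <;> fin_cases l <;> simp [S3, D3, mul_apply, Fin.sum_univ_three, diagonal_apply]
    · ring
    · linear_combination (-c * μ) * cube_of h.hμ
  · ext k l
    fin_cases k <;> fin_cases l <;> simp [S3, P3, pow_two, mul_apply, Fin.sum_univ_three]

theorem unitary {σ : F →+* F} (hσ : σ μ * μ = 1)
    (h1 : cstar σ (a : Matrix (Fin 3) (Fin 3) F) * a = 1)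
    (h2 : cstar σ (b : Matrix (Fin 3) (Fin 3) F) * b = 1) (hy : Rel g y M)
    (hM : cstar σ M * M = 1) : cstar σ (y : Matrix (Fin 3) (Fin 3) F) * y = 1 := by
  have k : ∀ {A B : Matrix (Fin 3) (Fin 3) F}, Rel g A B → cstar σ (g : Matrix (Fin 3) (Fin 3) F) *
      (cstar σ A * A) * g = cstar σ B * (cstar σ (g : Matrix (Fin 3) (Fin 3) F) * g) * B :=
    fun {A B} r => by
      rw [mul_assoc, mul_assoc, r, ← mul_assoc, ← mul_assoc, ← cstar_mul, r, cstar_mul]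
      simp only [mul_assoc]
  have k2 : ∀ {A B : Matrix (Fin 3) (Fin 3) F}, Rel g A B → cstar σ A * A = 1 → B * cstar σ B = 1 →
      cstar σ (g : Matrix (Fin 3) (Fin 3) F) * g * B = B * (cstar σ (g : Matrix (Fin 3) (Fin 3) F) * g) :=
    fun {A B} r e e' => by
      have := k r
      rw [e, mul_one] at this
      rw [mul_eq_one_comm] at e'
      conv_lhs => rw [← one_mul (_ * B), ← mul_eq_one_comm.1 e', mul_assoc, ← mul_assoc _ _ B, ← this]
  obtain ⟨c, hc⟩ := eq_smul_of_comm h.hμ h.h3 (k2 h.ea h1 (by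
      ext k l
      fin_cases k <;> fin_cases l <;> simp [D3, cstar_apply, mul_apply, Fin.sum_univ_three, diagonal_apply]
      · linear_combination hσ
      · linear_combination (σ μ * μ + 1) * hσ))
    (k2 h.eb h2 (by
      ext k l
      fin_cases k <;> fin_cases l <;> simp [P3, cstar_apply, mul_apply, Fin.sum_univ_three]))
  have := k hy
  rw [hc, mul_smul_comm, mul_one, smul_mul_assoc, hM, ← hc] at this
  exact (isUnit_cstar σ g.isUnit).mul_left_cancel (by simpa using g.isUnit.mul_right_cancel this)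

theorem S3_charpoly : (-S3 F).charpoly = (X - C 1) * (X - C (-1)) ^ 2 := by
  simp [charpoly, det_fin_three, S3, charmatrix_apply]
  ring

theorem el_iff [Fintype F] {Q r : ℕ} [hr : Fact r.Prime] (hQ : Q ∣ Fintype.card F - 1) (h6 : 6 ∣ Q)
    (hC : CC G G') (hG : G ≤ specialLinear (Fin 3) F) (hRG : R ≤ G)
    (h81 : 81 ∣ Nat.card G → 9 ∣ Q)
    (hU : ∀ (y : GL (Fin 3) F) M, Rel g y M → (∀ σ : F →+* F, (∀ c : F, c ^ Q = 1 → σ c * c = 1) →
      cstar σ M * M = 1) → y ∈ G')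
    (hR : Nat.card R = 27) (hΩ : r ∣ (subgroupNormalizer R).relIndex G) :
    ElN G (subgroupNormalizer R) r ↔ r = 2 ∨ (r = 3 ∧ 9 ∣ Q) := by
  have hq : ∀ {k} (c : F), k ∣ Q → c ^ k = 1 → c ^ Q = 1 := fun c ⟨m, e⟩ h => by
    rw [e, pow_mul, h, one_pow]
  refine ⟨fun h1 => ?_, ?_⟩
  · by_contra h2
    push Not at h2
    by_cases h3 : r = 3
    · exact h2.2 h3 (h81 (by simpa [h3, hR] using mul_card_dvd_of_le le_normalizer hRG hΩ))
    obtain ⟨x, hx, h4, h5⟩ := exists_of_relIndex hG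
      ((Nat.coprime_primes hr.out Nat.prime_three).2 h3) hΩ
    obtain ⟨-, y, -, h7, h8, h9, -⟩ := h1.exists hx h4 h5
    have h10 := H4.card_modEq_card_inf_centralizer h7 (k := 1) (by rw [pow_one, h8])
    have hz : orderOf z = 3 := orderOf_eq_prime
      (Units.ext (by simp [h.ez, _root_.smul_pow, cube_of h.hμ])) fun e => h.h3 (by
        have := smul_left_injective F (one_ne_zero (α := Matrix (Fin 3) (Fin 3) F))
          (h.ez.symm.trans ((congrArg Units.val e).trans (one_smul F _).symm))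
        linear_combination h.hμ - (μ + 2) * this)
    have h11 : 3 ∣ Nat.card (R ⊓ centralizer {y} : Subgroup _) := hz.symm.dvd.trans
      (Subgroup.orderOf_dvd_natCard _
        (mem_inf.2 ⟨h.hz, mem_centralizer_singleton_iff.2 (Units.ext (by simp [h.ez]))⟩))
    have h12 := card_dvd_of_le (inf_le_left : R ⊓ centralizer {y} ≤ R)
    rw [hR] at h10 h12
    obtain ⟨k, hk, e⟩ := (Nat.dvd_prime_pow Nat.prime_three (m := 3)).1 h12
    have h13 : ∀ m n, r ∣ 2 ^ m * 3 ^ n → False := fun m n e =>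
      ((Nat.Prime.dvd_mul hr.out).1 e).elim
        (fun e => h2.1 ((Nat.prime_dvd_prime_iff_eq hr.out Nat.prime_two).1 (hr.out.dvd_of_dvd_pow e)))
        fun e => h3 ((Nat.prime_dvd_prime_iff_eq hr.out Nat.prime_three).1 (hr.out.dvd_of_dvd_pow e))
    interval_cases k
    · rw [e] at h11; omega
    · exact h13 3 1 ((Nat.modEq_iff_dvd' (by omega)).1 (e ▸ h10).symm)
    · exact h13 1 2 ((Nat.modEq_iff_dvd' (by omega)).1 (e ▸ h10).symm)
    · have h14 : R ⊓ centralizer {y} = R := eq_of_le_of_card_ge inf_le_left (by rw [e, hR]; rfl)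
      obtain ⟨c, hc⟩ := h.scalar (mem_centralizer_singleton_iff.1 (h14.ge h.ha).2).symm
        (mem_centralizer_singleton_iff.1 (h14.ge h.hb).2).symm
      exact h9 c hc
  have h0 : ∀ k : ℕ, k ∣ Q → (k : F) ≠ 0 ∧ (X ^ k - C 1 : F[X]).Splits := fun k hk => by
    obtain ⟨ω, hω⟩ := exists_primitive (hk.trans hQ)
    have := NeZero.of_pos (Nat.pos_of_dvd_of_pos (hk.trans hQ)
      (Nat.pos_of_ne_zero (card_sub_one_ne_zero F)))
    exact ⟨hω.neZero'.ne, X_pow_sub_one_splits hω⟩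
  rintro (rfl | ⟨rfl, h9⟩) x hx ⟨t, ht⟩ hn
  · have h1 : t ^ 3 = 1 := pow_card_eq_one (hG hx) ht
    have h2 := h0 2 (dvd_trans (by decide) h6)
    have h3 : (t • (x : Matrix (Fin 3) (Fin 3) F)) ^ 2 = 1 := by
      rw [_root_.smul_pow, ← Units.val_pow_eq_pow_val, ht, smul_smul, ← pow_succ, h1, one_smul]
    have h4 : (x : Matrix (Fin 3) (Fin 3) F) = t ^ 2 • t • (x : Matrix (Fin 3) (Fin 3) F) := by
      rw [smul_smul, ← pow_succ, h1, one_smul]
    have t0 : t ^ 2 ≠ 0 := fun e => by simp [pow_succ _ 2, e] at h1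
    have h5 : (-S3 F) ^ 2 = 1 := by
      ext k l
      fin_cases k <;> fin_cases l <;> simp [S3, pow_two, mul_apply, Fin.sum_univ_three]
    obtain ⟨y, hy⟩ := exists_rel g (IsUnit.of_pow_eq_one h5 two_ne_zero)
    obtain ⟨y', hy'⟩ := exists_rel g (B := t ^ 2 • -S3 F) (ss_smul h2.1 t0 h5).isUnit
    obtain ⟨P, d, h7, h8⟩ := exists_eig h2.1 h2.2 h3
    refine hC.conj h2.1 hx t0 h4 h3 (hU _ _ hy' fun σ hσ => ?_)
      (h.swap_mem (c := -t ^ 2) (by simpa using hy')) (hy'.inj (hy.smul _)) (hy.pow_eq_one.2 h5) ?_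
    · have := hσ (t ^ 2) (hq _ (dvd_trans (show 3 ∣ 6 by decide) h6) (by
        rw [← pow_mul, mul_comm, pow_mul, h1, one_pow]))
      ext k l
      fin_cases k <;> fin_cases l <;> simp [S3, cstar_apply, mul_apply, Fin.sum_univ_three] <;>
        simpa using this
    · have h9 := h8.det
      rw [det_smul, mem_sl.1 (hG hx), det_diagonal, Fin.prod_univ_three, Fintype.card_fin, h1] at h9
      have h10 : ∀ c, (∀ i, d i = c) → False := fun c e => hn (t ^ 2 * c) (by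
        rw [h4, h8.scalar.2 (by rw [funext e, smul_one_eq_diagonal]), smul_smul])
      rw [h8.charpoly, hy.charpoly, S3_charpoly h, charpoly_diagonal, Fin.prod_univ_three]
      have h11 : (2 : F) ≠ 0 := by simpa using h2.1
      rcases sq_eq_one_iff.1 (h7 0) with e0 | e0 <;>
      rcases sq_eq_one_iff.1 (h7 1) with e1 | e1 <;>
      rcases sq_eq_one_iff.1 (h7 2) with e2 | e2 <;>
      rw [e0, e1, e2] at h9 ⊢ <;>
      first
        | ring1
        | exact absurd (by linear_combination h9) h11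
        | exact (h10 1 fun i => by fin_cases i <;> assumption).elim
  · have h1 : t ^ 3 = 1 := pow_card_eq_one (hG hx) ht
    have h2 := h0 3 (dvd_trans (by decide) h9)
    obtain ⟨c, c1, c2⟩ := (exists_pow_mu_iff (r := 3) ((show 9 ∣ Q from h9).trans hQ) (by decide)
      (show t ^ 9 = 1 by rw [pow_mul t 3 3, h1, one_pow])).2 h1
    have c0 : c ≠ 0 := fun e => by simp [e] at c1
    have h3 : (c⁻¹ • (x : Matrix (Fin 3) (Fin 3) F)) ^ 3 = 1 := by
      rw [_root_.smul_pow, ← Units.val_pow_eq_pow_val, ht, smul_smul, ← c2, ← mul_pow,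
        inv_mul_cancel₀ c0, one_pow, one_smul]
    obtain ⟨P, d, h7, h8⟩ := exists_eig h2.1 h2.2 h3
    have h5 := h8.pow_eq_one.1 h3
    obtain ⟨y, hy⟩ := exists_rel g (IsUnit.of_pow_eq_one h5 three_ne_zero)
    obtain ⟨y', hy'⟩ := exists_rel g (B := c • diagonal d) (ss_smul h2.1 c0 h5).isUnit
    refine hC.conj h2.1 hx c0 (smul_inv_smul₀ c0 _).symm h3 (hU _ _ hy' fun σ hσ => ?_)
      (h.dg_mem h7 hy') (hy'.inj (hy.smul _)) (hy.pow_eq_one.2 h5) (h8.charpoly.trans hy.charpoly.symm)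
    rw [← diagonal_smul, cstar_apply, diagonal_map (map_zero σ), diagonal_transpose,
      diagonal_mul_diagonal, ← diagonal_one]
    congr 1
    ext i
    exact hσ _ (hq _ h9 (by rw [Pi.smul_apply, smul_eq_mul, mul_pow, c1, pow_mul _ 3 3, h7]; simp))

end Fr3

theorem card_inf_sl {ι : Type} [Fintype ι] [DecidableEq ι] (K : Subgroup (GL ι F)) :
    Nat.card (K ⊓ specialLinear ι F : Subgroup _) =
      Nat.card (K.comap (SpecialLinearGroup.toGL : SpecialLinearGroup ι F →* GL ι F)) := by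
  rw [← range_toGL, inf_comm, ← map_comap_eq, card_map_of_injective SpecialLinearGroup.toGL_injective]

theorem exists_omega [Fintype F] (h : 3 ∣ Fintype.card F - 1) :
    (3 : F) ≠ 0 ∧ ∃ ω : F, ω ^ 2 + ω + 1 = 0 := by
  obtain ⟨ω, hω⟩ := exists_primitive h
  have := hω.geom_sum_eq_zero (by decide)
  simp only [Finset.sum_range_succ, Finset.range_zero, Finset.sum_empty] at this
  exact ⟨hω.neZero'.ne, ω, by linear_combination this⟩

theorem sl3_row [Fintype F] {p r : ℕ} [hp : Fact p.Prime] [Fact r.Prime] (hF : Fintype.card F = p)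
    (hp3 : p % 3 = 1) (hR : Nat.card R = 27) (hRe : Monoid.exponent R = 3)
    (hna : ¬ IsMulCommutative R) (hΩ : r ∣ (subgroupNormalizer R).relIndex (specialLinear (Fin 3) F)) :
    ElN (specialLinear (Fin 3) F) (subgroupNormalizer R) r ↔ r = 2 ∨ (r = 3 ∧ p % 9 = 1) := by
  have h2 := hp.out.eq_two_or_odd
  have h1 := hp.out.two_le
  obtain ⟨h3, ω, hω⟩ := exists_omega (F := F) (by omega)
  obtain ⟨μ, g, a, b, z, h⟩ := exists_fr3 hω h3 hR hRe hna
  rw [h.el_iff (Q := p - 1) (by rw [hF]) (by omega) cc_sl le_rfl h.le_sl (fun e => ?_)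
    (fun _ _ _ _ => trivial) hR hΩ, show 9 ∣ p - 1 ↔ p % 9 = 1 by omega]
  rw [← top_inf_eq (specialLinear _ _), card_inf_sl, comap_top, card_top,
    card_specialLinear (m := 2) (by simp), hF, ← ZMod.natCast_eq_zero_iff] at e
  simp only [Finset.prod_range_succ, Finset.range_zero, Finset.prod_empty] at e
  rw [Nat.cast_mul, Nat.cast_mul, Nat.cast_mul, Nat.cast_pred (by positivity),
    Nat.cast_pred (by positivity)] at e
  push_cast at e
  rw [← ZMod.natCast_mod] at e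
  have : ∀ t < 81, t % 3 = 1 → ((t : ℕ) : ZMod 81) ^ 3 * (1 * ((t : ZMod 81) ^ 2 - 1) *
    ((t : ZMod 81) ^ 3 - 1)) = 0 → t % 9 = 1 := by decide +kernel
  have := this _ (Nat.mod_lt _ (by decide)) (by omega) e
  omega

theorem su3_row [Fintype F] {p r : ℕ} [hp : Fact p.Prime] [Fact r.Prime]
    (hF : Fintype.card F = p ^ 2) (h5 : 5 ≤ p) (hp3 : p % 3 = 2) (hU : R ≤ Cfsg.GU 3 F p)
    (hR : Nat.card R = 27) (hRe : Monoid.exponent R = 3) (hna : ¬ IsMulCommutative R)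
    (hΩ : r ∣ (subgroupNormalizer R).relIndex (Cfsg.GU 3 F p ⊓ specialLinear (Fin 3) F)) :
    ElN (Cfsg.GU 3 F p ⊓ specialLinear (Fin 3) F) (subgroupNormalizer R) r ↔
      r = 2 ∨ (r = 3 ∧ p % 9 = 8) := by
  have h2 := hp.out.eq_two_or_odd
  have h4 : p + 1 ∣ Fintype.card F - 1 := hF ▸ ⟨p - 1, by rw [← Nat.sq_sub_sq, one_pow]⟩
  obtain ⟨h3, ω, hω⟩ := exists_omega (F := F) (dvd_trans (by omega) h4)
  obtain ⟨μ, g, a, b, z, h⟩ := exists_fr3 hω h3 hR hRe hna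
  obtain ⟨σ, hσ, -, -⟩ := exists_conjHom hF
  have h6 : ∀ c : F, c ^ (p + 1) = 1 → σ c * c = 1 := fun c e => by rw [hσ, ← pow_succ, e]
  rw [h.el_iff (Q := p + 1) h4 (by omega) (cc_su hF) inf_le_right (le_inf hU h.le_sl) (fun e => ?_)
    (fun y M hy hM => (mem_GU_iff hσ _).2 (h.unitary (h6 _ (by
      obtain ⟨k, hk⟩ : 3 ∣ p + 1 := by omega
      rw [hk, pow_mul, cube_of h.hμ, one_pow])) ((mem_GU_iff hσ _).1 (hU h.ha))
      ((mem_GU_iff hσ _).1 (hU h.hb)) hy (hM σ h6))) hR hΩ, show 9 ∣ p + 1 ↔ p % 9 = 8 by omega]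
  rw [card_inf_sl, show (Cfsg.GU 3 F p).comap _ = Cfsg.SU 3 F p from rfl, H65.card_SU_succ hF 2,
    ← ZMod.natCast_eq_zero_iff] at e
  simp only [Finset.prod_range_succ, Finset.range_zero, Finset.prod_empty] at e
  rw [H65.uu_even (by decide), H65.uu_odd (by decide), Nat.cast_mul, Nat.cast_mul, Nat.cast_mul,
    Nat.cast_pred (by positivity)] at e
  push_cast at e
  rw [← ZMod.natCast_mod] at e
  have : ∀ t < 81, t % 3 = 2 → ((t : ℕ) : ZMod 81) ^ 3 * (1 * ((t : ZMod 81) ^ 2 - 1) *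
    ((t : ZMod 81) ^ 3 + 1)) = 0 → t % 9 = 8 := by decide +kernel
  have := this _ (Nat.mod_lt _ (by decide)) (by omega) e
  omega

end H99
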