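import Cfsg.Agent.Lib.Elusive.ExB
import Cfsg.Agent.Lib.Cliff.RowsLU

/-! Elements of odd prime order normalising a Pauli system in dimension four. -/

set_option autoImplicit false
set_option linter.unusedSectionVars false

namespace H99.Pa

open Module H97c H97c.Pauli LinearMap

variable {F V E : Type*} [Field F] [AddCommGroup V] [Module F V] [FiniteDimensional F V]
  [AddCommGroup E] [Module (ZMod 2) E] [Finite E] {P : Pauli F V E} {φ ψ κ : End F V} {r : ℕ}
  {γ : E ≃ₗ[ZMod 2] E} {x y a b a' b' : E}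

theorem finrank_E (P : Pauli F V E) (h4 : finrank F V = 4) : finrank (ZMod 2) E = 4 :=
  Nat.pow_right_injective le_rfl (by simpa [h4] using P.finrank_sq.symm)

theorem card_E (P : Pauli F V E) (h4 : finrank F V = 4) : Nat.card E = 16 := by
  rw [Module.natCard_eq_pow_finrank (K := ZMod 2), finrank_E P h4, Nat.card_zmod]; rfl

theorem trace_anti (h2 : (2 : F) ≠ 0) (hψ : IsUnit ψ) (h : κ * ψ = -(ψ * κ)) : trace F V κ = 0 := by
  obtain ⟨u, rfl⟩ := hψ
  have := congrArg (fun t => trace F V (t * (u⁻¹ : (End F V)ˣ))) h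
  simp only [neg_mul, map_neg] at this
  rw [Units.mul_inv_cancel_right, trace_mul_cycle, Units.inv_mul, one_mul] at this
  exact (mul_eq_zero.1 (by linear_combination this : 2 * trace F V κ = 0)).resolve_left h2

theorem trace_l (hx : x ≠ 0) : trace F V (P.l x) = 0 :=
  (P.exists_B hx).elim fun y h => trace_anti P.two (P.l_unit y) (l_anti h)

theorem avg [Fintype E] (h4 : finrank F V = 4) (ψ : End F V) :
    ∑ x, sg F (P.q x) • (P.l x * (ψ * P.l x)) = (4 * trace F V ψ) • 1 := by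
  let κ : E → End F V := fun x => sg F (P.q x) • (P.l x * (ψ * P.l x))
  have k1 : ∀ x, κ x * P.l x = P.l x * ψ := fun x => by
    simp only [κ, smul_mul_assoc, mul_assoc, P.sq, mul_smul_comm, smul_smul, sg_mul_self, one_smul,
      mul_one]
  have k2 : ∀ w x, κ (w + x) * P.l w = P.l w * κ x := fun w x => by
    obtain ⟨c, hc, e⟩ := P.add' w x
    refine (P.l_unit x).mul_right_cancel ?_
    rw [mul_assoc (P.l w), k1, mul_assoc, e, mul_smul_comm, k1, ← mul_assoc, e, smul_mul_assoc]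
  obtain ⟨c, hc⟩ := P.cent (∑ x, κ x) fun w => by
    rw [Finset.sum_mul, Finset.mul_sum, ← Equiv.sum_comp (Equiv.addLeft w)]
    exact Finset.sum_congr rfl fun x _ => k2 w x
  have h1 : ∀ x, trace F V (κ x) = trace F V ψ := fun x => by
    simp only [κ]
    rw [map_smul, trace_mul_comm, mul_assoc, P.sq]
    simp [← mul_assoc]
  have h2 := congrArg (trace F V) hc
  rw [map_sum, map_smul, trace_one, h4] at h2
  simp only [h1, Finset.sum_const, Finset.card_univ, ← Nat.card_eq_fintype_card, card_E P h4,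
    nsmul_eq_mul, smul_eq_mul] at h2
  rw [show ∑ x, κ x = c • 1 from hc]
  congr 1
  refine mul_left_cancel₀ (mul_ne_zero P.two P.two) ?_
  push_cast at h2
  linear_combination -h2

theorem mp_pow (h : ∀ x, P.Mp φ x (γ x)) (k : ℕ) (x : E) : P.Mp (φ ^ k) x ((γ ^ k) x) := by
  induction k with
  | zero => simpa using mp_one x
  | succ k ih => rw [pow_succ', pow_succ']; exact (h _).mul ih

theorem pow_eq_one_of (h : ∀ x, P.Mp φ x (γ x)) {k : ℕ} {c : F} (hc : c ≠ 0) (e : φ ^ k = c • 1) :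
    γ ^ k = 1 := LinearEquiv.ext fun x =>
  (e ▸ mp_pow h k x).uniq (isUnit_smul isUnit_one hc) ((mp_one x).smul c)

/-- An element of odd order `r` with its action on the symplectic space. -/
structure Act (P : Pauli F V E) (r : ℕ) (φ : End F V) (γ : E ≃ₗ[ZMod 2] E) : Prop where
  mp : ∀ x, P.Mp φ x (γ x)
  pow : φ ^ r = 1
  odd : Odd r

theorem exists_act (h : P.Nm φ) (h1 : φ ^ r = 1) (hr : Odd r) : ∃ γ, Act P r φ γ :=
  (h.act (IsUnit.of_pow_eq_one h1 hr.pos.ne')).imp fun _ e => ⟨e, h1, hr⟩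

theorem finrank_ker_le (hψ : IsUnit ψ) (h : κ * ψ = -(ψ * κ)) :
    finrank F (ker (κ - 1)) ≤ finrank F (ker (κ + 1)) := by
  rw [(Submodule.equivMapOfInjective ψ ((End.isUnit_iff ψ).1 hψ).1 _).finrank_eq]
  refine Submodule.finrank_mono ?_
  rintro _ ⟨v, hv, rfl⟩
  have h1 : κ v = v := by simpa [sub_eq_zero] using hv
  simpa [h1, add_eq_zero_iff_eq_neg] using LinearMap.congr_fun h v

theorem pow_eigen {w : V} {c : F} (h0 : w ≠ 0) (h : φ w = c • w) (h1 : φ ^ r = 1) : c ^ r = 1 := by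
  have : ∀ k, (φ ^ k) w = c ^ k • w := fun k => by
    induction k with
    | zero => simp
    | succ k ih => rw [pow_succ', End.mul_apply, ih, map_smul, h, smul_smul, pow_succ]
  exact smul_left_injective F h0 (by simpa [h1] using (this r).symm)

namespace Act

variable (h : Act P r φ γ)
include h

theorem unit : IsUnit φ := IsUnit.of_pow_eq_one h.pow h.odd.pos.ne'

theorem B (x y : E) : P.B (γ x) (γ y) = P.B x y := (h.mp x).B h.unit (h.mp y)

theorem pow_eq : γ ^ r = 1 := pow_eq_one_of h.mp one_ne_zero (by rw [h.pow, one_smul])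

theorem comm (hx : γ x = x) : φ * P.l x = P.l x * φ := by
  obtain ⟨s, hs⟩ := Mp.sign h.unit (x := x) (by simpa [hx] using h.mp x)
  rcases z2 s with rfl | rfl
  · simpa using hs
  have h1 : ∀ k, φ ^ k * P.l x = (-1 : F) ^ k • (P.l x * φ ^ k) := fun k => by
    induction k with
    | zero => simp
    | succ k ih =>
      rw [pow_succ, mul_assoc, hs, mul_smul_comm, ← mul_assoc, ih, smul_mul_assoc, smul_smul,
        mul_assoc, sg_one, pow_succ']
  have h2 := h1 r
  rw [h.pow, one_mul, mul_one, h.odd.neg_one_pow] at h2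
  exact absurd (by linear_combination P.smul_inj (P.l_unit x) ((one_smul F _).trans h2)) P.two

theorem scalar (hx : ∀ x, γ x = x) : ∃ c : F, φ = c • 1 := P.cent φ fun x => h.comm (hx x)

theorem trace_mul (h4 : finrank F V = 4) (e : φ * ψ = 1) :
    trace F V φ * trace F V ψ = Nat.card {x // γ x = x} := by
  classical
  have := Fintype.ofFinite E
  have h1 := congrArg (fun t => trace F V (t * ψ)) (avg (P := P) h4 φ)
  have h2 : ∀ x, trace F V ((sg F (P.q x) • (P.l x * (φ * P.l x))) * ψ) =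
      if γ x = x then 4 else 0 := fun x => by
    split_ifs with hx
    · rw [h.comm hx, P.l_l, smul_smul, sg_mul_self, one_smul, e, trace_one, h4]; simp
    · obtain ⟨c, -, e1⟩ := h.mp x
      obtain ⟨d, -, e2⟩ := P.add' x (γ x)
      rw [e1, smul_mul_assoc, mul_smul_comm, smul_mul_assoc, ← mul_assoc, mul_assoc, e, mul_one, e2]
      simp [trace_l (P := P) fun e => hx (add_eq_zero2.1 e).symm]
  simp only [Finset.sum_mul, map_sum, h2] at h1
  rw [← Finset.sum_filter, Finset.sum_const, nsmul_eq_mul, smul_mul_assoc, one_mul, map_smul,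
    smul_eq_mul] at h1
  rw [Nat.card_eq_fintype_card, Fintype.card_subtype]
  exact mul_left_cancel₀ (mul_ne_zero P.two P.two) (by linear_combination -h1)

theorem sum_fix (y : E) : γ (∑ k ∈ Finset.range r, (γ ^ k) y) = ∑ k ∈ Finset.range r, (γ ^ k) y := by
  have h1 := Finset.sum_range_succ' (fun k => (γ ^ k) y) r
  rw [Finset.sum_range_succ, h.pow_eq] at h1
  rw [map_sum]
  simpa [pow_succ'] using h1.symm

theorem exists_fix (hx : γ x = x) (h0 : x ≠ 0) : ∃ y, γ y = y ∧ P.B x y = 1 := by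
  obtain ⟨y, hy⟩ := P.exists_B h0
  refine ⟨_, h.sum_fix y, ?_⟩
  have : ∀ k, P.B x ((γ ^ k) y) = 1 := fun k => by
    induction k with
    | zero => simpa
    | succ k ih => rw [pow_succ', LinearEquiv.mul_apply, ← hx, h.B, ih]
  simp [this, h.odd.natCast_zmod_two]

theorem cases (h4 : finrank F V = 4) [hr : Fact r.Prime] (hn : ∀ c : F, φ ≠ c • 1) :
    (Nat.card {x // γ x = x} = 1 ∧ (r = 3 ∨ r = 5)) ∨ (Nat.card {x // γ x = x} = 4 ∧ r = 3) := by
  classical
  have := Fintype.ofFinite E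
  have h1 : Nat.card {x // γ x = x} = Nat.card (fixS (γ : End (ZMod 2) E)) :=
    Nat.card_congr (Equiv.subtypeEquivRight fun _ => mem_fixS.symm)
  have h2 : 16 ≡ Nat.card {x // γ x = x} [MOD r] := by
    have := Equiv.Perm.card_fixedPoints_modEq (f := (γ : E → E)) (p := r) (n := 1) (by
      rw [pow_one]
      funext x
      have := LinearEquiv.congr_fun h.pow_eq x
      rwa [LinearEquiv.pow_apply] at this)
    rwa [← Nat.card_eq_fintype_card, card_E P h4, ← Nat.card_eq_fintype_card] at this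
  have h3 : ∀ {m n}, r ∣ 2 ^ m * n → r ∣ n := fun e =>
    ((Nat.Prime.dvd_mul hr.out).1 e).resolve_left fun e => by
      have := (Nat.prime_dvd_prime_iff_eq hr.out Nat.prime_two).1 (hr.out.dvd_of_dvd_pow e)
      exact absurd h.odd (by rw [this]; decide)
  have h5 : ∀ {p}, p.Prime → r ∣ p → r = p := fun hp e => (Nat.prime_dvd_prime_iff_eq hr.out hp).1 e
  have h6 := Submodule.finrank_le (fixS (γ : End (ZMod 2) E))
  rw [Module.natCard_eq_pow_finrank (K := ZMod 2) (V := fixS _), Nat.card_zmod] at h1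
  rw [finrank_E P h4] at h6
  generalize hk : finrank (ZMod 2) (fixS (γ : End (ZMod 2) E)) = k at h1 h6
  rw [h1] at h2 ⊢
  interval_cases k
  · exact .inl ⟨rfl, ((Nat.Prime.dvd_mul hr.out (m := 3) (n := 5)).1
      ((Nat.modEq_iff_dvd' (by omega)).1 h2.symm)).imp (h5 Nat.prime_three) (h5 Nat.prime_five)⟩
  · obtain ⟨⟨x, hx⟩, h7, h8⟩ := (Nat.card_eq_two_iff' (⟨0, map_zero γ⟩ : {x // γ x = x})).1 h1
    obtain ⟨y, hy, h9⟩ := h.exists_fix hx fun e => h7 (Subtype.ext e)
    have := h8 ⟨y, hy⟩ fun e => P.ne_zero_of_B (P.symm y x ▸ h9) (congrArg Subtype.val e)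
    rw [show y = x from congrArg Subtype.val this, P.alt] at h9
    exact absurd h9 (by decide)
  · exact .inr ⟨rfl, h5 Nat.prime_three
      (h3 (m := 2) ((Nat.modEq_iff_dvd' (by omega)).1 h2.symm))⟩
  · exact absurd (h3 (m := 3) (n := 1) ((Nat.modEq_iff_dvd' (by omega)).1 h2.symm))
      hr.out.not_dvd_one
  · obtain ⟨c, hc⟩ := h.scalar fun x => mem_fixS.1
      ((Submodule.eq_top_of_finrank_eq (hk.trans (finrank_E P h4).symm)).ge Submodule.mem_top)
    exact absurd hc (hn c)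

theorem not_hom (h4 : finrank F V = 4) {w : V} (hw : ∀ v, ∃ c : F, φ v = v + c • w) :
    ∃ c : F, φ = c • 1 := by
  by_contra hn
  obtain ⟨x, hx⟩ := not_forall.1 (mt h.scalar hn)
  obtain ⟨u, rfl⟩ := h.unit
  obtain ⟨L, hL⟩ := P.l_unit x
  have w0 : w ≠ 0 := fun e => hn ⟨1, LinearMap.ext fun v => by simpa [e] using hw v⟩
  have hw' : ∀ v, ∃ c : F, (u⁻¹).1 v = v + c • w := fun v => (hw ((u⁻¹).1 v)).elim fun c e =>
    ⟨-c, by rw [← End.mul_apply, Units.mul_inv, End.one_apply] at e; rw [neg_smul, ← sub_eq_add_neg,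
      eq_sub_iff_add_eq, ← e]⟩
  obtain ⟨c, -, e1⟩ := h.mp x
  obtain ⟨d, -, e2⟩ := P.add' (γ x) x
  obtain ⟨f, hf⟩ := P.exists_B (x := γ x + x) fun e => hx (add_eq_zero2.1 e)
  set κ : End F V := u * (L * (u⁻¹).1 * (L⁻¹).1) with hκ
  have e3 : κ = (c * sg F (P.q x) * d) • P.l (γ x + x) := by
    refine L.isUnit.mul_right_cancel ?_
    rw [hκ, mul_assoc, Units.inv_mul_cancel_right, ← mul_assoc, hL, e1, mul_smul, ← e2, mul_smul]
    simp [mul_assoc, P.sq, smul_smul]
  have h1 := finrank_ker_le (P.l_unit f) (κ := κ) (by rw [e3, smul_mul_assoc, l_anti hf]; simp)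
  have h2 := finrank_range_add_finrank_ker (κ - 1)
  have h3 : range (κ - 1) ≤ Submodule.span F {w, L.1 w} := by
    rintro _ ⟨v, rfl⟩
    obtain ⟨s, hs⟩ := hw' ((L⁻¹).1 v)
    obtain ⟨t, ht⟩ := hw (v + s • L.1 w)
    refine Submodule.mem_span_pair.2 ⟨t, s, ?_⟩
    simp only [hκ, LinearMap.sub_apply, End.mul_apply, hs, map_add L.1, map_smul L.1, End.one_apply]
    rw [← End.mul_apply L.1, Units.mul_inv, End.one_apply, ht]
    abel
  have h5 : ker (κ + 1) ≤ range (κ - 1) := fun v hv => ⟨(-2 : F)⁻¹ • v, by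
    have : κ v = -v := by simpa [add_eq_zero_iff_eq_neg] using hv
    rw [map_smul, LinearMap.sub_apply, this, End.one_apply, inv_smul_eq_iff₀ (neg_ne_zero.2 P.two)]
    module⟩
  have h6 : finrank F (Submodule.span F {w, L.1 w}) ≤ 2 := by
    classical
    exact (finrank_span_le_card _).trans (by simpa using Finset.card_le_two)
  have h7 := Submodule.finrank_mono h3
  have h8 : w ∈ ker (κ + 1) := (Submodule.eq_of_le_of_finrank_le (h5.trans h3) (by omega)).ge
    (Submodule.subset_span (by simp))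
  obtain ⟨s, hs⟩ := hw' w
  have h9 : (u⁻¹).1 ^ r = 1 := by
    rw [← Units.val_pow_eq_pow_val, inv_pow, show u ^ r = 1 from Units.ext h.pow]; simp
  have h10 := pow_eigen w0 (c := 1 + s) (by rw [hs]; module) h9
  have h11 := pow_eigen w0 (φ := L.1 * (u⁻¹).1 * (L⁻¹).1) (c := -(1 + s)) (r := r) (by
    have := congrArg (u⁻¹).1 (show κ w = -w by simpa [add_eq_zero_iff_eq_neg] using h8)
    rw [hκ, ← End.mul_apply, Units.inv_mul_cancel_left, map_neg, hs] at this
    rw [this]; module) (by rw [Units.conj_pow, h9]; simp)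
  rw [h.odd.neg_pow, h10] at h11
  exact P.two (by linear_combination -h11)

end Act

/-- The quadratic form has Witt index at most one. -/
def Minus (P : Pauli F V E) : Prop := (∀ x y, P.q (x + y) = P.q x + P.q y + P.B x y) ∧
  ∀ x y, P.q x = 0 → P.q y = 0 → P.B x y = 0 → x = 0 ∨ y = 0 ∨ x = y

theorem Act.card_ne_one (h : Act P 3 φ γ) (hm : Minus P) (hq : ∀ x, P.q (γ x) = P.q x) (h0 : x ≠ 0)
    (hx : P.q x = 0) : Nat.card {x // γ x = x} ≠ 1 := fun e => by
  have h1 : ∀ y, γ y = y → y = 0 := fun y hy => congrArg Subtype.val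
    ((Nat.card_eq_one_iff_unique.1 e).1.elim (⟨y, hy⟩ : {x // γ x = x}) ⟨0, map_zero γ⟩)
  have h2 := h1 _ (h.sum_fix x)
  simp only [Finset.sum_range_succ, Finset.range_zero, Finset.sum_empty, zero_add, pow_zero,
    pow_succ, one_mul, LinearEquiv.mul_apply, LinearEquiv.coe_one, id_eq] at h2
  have h3 := hm.1 x (γ x)
  rw [add_eq_zero2.1 h2, hq, hq, hx, zero_add, zero_add] at h3
  rcases hm.2 x (γ x) hx (by rw [hq, hx]) h3.symm with h4 | h4 | h4
  exacts [h0 h4, h0 (by simpa using h4), h0 (h1 x h4.symm)]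

/-- A symplectic basis with prescribed values of `q`. -/
structure Fr4 (P : Pauli F V E) (a b a' b' : E) : Prop where
  ab : P.B a b = 1
  ab' : P.B a' b' = 1
  h1 : P.B a a' = 0
  h2 : P.B a b' = 0
  h3 : P.B b a' = 0
  h4 : P.B b b' = 0
  qa : P.q a = 1
  qb' : P.q b' = 1

theorem exists_fr4 (P : Pauli F V E) (h4 : finrank F V = 4) : ∃ a b a' b', Fr4 P a b a' b' := by
  have h := finrank_E P h4
  obtain ⟨e, he, -⟩ := P.exS_list [] (by simp; omega)
  obtain ⟨f, hef⟩ := P.exists_B (P.ne_zero_of_q he)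
  obtain ⟨e', he', h1⟩ := P.exS_list' [e, f] (by simp; omega) (a := e) (b := f) (by simp) (by simp) hef
  obtain ⟨f', hf'⟩ := P.exists_B (P.ne_zero_of_q he')
  have h2 := mem_hp.1 (hp_dec hef f')
  have h3 := h1 e (by simp)
  have h5 := h1 f (by simp)
  exact ⟨e, f, _, e', hef, by simp [P.symm f' e', hf', h3, h5], h2.1, h3, h2.2, h5, he, he'⟩

theorem Fr4.swap (h : Fr4 P a b a' b') : Fr4 P b' a' b a :=
  ⟨P.symm _ _ ▸ h.ab', P.symm _ _ ▸ h.ab, P.symm _ _ ▸ h.h4, P.symm _ _ ▸ h.h2, P.symm _ _ ▸ h.h3,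
    P.symm _ _ ▸ h.h1, h.qb', h.qa⟩

theorem Minus.exists_fr4 (hm : Minus P) (h4 : finrank F V = 4) :
    ∃ a b a' b', Fr4 P a b a' b' ∧ P.q b = 1 ∧ P.q a' = 0 := by
  obtain ⟨a, b, a', b', h⟩ := Pa.exists_fr4 P h4
  have e1 := P.symm b a ▸ h.ab
  have e2 := P.symm b' a' ▸ h.ab'
  rcases z2 (P.q b) with h1 | h1 <;> rcases z2 (P.q a') with h2 | h2
  · rcases hm.2 b a' h1 h2 h.h3 with h3 | h3 | h3
    exacts [absurd h3 (P.ne_zero_of_B e1), absurd h3 (P.ne_zero_of_B h.ab'),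
      absurd (h.h1.symm.trans (h3 ▸ h.ab)) (by decide)]
  · exact ⟨_, _, _, _, h.swap, h2, h1⟩
  · exact ⟨_, _, _, _, h, h1, h2⟩
  · have h3 : P.B (a + b') b = 1 := by simp [h.ab, P.symm b' b, h.h4]
    have h5 : P.B (b + a') a = 1 := by simp [e1, P.symm a' a, h.h1]
    rcases hm.2 (a + b') (b + a') (by rw [hm.1, h.qa, h.qb', h.h2]; rfl)
      (by rw [hm.1, h1, h2, h.h3]; rfl)
      (by simp [h.ab, h.h1, e2, P.symm b' b, h.h4, z2_one_add_one]) with h6 | h6 | h6
    exacts [absurd h6 (P.ne_zero_of_B h3), absurd h6 (P.ne_zero_of_B h5), by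
      simp [h6, P.alt, P.symm a' b, h.h3] at h3]

theorem Fr4.eq_zero (h : Fr4 P a b a' b') (h4 : finrank F V = 4) (h1 : P.B a x = 0)
    (h2 : P.B b x = 0) (h3 : P.B a' x = 0) (h5 : P.B b' x = 0) : x = 0 := by
  let f : E →ₗ[ZMod 2] (Fin 4 → ZMod 2) := LinearMap.pi ![P.B a, P.B b, P.B a', P.B b']
  refine (injective_iff_map_eq_zero f).1 ((injective_iff_surjective_of_finrank_eq_finrank
    (by simp [finrank_E P h4])).2 fun c => ⟨c 0 • b + c 1 • a + c 2 • b' + c 3 • a', ?_⟩) x ?_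
  · ext i
    fin_cases i <;> simp [f, P.alt, h.ab, h.ab', h.h1, h.h2, h.h3, h.h4, P.symm b a, P.symm a' a,
      P.symm a' b, P.symm b' a, P.symm b' b, P.symm b' a']
  · ext i
    fin_cases i <;> simp [f, *]

section Good

variable {σ : F →+* F} {B : V →ₛₗ[σ] V →ₗ[F] F}

/-- An isometry of `B` normalising the Pauli system. -/
def Gd (P : Pauli F V E) (B : V →ₛₗ[σ] V →ₗ[F] F) (φ : End F V) : Prop :=
  P.Nm φ ∧ ∀ u v, B (φ u) (φ v) = B u v

theorem Gd.mul (h : Gd P B φ) (h' : Gd P B ψ) : Gd P B (φ * ψ) :=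
  ⟨h.1.mul h'.1, fun u v => (h.2 _ _).trans (h'.2 u v)⟩

theorem Gd.pow (h : Gd P B φ) (k : ℕ) : Gd P B (φ ^ k) := by
  induction k with
  | zero => exact ⟨nm_one, fun _ _ => rfl⟩
  | succ k ih => rw [pow_succ]; exact ih.mul h

theorem Gd.smul (h : Gd P B φ) {c : F} (hc : ∀ u v, B (c • u) (c • v) = B u v) : Gd P B (c • φ) :=
  ⟨h.1.smul c, fun u v => (hc _ _).trans (h.2 u v)⟩

theorem Gd.neg (h : Gd P B φ) : Gd P B (-φ) := by
  rw [← neg_one_smul F]; exact h.smul (by simp)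

theorem gd_l (hI : P.Iso B) (x : E) : Gd P B (P.l x) := ⟨nm_l x, hI x⟩

/-- The product of two reflections. -/
noncomputable def pr (P : Pauli F V E) (a b : E) : End F V := (2 : F)⁻¹ • ((1 + P.l a) * (1 + P.l b))

theorem gd_pr (hI : P.Iso B) (ha : P.q a = 1) (hb : P.q b = 1) : Gd P B (pr P a b) :=
  ⟨((nm_tau ha).mul (nm_tau hb)).smul _, hI.pair ha hb⟩

theorem pr_unit (ha : P.q a = 1) (hb : P.q b = 1) : IsUnit (pr P a b) :=
  isUnit_smul ((tau_unit ha).mul (tau_unit hb)) (inv_ne_zero P.two)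

theorem pr_pow (ha : P.q a = 1) (hb : P.q b = 1) (hab : P.B a b = 1) : (-pr P a b) ^ 3 = 1 := by
  have h1 := l_sq_of_one ha
  have h2 := l_sq_of_one hb
  have h3 := l_anti (P.symm b a ▸ hab)
  have h4 : ((1 + P.l a) * (1 + P.l b)) ^ 3 = (-8 : F) • 1 := by
    generalize P.l a = A at *
    generalize P.l b = B at *
    have h5 : ∀ X, A * (A * X) = -X := fun X => by rw [← mul_assoc, h1, neg_one_mul]
    have h6 : ∀ X, B * (B * X) = -X := fun X => by rw [← mul_assoc, h2, neg_one_mul]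
    have h7 : ∀ X, B * (A * X) = -(A * (B * X)) := fun X => by
      rw [← mul_assoc, h3, neg_mul, mul_assoc]
    simp only [pow_succ, pow_zero, one_mul, mul_one, add_mul, mul_add, mul_assoc, h1, h2, h3, h5, h6,
      h7, mul_neg, neg_mul, neg_neg, neg_add_rev]
    module
  have := P.two
  rw [pr, ← neg_smul, smul_pow, h4, smul_smul, show (-(2 : F)⁻¹) ^ 3 * -8 = 1 by field_simp; ring,
    one_smul]

theorem trace_pr_mul (hab : P.B a b = 1) (ha : Commute ψ (P.l a)) (hb : Commute ψ (P.l b)) :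
    trace F V (-pr P a b * ψ) = -(2 : F)⁻¹ * trace F V ψ := by
  have h1 := l_anti hab
  have h2 := l_anti (P.symm b a ▸ hab)
  have e1 := trace_anti (κ := P.l a * ψ) P.two (P.l_unit b) (by
    rw [mul_assoc, hb.eq, ← mul_assoc, h1, neg_mul, mul_assoc])
  have e2 := trace_anti (κ := P.l b * ψ) P.two (P.l_unit a) (by
    rw [mul_assoc, ha.eq, ← mul_assoc, h2, neg_mul, mul_assoc])
  have e3 := trace_anti (κ := P.l a * P.l b * ψ) P.two (P.l_unit a) (by
    rw [mul_assoc, ha.eq, mul_assoc, ← mul_assoc (P.l b), h2]; simp [mul_assoc])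
  simp [pr, add_mul, mul_add, e1, e2, e3]

theorem exists_three (hI : P.Iso B) (h4 : finrank F V = 4) (hL : ∀ x, x ≠ 0 → P.q x = 1) :
    (∃ φ, Gd P B φ ∧ φ ^ 3 = 1 ∧ trace F V φ = -2) ∧ ∃ φ, Gd P B φ ∧ φ ^ 3 = 1 ∧ trace F V φ = 1 := by
  obtain ⟨a, b, a', b', h⟩ := exists_fr4 P h4
  have := P.two
  have h1 : ∀ {a b}, P.B a b = 1 → trace F V (-pr P a b) = -2 := fun {a b} hab => by
    have := trace_pr_mul hab (Commute.one_left _) (Commute.one_left _)
    rw [mul_one, trace_one, h4] at this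
    rw [this]; field_simp; norm_num
  have hb := hL b (P.ne_zero_of_B (P.symm b a ▸ h.ab))
  have ha' := hL a' (P.ne_zero_of_B h.ab')
  have h2 : ∀ {x}, P.B x a' = 0 → P.B x b' = 0 → Commute (-pr P a' b') (P.l x) := fun e1 e2 =>
    (((Commute.one_left _).add_left (l_comm e1).symm).mul_left
      ((Commute.one_left _).add_left (l_comm e2).symm)).smul_left _ |>.neg_left
  have h3 := h2 h.h1 h.h2
  have h5 := h2 h.h3 h.h4
  refine ⟨⟨_, (gd_pr hI h.qa hb).neg, pr_pow h.qa hb h.ab, h1 h.ab⟩, _,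
    (gd_pr hI h.qa hb).neg.mul (gd_pr hI ha' h.qb').neg, ?_, ?_⟩
  · rw [Commute.mul_pow, pr_pow h.qa hb h.ab, pr_pow ha' h.qb' h.ab', one_mul]
    exact ((((Commute.one_right _).add_right h3).mul_right
      ((Commute.one_right _).add_right h5)).smul_right _).neg_right.symm
  · rw [trace_pr_mul h.ab h3 h5, h1 h.ab']; field_simp

theorem Fr4.exists_five [Fintype F] (h : Fr4 P a b a' b') (hI : P.Iso B) (h4 : finrank F V = 4)
    (hb : P.q b = 1) (hs : P.q (a + a') = 1) (h5 : ¬ 5 ∣ Fintype.card F - 1) :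
    ∃ φ, Gd P B φ ∧ φ ^ 5 = 1 ∧ φ ≠ 1 := by
  have h1 := (gd_pr hI h.qa hb).mul (gd_pr hI hs h.qb')
  have h2 := (pr_unit h.qa hb).mul (pr_unit hs h.qb')
  obtain ⟨γ, hγ⟩ := h1.1.act h2
  have h3 : ∀ {a b}, P.q a = 1 → P.q b = 1 → ∀ x, P.Mp (pr P a b) x
      (x + P.B b x • b + P.B a (x + P.B b x • b) • a) := fun ha hb x =>
    ((mp_tau ha _).mul (mp_tau hb x)).smul _
  have h6 := fun x => (hγ x).uniq h2 ((h3 h.qa hb _).mul (h3 hs h.qb' x))
  have e1 := h6 a
  have e2 := h6 b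
  have e3 := h6 a'
  have e4 := h6 b'
  simp only [map_add, map_smul, LinearMap.add_apply, P.alt, h.ab, h.ab', h.h1, h.h2, h.h3, h.h4,
    P.symm b a, P.symm a' a, P.symm a' b, P.symm b' a, P.symm b' b, P.symm b' a', zero_smul,
    add_zero, zero_add, one_smul, smul_eq_mul, mul_one, mul_zero] at e1 e2 e3 e4
  have h7 : ∀ x y : E, x + (x + y) = y := fun x y => by rw [← add_assoc, add_self2, zero_add]
  simp only [z2_one_add_one, zero_smul, add_zero, add_assoc, add_left_comm, add_comm, h7,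
    add_self2] at e1 e2 e3 e4
  have h8 : ∀ x ∈ [a, b, a', b'], (γ ^ 5) x = x := by
    simp only [List.mem_cons, List.not_mem_nil, or_false, forall_eq_or_imp, forall_eq, pow_succ,
      pow_zero, one_mul, LinearEquiv.mul_apply, e1, e2, e3, e4, map_add, add_assoc, add_left_comm,
      add_comm, h7, add_self2, add_zero, and_self]
  have h9 : γ ^ 5 = 1 := LinearEquiv.ext fun x => by
    have : ∀ e ∈ [a, b, a', b'], P.B e ((γ ^ 5) x + x) = 0 := fun e he => by
      rw [map_add, add_eq_zero2, ← (mp_pow hγ 5 e).B (h2.pow 5) (mp_pow hγ 5 x), h8 e he]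
    exact add_eq_zero2.1 (h.eq_zero h4 (this _ (by simp)) (this _ (by simp)) (this _ (by simp))
      (this _ (by simp)))
  obtain ⟨y, c, hc, e⟩ := centE (h2.pow 5) fun x => by simpa [h9] using mp_pow hγ 5 x
  refine ⟨_, h1.pow (2 * (Fintype.card F - 1)), ?_, fun e5 => ?_⟩
  · rw [← pow_mul, mul_comm _ 5, pow_mul, e, pow_mul, pow_two, smul_mul_smul_comm, P.sq, smul_smul,
      smul_pow, one_pow, FiniteField.pow_card_sub_one_eq_one _
        (mul_ne_zero (mul_ne_zero hc hc) (sg_ne_zero _)), one_smul]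
  · have h10 := (pow_eq_one_iff_of_coprime ((Nat.Prime.coprime_iff_not_dvd Nat.prime_five).2
      fun e => ((Nat.Prime.dvd_mul Nat.prime_five).1 e).elim (by decide) h5)).1
      ⟨h9, pow_eq_one_of hγ one_ne_zero (e5.trans (one_smul F _).symm)⟩
    have := h.ab
    rw [← e1, h10, LinearEquiv.coe_one, id_eq, P.alt] at this
    exact absurd this (by decide)

theorem exists_two (hI : P.Iso B) (h4 : finrank F V = 4) (hL : ∀ x, x ≠ 0 → P.q x = 1) {c : F}
    (hc : c * c = -1) (hσ : ∀ u v, B (c • u) (c • v) = B u v) :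
    (∃ φ, Gd P B φ ∧ φ ^ 2 = 1 ∧ (∀ t : F, φ ≠ t • 1) ∧ trace F V φ = 0) ∧
      ∃ φ, Gd P B φ ∧ φ ^ 2 = 1 ∧ (∀ t : F, φ ≠ t • 1) ∧ trace F V φ = 2 := by
  obtain ⟨a, b, a', b', h⟩ := exists_fr4 P h4
  have h1 := l_sq_of_one h.qa
  have h2 := l_sq_of_one h.qb'
  have h3 := l_comm (P.symm b' a ▸ h.h2)
  have h0 : a + b' ≠ 0 := P.ne_zero_of_B (y := b) (by simp [h.ab, P.symm b' b, h.h4])
  obtain ⟨d, -, hd⟩ := P.add' a b'
  have t2 := P.two
  have k : ∀ {x}, P.l x * P.l x = -1 → (c • P.l x) * (c • P.l x) = 1 := fun e => by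
    rw [smul_mul_smul_comm, hc, e]; simp
  have k1 : ∀ {x}, P.l x * P.l x = -1 → ∀ u v, B ((c • P.l x) u) v = B u ((c • P.l x) v) :=
    fun {x} e u v => by
      rw [← ((gd_l hI x).smul hσ).2 u, ← End.mul_apply, k e, End.one_apply]
  have h5 : ∀ X, P.l a * (P.l a * X) = -X := fun X => by rw [← mul_assoc, h1, neg_one_mul]
  have h6 : ∀ X, P.l b' * (P.l b' * X) = -X := fun X => by rw [← mul_assoc, h2, neg_one_mul]
  have h7 : ∀ X, P.l b' * (P.l a * X) = P.l a * (P.l b' * X) := fun X => by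
    rw [← mul_assoc, h3, mul_assoc]
  set φ : End F V := (2 : F)⁻¹ • (1 + c • P.l a + c • P.l b' - c • P.l a * c • P.l b') with hφ
  have h8 : φ * φ = 1 := by
    simp only [hφ, one_mul, mul_one, add_mul, mul_add, sub_mul, mul_sub, mul_smul_comm,
      smul_mul_assoc, mul_assoc, h1, h2, h3, h5, h6, h7, mul_neg]
    match_scalars <;> field_simp <;> grind
  have c0 : c ≠ 0 := fun e => by simp [e] at hc
  refine ⟨⟨_, (gd_l hI a).smul hσ, by rw [pow_two, k h1], fun t e => P.ne_zero_of_q h.qa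
    (P.eq_zero_of_l (c := c⁻¹ * t) (by rw [mul_smul, ← e, inv_smul_smul₀ c0])), by
    simp [trace_l (P.ne_zero_of_q h.qa)]⟩, φ, ⟨?_, fun u v => ?_⟩, by rw [pow_two, h8],
    fun t e => ?_, ?_⟩
  · have h9 := (tt_of (φ := -c • (P.l a * P.l b')) (hL _ h0) (by rw [hd, smul_smul]) (by
      rw [smul_mul_smul_comm, neg_mul_neg, hc]
      simp [mul_assoc, h1, h2, h7])).nm
    convert ((nm_tau h.qa).mul ((nm_tau h.qb').mul h9)).smul ((1 + c) / 4) using 1
    simp only [hφ, one_mul, mul_one, add_mul, mul_add, mul_smul_comm, smul_mul_assoc, h1, h2, h5, h6,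
      h7, mul_neg, mul_assoc]
    have h4 : (4 : F) ≠ 0 := by rw [show (4 : F) = 2 * 2 by norm_num]; exact mul_ne_zero t2 t2
    match_scalars <;> field_simp <;> grind
  · have h9 : ∀ u v, B (φ u) v = B u (φ v) := fun u v => by
      have e : c • P.l a * c • P.l b' = c • P.l b' * c • P.l a := by
        rw [smul_mul_smul_comm, smul_mul_smul_comm, h3]
      conv_rhs => rw [hφ, e]
      simp only [hφ, LinearMap.smul_apply _ (_ - _), LinearMap.sub_apply, LinearMap.add_apply,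
        End.mul_apply, LinearMap.map_smulₛₗ₂, map_smul (B u), map_sub, map_add, k1 h1, k1 h2,
        End.one_apply, map_inv₀, map_ofNat]
    rw [h9, ← End.mul_apply, h8, End.one_apply]
  · have := congrArg (fun t => trace F V (P.l a * t)) e
    simp only [hφ, mul_one, mul_add, mul_sub, mul_smul_comm, smul_mul_assoc, h1, h5] at this
    simp [hd, trace_l (P.ne_zero_of_q h.qa), trace_l (P.ne_zero_of_q h.qb'), trace_l h0, h4, t2,
      c0] at this
    exact mul_ne_zero t2 t2 (by linear_combination this)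
  · simp [hφ, hd, trace_l (P.ne_zero_of_q h.qa), trace_l (P.ne_zero_of_q h.qb'), trace_l h0, h4]
    field_simp; norm_num

theorem finrank_fixS_l (h4 : finrank F V = 4) (h0 : x ≠ 0) (hx : P.q x = 0) :
    finrank F (fixS (P.l x)) = 2 := by
  obtain ⟨y, hy⟩ := P.exists_B h0
  have h1 := finrank_ker_le (P.l_unit y) (l_anti hy)
  have h2 := finrank_ker_le (κ := -P.l x) (P.l_unit y) (by simp [l_anti hy])
  have h3 := finrank_fixS_add (r := 2) (g := P.l x) (by simpa using P.two)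
    (by rw [pow_two, l_sq_of_zero hx])
  rw [← neg_add', ker_neg, neg_add_eq_sub, ← neg_sub, ker_neg] at h2
  rw [movS_two_eq_ker, fixS_eq_ker] at *
  omega

end Good

end H99.Pa
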