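import Cfsg.Agent.Lib.Elusive.ExB

/-! Characteristic polynomials of elements of order `2`, `3`, `5` in dimension four. -/

set_option autoImplicit false
set_option linter.unusedSectionVars false

namespace H99

open Matrix Polynomial H72.Cls H66 Cfsg.Geo

variable {F : Type*} [Field F] {ι : Type} [Fintype ι] [DecidableEq ι] {r k : ℕ} {A : Matrix ι ι F}

/-- The set of eigenvalues is closed under `d ↦ d ^ k`. -/
def RI (k r : ℕ) (A : Matrix ι ι F) : Prop := ∀ d : AlgebraicClosure F, d ^ r = 1 →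
  aeval d A.charpoly = 0 → aeval (d ^ k) A.charpoly = 0

theorem ri_of_card [Fintype F] (r : ℕ) (A : Matrix ι ι F) : RI (Fintype.card F) r A := fun d _ h => by
  rw [← expand_aeval, FiniteField.expand_card, map_pow, h, zero_pow Fintype.card_ne_zero]

theorem ri_unitary {p : ℕ} [hp : Fact p.Prime] [CharP F p] {σ : F →+* F} (hσ : ∀ x, σ x = x ^ p)
    (hA : cstar σ A * A = 1) (hr : r ≠ 0) : RI (p * (r - 1)) r A := fun d hd h => by
  have h1 : aeval (d ^ p) (A.charpoly.map σ) = 0 := by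
    rw [← expand_aeval, ← map_expand, show σ = frobenius F p from RingHom.ext hσ,
      map_frobenius_expand, map_pow, h, zero_pow hp.out.ne_zero]
  have h2 := aeval_eq_zero_of_dvd_aeval_eq_zero (unitary_assoc hA).symm.dvd h1
  have h3 : d ^ (p * (r - 1)) * d ^ p = 1 := by
    rw [← pow_add, ← Nat.mul_succ, Nat.succ_eq_add_one, Nat.sub_add_cancel (Nat.pos_of_ne_zero hr),
      mul_comm, pow_mul, hd, one_pow]
  rw [aeval_reverse h3] at h2
  exact (mul_eq_zero.1 h2).resolve_right (pow_ne_zero _ (right_ne_zero_of_mul_eq_one h3))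

theorem exists_roots (hr : (r : F) ≠ 0) (h : A ^ r = 1) : ∃ d : ι → AlgebraicClosure F,
    (∀ i, d i ^ r = 1) ∧ (∀ e, aeval e A.charpoly = 0 ↔ ∃ i, e = d i) ∧ ((∀ i, d i = 1) → A = 1) := by
  let φ := algebraMap F (AlgebraicClosure F)
  obtain ⟨P, d, h1, h2⟩ := exists_eig (A := A.map φ) (r := r)
    (by rw [← map_natCast φ]; exact (map_ne_zero φ).2 hr) (IsAlgClosed.splits _)
    (by rw [← Matrix.map_pow, h, Matrix.map_one _ φ.map_zero φ.map_one])
  refine ⟨d, h1, fun e => ?_, fun h3 => Matrix.map_injective φ.injective ?_⟩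
  · rw [← eval_map_algebraMap, ← charpoly_map, h2.charpoly, charpoly_diagonal, eval_prod,
      Finset.prod_eq_zero_iff]
    simp [sub_eq_zero]
  · simpa using (h2.scalar (c := 1)).2 (by rw [funext h3, one_smul]; exact diagonal_one)

theorem cyc_dvd [hp : Fact r.Prime] (hr : (r : F) ≠ 0) (h : A ^ r = 1) (h1 : A ≠ 1)
    (hk : ∀ j : ZMod r, j ≠ 0 → ∃ m, (k : ZMod r) ^ m = j) (hI : RI k r A) :
    cyclotomic r F ∣ A.charpoly := by
  obtain ⟨d, h2, h3, h4⟩ := exists_roots hr h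
  obtain ⟨i, hi⟩ := not_forall.1 (mt h4 h1)
  have hζ := (orderOf_eq_prime (h2 i) hi) ▸ IsPrimitiveRoot.orderOf (d i)
  have h5 : ∀ m, aeval (d i ^ k ^ m) A.charpoly = 0 := fun m => by
    induction m with
    | zero => simpa using (h3 _).2 ⟨i, rfl⟩
    | succ m ih =>
      rw [pow_succ, pow_mul]
      exact hI _ (by rw [← pow_mul, mul_comm, pow_mul, h2, one_pow]) ih
  rw [← map_dvd_map' (algebraMap F (AlgebraicClosure F)), map_cyclotomic,
    cyclotomic_eq_prod_X_sub_primitiveRoots hζ]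
  refine Finset.prod_dvd_of_coprime
    ((pairwise_coprime_X_sub_C Function.injective_id).set_pairwise _) fun μ hμ => ?_
  rw [mem_primitiveRoots hp.out.pos] at hμ
  obtain ⟨j, -, rfl⟩ := hζ.eq_pow_of_pow_eq_one hμ.pow_eq_one
  obtain ⟨m, hm⟩ := hk j fun e => hμ.ne_one hp.out.one_lt
    ((hζ.pow_eq_one_iff_dvd j).2 ((ZMod.natCast_eq_zero_iff j r).1 e))
  rw [dvd_iff_isRoot, IsRoot.def, eval_map_algebraMap, ← h5 m, pow_eq_pow_mod _ (h2 i),
    pow_eq_pow_mod (k ^ m) (h2 i), (ZMod.natCast_eq_natCast_iff' (k ^ m) j r).1 (by rw [Nat.cast_pow, hm])]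

theorem ord_five_iff (x : ZMod 5) : orderOf x = 4 ↔ x = 2 ∨ x = 3 := by
  rw [orderOf_eq_iff (by decide)]
  revert x; decide

theorem gen_five : ∀ x : ZMod 5, x = 2 ∨ x = 3 → ∀ j : ZMod 5, j ≠ 0 → ∃ m < 4, x ^ m = j := by
  decide

theorem gen_three : ∀ j : ZMod 3, j ≠ 0 → ∃ m < 2, ((2 : ℕ) : ZMod 3) ^ m = j := by decide

theorem charpoly_five (h4 : Fintype.card ι = 4) (hr : ((5 : ℕ) : F) ≠ 0) (h : A ^ 5 = 1) (h1 : A ≠ 1)
    (hk : orderOf (k : ZMod 5) = 4) (hI : RI k 5 A) : A.charpoly = cyclotomic 5 F := by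
  have : Fact (Nat.Prime 5) := ⟨Nat.prime_five⟩
  refine (eq_of_monic_of_dvd_of_natDegree_le (cyclotomic.monic 5 F) A.charpoly_monic
    (cyc_dvd hr h h1 (fun j hj => ?_) hI) ?_)
  · exact (gen_five _ ((ord_five_iff _).1 hk) j hj).imp fun _ => And.right
  · rw [charpoly_natDegree_eq_dim, h4, natDegree_cyclotomic, Nat.totient_prime Nat.prime_five]

theorem charpoly_three (h4 : Fintype.card ι = 4) (hr : ((3 : ℕ) : F) ≠ 0) (h : A ^ 3 = 1)
    (h1 : A ≠ 1) (hd : A.det = 1) (hk : k % 3 = 2) (hI : RI k 3 A) :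
    (A.trace = 1 ∨ A.trace = -2) ∧
      A.charpoly = (X ^ 2 + X + 1) * (X ^ 2 - C (A.trace + 1) * X + 1) := by
  have : Fact (Nat.Prime 3) := ⟨Nat.prime_three⟩
  have : Nonempty ι := Fintype.card_pos_iff.1 (by omega)
  obtain ⟨f, hf⟩ := cyc_dvd hr h h1 (fun j hj => by
    rw [← ZMod.natCast_mod, hk]
    exact (gen_three j hj).imp fun _ => And.right) hI
  have h2 := (cyclotomic.monic 3 F).of_mul_monic_left (hf ▸ A.charpoly_monic)
  have h3 := congrArg natDegree hf
  rw [charpoly_natDegree_eq_dim, h4, (cyclotomic.monic 3 F).natDegree_mul h2, natDegree_cyclotomic,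
    Nat.totient_prime Nat.prime_three] at h3
  obtain ⟨a, b, rfl⟩ := isMonicOfDegree_two_iff'.1 ⟨show f.natDegree = 2 by omega, h2⟩
  rw [cyclotomic_three] at hf
  have e : A.charpoly = X ^ 4 + C (1 - a) * X ^ 3 + C (1 - a + b) * X ^ 2 + C (b - a) * X + C b := by
    rw [hf]; simp only [map_sub, map_add, map_one]; ring
  have e1 := trace_eq_neg_charpoly_coeff A
  have e2 := det_eq_sign_charpoly_coeff A
  rw [h4, e] at e1 e2
  simp only [coeff_add, coeff_C_mul, coeff_X_pow, coeff_X, coeff_C] at e1 e2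
  norm_num at e1 e2
  obtain rfl : b = 1 := e2.symm.trans hd
  refine ⟨?_, by rw [hf, e1]; simp⟩
  obtain ⟨d, h5, h6, -⟩ := exists_roots hr h
  obtain ⟨x, hx⟩ := IsAlgClosed.exists_aeval_eq_zero (AlgebraicClosure F) _
    (degree_ne_of_natDegree_ne (n := 0) (show (X ^ 2 - C a * X + C 1 : F[X]).natDegree ≠ 0 by omega))
  obtain ⟨i, rfl⟩ := (h6 x).1 (by rw [hf, map_mul, hx, mul_zero])
  simp only [map_add, map_sub, map_mul, map_pow, aeval_X, aeval_C, map_one] at hx
  have h7 : algebraMap F (AlgebraicClosure F) ((a - 2) * (a + 1)) = 0 := by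
    rw [map_mul, map_sub, map_add, map_one, map_ofNat]
    have := h5 i
    have h0 : d i ^ 2 ≠ 0 := pow_ne_zero _ fun e => by simp [e] at this
    refine mul_left_cancel₀ h0 ?_
    generalize algebraMap F (AlgebraicClosure F) a = t at *
    linear_combination (d i - 1) * this - (d i ^ 2 + t * d i + 1 - d i) * hx
  rw [map_eq_zero, mul_eq_zero] at h7
  exact h7.imp (fun e => by linear_combination e1 + e) fun e => by linear_combination e1 + e

theorem charpoly_two {A : Matrix (Fin 4) (Fin 4) F} (h2 : (2 : F) ≠ 0) (h : A ^ 2 = 1)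
    (hn : ∀ c : F, A ≠ c • 1) : (A.trace = 0 ∨ A.trace = 2 ∨ A.trace = -2) ∧
      A.charpoly = (X ^ 2 - 1) * (X ^ 2 - C A.trace * X + C ((A.trace ^ 2 - 2) / 2)) := by
  obtain ⟨P, d, h7, h8⟩ := exists_eig (r := 2) (by simpa) (by
    rw [show (X ^ 2 - C 1 : F[X]) = (X - C 1) * (X - C (-1)) by simp; ring]
    exact (Splits.X_sub_C _).mul (Splits.X_sub_C _)) h
  have h10 : ∀ c, (∀ i, d i = c) → False := fun c e => hn c
    (h8.scalar.2 (by rw [funext e, smul_one_eq_diagonal]))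
  have k : ∀ t u : F, t ^ 2 - 2 = u * 2 → C ((t ^ 2 - 2) / 2) = C u := fun t u e => by
    rw [e, mul_div_cancel_right₀ _ h2]
  rw [h8.charpoly, h8.trace, charpoly_diagonal, trace_diagonal, Fin.prod_univ_four, Fin.sum_univ_four]
  rcases sq_eq_one_iff.1 (h7 0) with e0 | e0 <;> rcases sq_eq_one_iff.1 (h7 1) with e1 | e1 <;>
  rcases sq_eq_one_iff.1 (h7 2) with e2 | e2 <;> rcases sq_eq_one_iff.1 (h7 3) with e3 | e3 <;>
  first
    | (refine (h10 (d 0) fun i => ?_).elim; fin_cases i <;> simp [*]; done)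
    | (rw [e0, e1, e2, e3]
       refine ⟨by norm_num, ?_⟩
       first | rw [k _ 1 (by ring1)] | rw [k _ (-1) (by ring1)]
       simp only [map_add, map_neg, map_one]
       ring1)

end H99
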