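import Cfsg.Agent.Lib.Elusive.Ex4
import Cfsg.Agent.Lib.Elusive.ExC
import Cfsg.Agent.Lib.Elusive.Ex3

/-! Elements of prime order and normalisers of `2`-groups of symplectic type in dimension four. -/

set_option autoImplicit false
set_option linter.unusedSectionVars false

namespace H99

open Matrix Polynomial H72.Cls H66 Cfsg.Geo Module Pa
open H97c (Pauli)

variable {F : Type*} [Field F] {ι : Type} [Fintype ι] [DecidableEq ι] {r : ℕ}

/-- The embedding of `2 × 2` matrices. -/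
def emb (e : Fin 2 ⊕ Fin 2 ≃ ι) : Matrix (Fin 2) (Fin 2) F →* Matrix ι ι F where
  toFun M := reindex e e (fromBlocks M 0 0 1)
  map_one' := by simp
  map_mul' M N := by simp [fromBlocks_multiply]

theorem emb_apply (e : Fin 2 ⊕ Fin 2 ≃ ι) (M : Matrix (Fin 2) (Fin 2) F) :
    emb e M = reindex e e (fromBlocks M 0 0 1) := rfl

theorem trace_emb (e : Fin 2 ⊕ Fin 2 ≃ ι) (M : Matrix (Fin 2) (Fin 2) F) :
    (emb e M).trace = M.trace + 2 := by
  rw [trace, ← Equiv.sum_comp e]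
  simp [emb_apply, trace, one_add_one_eq_two]

theorem det_emb (e : Fin 2 ⊕ Fin 2 ≃ ι) (M : Matrix (Fin 2) (Fin 2) F) : (emb e M).det = M.det := by
  simp [emb_apply]

theorem emb_ne (e : Fin 2 ⊕ Fin 2 ≃ ι) {M : Matrix (Fin 2) (Fin 2) F} (h : M 0 1 ≠ 0) (c : F) :
    emb e M ≠ c • 1 := fun h1 => h (by
  simpa [emb_apply] using congrFun (congrFun h1 (e (.inl 0))) (e (.inl 1)))

/-- `G` contains copies of the elements of `SL₂` over the prime field. -/
def Emb (G : Subgroup (GL ι F)) : Prop := ∃ e : Fin 2 ⊕ Fin 2 ≃ ι, ∀ M : Matrix (Fin 2) (Fin 2) F,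
  M.det = 1 → (∀ σ : F →+* F, M.map σ = M) → ∃ g, ∃ x ∈ G, Rel g (x : Matrix ι ι F) (emb e M)

theorem Rel.inv {g x y : GL ι F} (h : Rel g (x : Matrix ι ι F) y) :
    Rel g ((x⁻¹ : GL ι F) : Matrix ι ι F) (y⁻¹ : GL ι F) := by
  have : x * g = g * y := Units.ext h
  exact congrArg Units.val (show x⁻¹ * g = g * y⁻¹ by
    rw [inv_mul_eq_iff_eq_mul, ← mul_assoc, this, mul_inv_cancel_right])

theorem Emb.exists_trace {G : Subgroup (GL ι F)} (h : Emb G) {t : F} (ht : ∀ σ : F →+* F, σ t = t)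
    (h1 : !![0, -1; 1, t] ^ r = 1) : ∃ x ∈ G, x ^ r = 1 ∧ (∀ z : F, (x : Matrix ι ι F) ≠ z • 1) ∧
      (x : Matrix ι ι F).trace * ((x⁻¹ : GL ι F) : Matrix ι ι F).trace = (t + 2) ^ 2 := by
  obtain ⟨e, h⟩ := h
  obtain ⟨g, x, hx, h2⟩ := h !![0, -1; 1, t] (by simp) fun σ => by
    ext i j; fin_cases i <;> fin_cases j <;> simp [ht]
  let u : GL (Fin 2) F := ⟨!![0, -1; 1, t], !![t, 1; -1, 0], by simp [one_fin_two],
    by simp [one_fin_two]⟩
  refine ⟨x, hx, Units.ext (h2.pow_eq_one.2 (by rw [← map_pow, h1, map_one])),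
    fun z hz => emb_ne e (by simp) z (h2.scalar.1 hz), ?_⟩
  rw [h2.trace, (Rel.inv (y := Units.map (emb e) u) h2).trace]
  change _ * (emb e !![t, 1; -1, 0]).trace = _
  simp [trace_emb, pow_two]

theorem Emb.exists_transv {G : Subgroup (GL ι F)} (h : Emb G) (hr : (r : F) = 0) :
    ∃ x ∈ G, x ^ r = 1 ∧ (∀ z : F, (x : Matrix ι ι F) ≠ z • 1) ∧
      ∃ w, ∀ v, ∃ c : F, (x : Matrix ι ι F) *ᵥ v = v + c • w := by
  obtain ⟨e, h⟩ := h
  obtain ⟨g, x, hx, h2⟩ := h !![1, 1; 0, 1] (by simp) fun σ => by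
    ext i j; fin_cases i <;> fin_cases j <;> simp
  have h1 : ∀ k : ℕ, (!![1, 1; 0, 1] : Matrix (Fin 2) (Fin 2) F) ^ k = !![1, (k : F); 0, 1] :=
    fun k => by
      induction k with
      | zero => simp [one_fin_two]
      | succ k ih => simp [pow_succ, ih, add_comm]
  refine ⟨x, hx, Units.ext (h2.pow_eq_one.2 (by rw [← map_pow, h1, hr, ← one_fin_two, map_one])),
    fun z hz => emb_ne e (by simp) z (h2.scalar.1 hz), g *ᵥ Pi.single (e (.inl 0)) 1, fun v => ?_⟩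
  obtain ⟨u, rfl⟩ : ∃ u, v = (g : Matrix ι ι F) *ᵥ u := ⟨(g⁻¹ : GL ι F) *ᵥ v, by simp⟩
  refine ⟨u (e (.inl 1)), ?_⟩
  rw [mulVec_mulVec, h2, ← mulVec_mulVec, ← mulVec_smul, ← mulVec_add]
  congr 1
  ext i
  obtain ⟨i, rfl⟩ := e.surjective i
  rw [mulVec, dotProduct, ← Equiv.sum_comp e]
  rcases i with i | i <;> fin_cases i <;> simp [emb_apply]

theorem exists_tau {p : ℕ} [hp : Fact p.Prime] [CharP F p] (h2 : p ≠ 2) (h5 : p ≠ 5)
    (h : orderOf (p : ZMod 5) ≠ 4) : ∃ t : F, (∀ σ : F →+* F, σ t = t) ∧ t ^ 2 + t - 1 = 0 := by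
  have h1 : IsSquare (p : ZMod 5) := by
    have : ∀ x : ZMod 5, ¬ (x = 2 ∨ x = 3) → ∃ y, x = y * y := by decide
    exact this _ (mt (ord_five_iff _).2 h)
  have : Fact (Nat.Prime 5) := ⟨Nat.prime_five⟩
  obtain ⟨s, hs⟩ := (ZMod.exists_sq_eq_prime_iff_of_mod_four_eq_one (p := 5) rfl h2).1 h1
  have h3 : (2 : F) ≠ 0 := cast_ne_zero_of_ne (r := 2) h2.symm
  have h4 := congrArg (ZMod.castHom (dvd_refl p) F) hs
  rw [map_natCast, map_mul] at h4
  refine ⟨(ZMod.castHom (dvd_refl p) F s - 1) / 2, fun σ => by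
    rw [map_div₀, map_sub, map_one, map_ofNat, ← RingHom.comp_apply, RingHom.ext_zmod (σ.comp _)], ?_⟩
  field_simp
  push_cast at h4
  linear_combination -h4

variable {E : Type*} [AddCommGroup E] [Module (ZMod 2) E] [Finite E] {P : Pauli F (ι → F) E}
  {σ : F →+* F} {B : (ι → F) →ₛₗ[σ] (ι → F) →ₗ[F] F} {G G' H : Subgroup (GL ι F)} {x : GL ι F}

/-- The data common to the three classical groups. -/
structure St (P : Pauli F (ι → F) E) (B : (ι → F) →ₛₗ[σ] (ι → F) →ₗ[F] F)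
    (G G' H : Subgroup (GL ι F)) : Prop where
  card : Fintype.card ι = 4
  iso : P.Iso B
  cc : CC G G'
  sl : G ≤ specialLinear ι F
  le : G ≤ G'
  mem : ∀ y : GL ι F, (∀ u v, B ((y : Matrix ι ι F) *ᵥ u) ((y : Matrix ι ι F) *ᵥ v) = B u v) → y ∈ G'
  nm : ∀ y ∈ G', y ∈ H ↔ P.Nm (toLin' (y : Matrix ι ι F))

namespace St

variable (S : St P B G G' H)
include S

theorem four : finrank F (ι → F) = 4 := by simpa using S.card

theorem act (h : ElN G H r) (hr : Odd r) (hx : x ∈ G) (h1 : x ^ r = 1)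
    (h2 : ∀ z : F, (x : Matrix ι ι F) ≠ z • 1) : ∃ (g y : GL ι F) (γ : E ≃ₗ[ZMod 2] E), y ∈ G ∧
      Rel g x y ∧ Act P r (toLin' (y : Matrix ι ι F)) γ ∧
      (∀ z : F, toLin' (y : Matrix ι ι F) ≠ z • 1) ∧ (x : Matrix ι ι F).trace *
        ((x⁻¹ : GL ι F) : Matrix ι ι F).trace = Nat.card {x // γ x = x} := by
  obtain ⟨g, y, h3, h4, h5, h6, h7⟩ := h.exists hx h1 h2
  obtain ⟨γ, hγ⟩ := exists_act ((S.nm y (S.le h3)).1 h4) (r := r) (by
    simpa using toLin'_pow_eq_smul_one_iff.2 ((congrArg Units.val h5).trans (one_smul F _).symm)) hr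
  refine ⟨g, y, γ, h3, h7, hγ, fun z e => h6 z (toLin'_eq_smul_one_iff.1 e), ?_⟩
  rw [h7.trace, h7.inv.trace, ← trace_toLin'_eq, ← trace_toLin'_eq]
  exact hγ.trace_mul S.four (by rw [End.mul_eq_comp, ← toLin'_mul, Units.mul_inv, toLin'_one]; rfl)

theorem exists_gl {φ : End F (ι → F)} (hr : r ≠ 0) (h : Gd P B φ) (h1 : φ ^ r = 1) :
    ∃ y ∈ G', y ∈ H ∧ (y : Matrix ι ι F) ^ r = 1 ∧ toLin' (y : Matrix ι ι F) = φ := by
  obtain ⟨y, rfl⟩ := exists_gl_of_injective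
    ((End.isUnit_iff φ).1 (IsUnit.of_pow_eq_one h1 hr)).1
  exact ⟨y, S.mem y h.2, (S.nm y (S.mem y h.2)).2 h.1, by
    simpa using toLin'_pow_eq_smul_one_iff.1 (h1.trans (one_smul F _).symm), rfl⟩

variable [Fintype F] [hr : Fact r.Prime]

theorem of_elN {p : ℕ} [hp : Fact p.Prime] [CharP F p] (hE : Emb G) (h : ElN G H r)
    (hΩ : r ∣ H.relIndex G) (h2 : r ≠ 2) :
    (r = 3 ∧ p ≠ 3) ∨ (r = 5 ∧ orderOf (p : ZMod 5) = 4) := by
  have ho := hr.out.odd_of_ne_two h2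
  have h1 : r ≠ p := fun e => by
    obtain ⟨x, hx, h3, h4, w, hw⟩ := hE.exists_transv (r := r) (e ▸ CharP.cast_eq_zero F p)
    obtain ⟨g, y, γ, -, h5, h6, h7, -⟩ := S.act h ho hx h3 h4
    obtain ⟨c, hc⟩ := h6.not_hom S.four (w := (g⁻¹ : GL ι F) *ᵥ w) fun v => by
      obtain ⟨c, hc⟩ := hw ((g : Matrix ι ι F) *ᵥ v)
      exact ⟨c, by rw [h5.symm.eq, inv_inv, toLin'_apply, ← mulVec_mulVec, ← mulVec_mulVec, hc]; simp [mulVec_add, mulVec_smul]⟩
    exact h7 c hc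
  obtain ⟨x, hx, h3, h4⟩ := exists_of_relIndex S.sl
    (by rw [S.card]; exact (Nat.coprime_two_right.2 ho).pow_right 2) hΩ
  obtain ⟨-, y, γ, -, -, h6, h7, -⟩ := S.act h ho hx h3 h4
  obtain rfl | rfl : r = 3 ∨ r = 5 := (h6.cases S.four h7).elim And.right fun e => .inl e.2
  · exact .inl ⟨rfl, h1.symm⟩
  refine .inr ⟨rfl, by_contra fun h8 => ?_⟩
  obtain ⟨t, h9, ht⟩ := exists_tau (F := F) (fun e => P.two (by
    simpa [e] using CharP.cast_eq_zero F p)) h1.symm h8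
  obtain ⟨x, hx, h3, h4, h5⟩ := hE.exists_trace (r := 5) h9 (by
    ext i j
    fin_cases i <;> fin_cases j <;> simp [pow_succ] <;> grind)
  obtain ⟨-, y, γ, -, -, h6, h7, h10⟩ := S.act h ho hx h3 h4
  rw [h5, ((h6.cases S.four h7).resolve_right fun e => absurd e.2 (by decide)).1] at h10
  refine cast_ne_zero_of_ne (F := F) h1 ?_
  push_cast at h10 ⊢
  linear_combination (3 * t - 1) * h10 - (3 * t + 8) * ht

theorem elN_odd (h0 : (r : F) ≠ 0) (ho : Odd r) (h : ∀ a ∈ G, (a : Matrix ι ι F) ^ r = 1 →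
    (a : Matrix ι ι F) ≠ 1 → ∃ y ∈ G', y ∈ H ∧ (y : Matrix ι ι F) ^ r = 1 ∧
      (a : Matrix ι ι F).charpoly = (y : Matrix ι ι F).charpoly) : ElN G H r := by
  rintro x hx ⟨z, hz⟩ hn
  have h1 := pow_card_eq_one (S.sl hx) hz
  have h2 : (((x ^ r) ^ r : GL ι F) : Matrix ι ι F) = z ^ r • 1 := by
    rw [Units.val_pow_eq_pow_val, hz, _root_.smul_pow, one_pow]
  have h3 : ∀ u, Commute u ((x ^ r) ^ r) := fun u => Units.ext (by simp only [Units.val_mul, h2]; simp)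
  have h4 : (x ^ r) ^ r ∈ G := pow_mem (pow_mem hx r) r
  have h5 : ((x ^ r) ^ r) ^ r = x ^ r := Units.ext (by
    obtain ⟨m, hm⟩ := ho
    rw [Units.val_pow_eq_pow_val, h2, hz, _root_.smul_pow, one_pow, ← pow_mul,
      show r * r = 4 * (m * m + m) + 1 by rw [hm]; ring, pow_succ, pow_mul, ← S.card, h1, one_pow,
      one_mul])
  have h6 : (((x ^ r) ^ r)⁻¹ * x) ^ r = 1 := by
    rw [(h3 x).inv_right.symm.mul_pow, inv_pow, h5, inv_mul_cancel]
  obtain ⟨y, h7, h8, h9, h10⟩ := h _ (mul_mem (inv_mem h4) hx) (congrArg Units.val h6) fun e =>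
    hn (z ^ r) (by rw [← h2, inv_mul_eq_one.1 (Units.ext e : _ * x = 1)])
  obtain ⟨g, h11, h12⟩ := S.cc _ (mul_mem (inv_mem h4) hx) y h7 ⟨r, h0, congrArg Units.val h6⟩
    ⟨r, h0, h9⟩ h10
  refine ⟨g, h11, ?_⟩
  rw [show g⁻¹ * x * g = (x ^ r) ^ r * y by
    rw [← h12, ← mul_assoc, ← mul_assoc, ← (h3 g⁻¹).eq, mul_assoc g⁻¹ ((x ^ r) ^ r),
      mul_inv_cancel_left]]
  refine mul_mem ((S.nm _ (S.le h4)).2 ?_) h8
  rw [toLin'_eq_smul_one_iff.2 h2]
  exact Pauli.nm_one.smul _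

omit hr in
theorem elN_five {k : ℕ} {a b a' b' : E} (hf : Fr4 P a b a' b') (hb : P.q b = 1)
    (hs : P.q (a + a') = 1) (h0 : ((5 : ℕ) : F) ≠ 0) (h5 : ¬ 5 ∣ Fintype.card F - 1)
    (hk : orderOf (k : ZMod 5) = 4) (hI : ∀ y ∈ G', RI k 5 (y : Matrix ι ι F)) : ElN G H 5 := by
  have : Fact (Nat.Prime 5) := ⟨Nat.prime_five⟩
  obtain ⟨φ, h1, h2, h3⟩ := hf.exists_five S.iso S.four hb hs h5
  obtain ⟨y, h4, h6, h7, rfl⟩ := S.exists_gl (by decide) h1 h2
  exact S.elN_odd h0 (by decide) fun a ha e1 e2 => ⟨y, h4, h6, h7, by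
    rw [charpoly_five S.card h0 e1 e2 hk (hI a (S.le ha)),
      charpoly_five S.card h0 h7 (fun e => h3 (by rw [e, toLin'_one]; rfl)) hk (hI y h4)]⟩

omit hr in
theorem elN_three {k : ℕ} (hL : ∀ x, x ≠ 0 → P.q x = 1) (h0 : ((3 : ℕ) : F) ≠ 0) (hk : k % 3 = 2)
    (hI : ∀ y ∈ G', RI k 3 (y : Matrix ι ι F))
    (hd : ∀ y ∈ G', (y : Matrix ι ι F).det ^ 3 = 1 → (y : Matrix ι ι F).det = 1) : ElN G H 3 := by
  have : Fact (Nat.Prime 3) := ⟨Nat.prime_three⟩
  refine S.elN_odd h0 (by decide) fun a ha e1 e2 => ?_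
  obtain ⟨h1, h2⟩ := charpoly_three S.card h0 e1 e2 (mem_sl.1 (S.sl ha)) hk (hI a (S.le ha))
  obtain ⟨φ, h3, h4, h5⟩ : ∃ φ, Gd P B φ ∧ φ ^ 3 = 1 ∧
      LinearMap.trace F _ φ = (a : Matrix ι ι F).trace :=
    h1.elim (fun e => e ▸ (exists_three S.iso S.four hL).2) fun e => e ▸ (exists_three S.iso S.four hL).1
  obtain ⟨y, h6, h7, h8, rfl⟩ := S.exists_gl (by decide) h3 h4
  rw [trace_toLin'_eq] at h5
  refine ⟨y, h6, h7, h8, ?_⟩
  rw [h2, (charpoly_three S.card h0 h8 (fun e => ?_) (hd y h6 (by rw [← det_pow, h8, det_one])) hk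
    (hI y h6)).2, h5]
  rw [e, trace_one, S.card] at h5
  push_cast at h0 h5
  rcases h1 with e | e
  · exact h0 (by linear_combination h5 + e)
  · exact mul_ne_zero P.two h0 (by linear_combination h5 + e)

end St

theorem St.elN_two [Fintype F] {P : Pauli F (Fin 4 → F) E} {B : (Fin 4 → F) →ₛₗ[σ] (Fin 4 → F) →ₗ[F] F}
    {G G' H : Subgroup (GL (Fin 4) F)} (S : St P B G G' H) (hL : ∀ x, x ≠ 0 → P.q x = 1) {c : F}
    (hc : c * c = -1) (hσ : ∀ u v, B (c • u) (c • v) = B u v)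
    (hd : ∀ x ∈ G, ∀ z : F, (x : Matrix (Fin 4) (Fin 4) F) ^ 2 = z • 1 →
      ∃ d : F, d ≠ 0 ∧ (d⁻¹ • (x : Matrix (Fin 4) (Fin 4) F)) ^ 2 = 1 ∧
        ∀ u v, B (d • u) (d • v) = B u v) : ElN G H 2 := by
  rintro x hx ⟨z, hz⟩ hn
  obtain ⟨d, h0, h1, h2⟩ := hd x hx z hz
  obtain ⟨h3, h4⟩ := charpoly_two P.two h1 fun t e => hn (d * t) (by
    rw [mul_smul, ← e, smul_inv_smul₀ h0])
  obtain ⟨⟨φ, k1, k2, k3, k4⟩, ψ, k5, k6, k7, k8⟩ := exists_two S.iso S.four hL hc hσ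
  obtain ⟨φ, h5, h6, h12, h7⟩ : ∃ φ, Gd P B φ ∧ φ ^ 2 = 1 ∧ (∀ t : F, φ ≠ t • 1) ∧
      LinearMap.trace F _ φ = (d⁻¹ • (x : Matrix (Fin 4) (Fin 4) F)).trace := by
    rcases h3 with e | e | e <;> rw [e]
    exacts [⟨φ, k1, k2, k3, k4⟩, ⟨ψ, k5, k6, k7, k8⟩, ⟨-ψ, k5.neg, (neg_sq ψ).trans k6,
      fun t e => k7 (-t) ((neg_eq_iff_eq_neg.1 e).trans (by module)), by rw [map_neg, k8]⟩]
  obtain ⟨y, -, -, h8, rfl⟩ := S.exists_gl two_ne_zero h5 h6
  obtain ⟨y', h9, h10, -, h11⟩ := S.exists_gl (r := 2 * (Fintype.card F - 1))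
    (mul_ne_zero two_ne_zero (card_sub_one_ne_zero F)) (h5.smul h2) (by
      rw [_root_.smul_pow, pow_mul _ 2, pow_mul _ 2, h6,
        FiniteField.pow_card_sub_one_eq_one _ (pow_ne_zero 2 h0)]; simp)
  rw [trace_toLin'_eq] at h7
  refine S.cc.conj (r := 2) (by simpa using P.two) hx h0 (smul_inv_smul₀ h0 _).symm h1 h9 h10
    (toLin'.injective (by rw [h11, map_smul])) h8 ?_
  rw [h4, (charpoly_two P.two h8 fun t e => h12 t (toLin'_eq_smul_one_iff.2 e)).2, h7]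

theorem St.not_three [Fintype F] {P : Pauli F (Fin 4 → F) E}
    {B : (Fin 4 → F) →ₛₗ[σ] (Fin 4 → F) →ₗ[F] F} {G G' H : Subgroup (GL (Fin 4) F)} (S : St P B G G' H)
    {t : F} (ht : t ^ 2 + t + 1 = 0) (h3 : (3 : F) ≠ 0)
    (h : ∀ x : GL (Fin 4) F, (x : Matrix (Fin 4) (Fin 4) F) = diagonal ![1, t, t, t] → x ∈ G) :
    ¬ ElN G H 3 := fun h1 => by
  have : Fact (Nat.Prime 3) := ⟨Nat.prime_three⟩
  have h2 := cube_of ht
  have h4 : ∀ a b : F, a * b = 1 → diagonal ![1, a, a, a] * diagonal ![1, b, b, b] = 1 := fun a b e => by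
    rw [diagonal_mul_diagonal, ← diagonal_one]
    congr 1; ext i; fin_cases i <;> simp [e]
  let x : GL (Fin 4) F := ⟨_, _, h4 t (t ^ 2) (by linear_combination h2),
    h4 (t ^ 2) t (by linear_combination h2)⟩
  obtain ⟨-, y, γ, -, -, h6, h7, h8⟩ := S.act h1 (by decide) (h x rfl) (Units.ext (by
    rw [Units.val_pow_eq_pow_val, diagonal_pow, Units.val_one, ← diagonal_one]
    congr 1; ext i; fin_cases i <;> simp [h2])) fun z e => h3 (by
      have e0 := congrFun (congrFun e 0) 0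
      have e1 := congrFun (congrFun e 1) 1
      simp [x] at e0 e1
      linear_combination ht - (t + 2) * (e1 - e0))
  change trace (diagonal _) * trace (diagonal _) = _ at h8
  simp only [trace_diagonal, Fin.sum_univ_four, cons_val_zero, cons_val_one, cons_val] at h8
  rcases h6.cases S.four h7 with ⟨e, -⟩ | ⟨e, -⟩ <;> rw [e] at h8 <;> push_cast at h8
  · exact mul_ne_zero P.two h3 (by linear_combination h8 - 9 * h2 - 3 * ht)
  · exact h3 (by linear_combination h8 - 9 * h2 - 3 * ht)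

theorem emb_sl (h4 : Fintype.card ι = 4) : Emb (specialLinear ι F) :=
  ⟨Fintype.equivOfCardEq (by simp [h4]), fun M h _ => by
    have h1 := (det_emb (Fintype.equivOfCardEq (by simp [h4]) : _ ≃ ι) M).trans h
    exact ⟨1, ((isUnit_iff_isUnit_det _).2 (h1 ▸ isUnit_one)).unit, mem_sl.2 h1, by simp [Rel]⟩⟩

theorem emb_su [Fintype F] {q : ℕ} (hF : Fintype.card F = q ^ 2) :
    Emb (Cfsg.GU 4 F q ⊓ specialLinear (Fin 4) F) := ⟨finSumFinEquiv, fun M h hM => by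
  obtain ⟨σ, hσ, h4, h5⟩ := exists_conjHom hF
  set e : Fin 2 ⊕ Fin 2 ≃ Fin 4 := finSumFinEquiv
  have h1 : cstar σ (emb e M) = emb e Mᵀ := by
    conv_rhs => rw [← hM σ]
    ext i j
    obtain ⟨i, rfl⟩ := e.surjective i
    obtain ⟨j, rfl⟩ := e.surjective j
    rcases i with i | i <;> rcases j with j | j <;> simp [emb_apply, cstar_apply, one_apply, apply_ite σ, eq_comm]
  obtain ⟨K, k1, k2, k3⟩ := exists_hermitian_invariant h4 h5 (emb e M) (emb e !![0, 1; -1, 0])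
    ((isUnit_iff_isUnit_det _).2 (by simp [det_emb])) (by
      rw [h1, ← map_mul, ← map_mul]
      congr 1
      rw [det_fin_two] at h
      ext i j
      fin_cases i <;> fin_cases j <;> simp [mul_apply, Fin.sum_univ_two] <;> grind)
  obtain ⟨c, ⟨c, rfl⟩, rfl⟩ := exists_cstar_mul_eq h4 h5 K k2 k1
  obtain ⟨x, hx⟩ := exists_rel c (B := emb e M) ((isUnit_iff_isUnit_det _).2 (by simp [det_emb, h]))
  refine ⟨c, x, ⟨(mem_GU_iff hσ _).2 ?_, mem_sl.2 (by rw [hx.det, det_emb, h])⟩, hx⟩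
  refine (isUnit_cstar σ c.isUnit).mul_left_cancel (c.isUnit.mul_right_cancel ?_)
  rw [mul_one, ← k3, ← mul_assoc, ← cstar_mul, mul_assoc, hx, cstar_mul]
  simp only [mul_assoc]⟩

theorem emb_sp : Emb (Cfsg.spGL 2 F) := ⟨Equiv.swap (.inl 1) (.inr 0), fun M h _ => by
  have h1 := (det_emb (Equiv.swap (.inl 1) (.inr 0)) M).trans h
  refine ⟨1, ((isUnit_iff_isUnit_det _).2 (h1 ▸ isUnit_one)).unit, mem_spGL.2 ?_, by simp [Rel]⟩
  rw [det_fin_two] at h
  rw [SymplecticGroup.mem_iff, IsUnit.unit_spec]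
  ext i j
  rcases i with i | i <;> rcases j with j | j <;> fin_cases i <;> fin_cases j <;>
    simp [emb_apply, mul_apply, J, Equiv.swap_apply_def] <;> grind⟩

theorem mul_four : ∀ x : ZMod 5, x = 2 ∨ x = 3 → x * 4 = 2 ∨ x * 4 = 3 := by decide

theorem sq_of_mp {V : Type*} [AddCommGroup V] [Module F V] {P : Pauli F V E} {B : V →ₗ[F] V →ₗ[F] F}
    (hI : P.Iso B) (hB : B.SeparatingLeft) {φ : End F V} (hφ : ∀ u v, B (φ u) (φ v) = B u v) {x y : E}
    {c : F} (h : φ * P.l x = c • (P.l y * φ)) : c * c = 1 := by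
  have := P.nt
  obtain ⟨u, hu⟩ := exists_ne (0 : V)
  obtain ⟨v, hv⟩ := not_forall.1 (mt (hB u) hu)
  have h1 := (hφ (P.l x u) (P.l x v)).trans (hI x u v)
  rw [← End.mul_apply, ← End.mul_apply, h] at h1
  simp only [LinearMap.smul_apply, map_smul, End.mul_apply, hI y _ _, hφ, smul_eq_mul] at h1
  exact mul_right_cancel₀ hv (by linear_combination h1)

theorem q_eq_of_sq {V : Type*} [AddCommGroup V] [Module F V] {P : Pauli F V E} {φ : End F V}
    (hφ : IsUnit φ) {x y : E} {c : F} (h : φ * P.l x = c • (P.l y * φ)) (hc : c * c = 1) :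
    P.q y = P.q x := by
  have h1 : φ * (P.l x * P.l x) = (c * c) • (P.l y * (P.l y * φ)) := by
    rw [← mul_assoc, h, smul_mul_assoc, mul_assoc, h, mul_smul_comm, smul_smul]
  rw [P.sq, P.l_l, mul_smul_comm, mul_one, hc, one_smul] at h1
  exact (H97c.sg_inj P.two (P.smul_inj hφ h1)).symm

open H97c in
theorem minus_of {T V : Type*} [Group T] [Finite T] [AddCommGroup V] [Module F V] {P : Pauli F V E}
    {ρ : T →* (V ≃ₗ[F] V)} {π : T →* Multiplicative E} (h : RD ρ) (h1 : PR P ρ π)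
    (hZ : ∀ g (c : F), ce (ρ g) = c • 1 → c * c = 1) (h2 : Nat.card (Subgroup.center T) = 2)
    (hq : ∀ x y, P.q (x + y) = P.q x + P.q y + P.B x y)
    (hm : ∀ A : Subgroup T, IsMulCommutative A → (∀ x ∈ A, x * x = 1) → Nat.card A < 2 ^ (2 + 1)) :
    Minus P := by
  classical
  refine ⟨hq, fun x y hx hy hxy => by_contra fun h3 => ?_⟩
  push Not at h3
  let W := (Submodule.span (ZMod 2) ({x, y} : Set E)).toAddSubgroup.toSubgroup
  have h4 : ∀ t ∈ W.comap π, t * t = 1 := fun t ht => h.inj (ce_inj (by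
    obtain ⟨c, -, ⟨_, ⟨g, rfl⟩, e1⟩, e2⟩ := h1.eq h t
    have : P.q (π t).toAdd = 0 := by
      rcases mem_span2.1 ht with e | e | e | e <;> rw [e]
      exacts [P.q0, hx, hy, by rw [hq, hx, hy, hxy]; rfl]
    rw [map_mul, map_mul, e2, smul_mul_smul_comm, hZ g c e1, P.sq, this]
    simp))
  have h5 := hm _ (H78.ConjSub.isMulCommutative_of_sq_eq_one fun t =>
    Subtype.ext ((pow_two t.1).trans (h4 t.1 t.2))) h4
  have h6 : Function.Surjective π := fun e => (h1.l e.toAdd).imp fun _ => And.left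
  have h7 := (W.comap π).index_mul_card
  have h8 := π.ker.index_mul_card
  rw [Subgroup.index_comap_of_surjective _ h6] at h7
  rw [Subgroup.index_ker, MonoidHom.range_eq_top.2 h6, Subgroup.card_top, h1.ker, h2,
    ← W.index_mul_card, ← h7, mul_assoc, Nat.mul_right_inj W.index_ne_zero_of_finite] at h8
  have h9 : ({0, x, y, x + y} : Finset E).card ≤ Nat.card W := by
    rw [← Nat.card_eq_finsetCard]
    exact Nat.card_mono (Set.toFinite _) (s := (({0, x, y, x + y} : Finset E) : Set E))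
      (t := Submodule.span (ZMod 2) ({x, y} : Set E)) fun z hz => mem_span2.2 (by simpa using hz)
  rw [Finset.card_eq_four.2 ⟨0, x, y, x + y, h3.1.symm, h3.2.1.symm,
    fun e => h3.2.2 (add_eq_zero2.1 e.symm), h3.2.2, by simpa using h3.2.1, by simpa using h3.1,
    rfl⟩] at h9
  omega

variable [Fintype F] {p : ℕ} [hp : Fact p.Prime] [CharP F p] [hr : Fact r.Prime]

theorem mod_five (h : orderOf (p : ZMod 5) = 4) : p % 5 = 2 ∨ p % 5 = 3 :=
  ((ord_five_iff _).1 h).imp ((ZMod.natCast_eq_natCast_iff' p 2 5).1 ·)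
    ((ZMod.natCast_eq_natCast_iff' p 3 5).1 ·)

theorem sl4_row (hF : Fintype.card F = p) (h4 : p % 4 = 1) {R : Subgroup (GL (Fin 4) F)}
    (hR : IsLinearSymplecticTypeData 2 R)
    (hΩ : r ∣ (subgroupNormalizer R).relIndex (specialLinear (Fin 4) F)) :
    ElN (specialLinear (Fin 4) F) (subgroupNormalizer R) r ↔
      r = 2 ∨ (r = 3 ∧ p % 3 = 2) ∨ (r = 5 ∧ orderOf (p : ZMod 5) = 4) := by
  obtain ⟨E, _, _, _, P, -, c, hc, -, hL, -, h1⟩ := H97c.lin_data hR.symplecticType hR.absIrred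
    (cast_ne_zero_of_ne (r := 2) (p := p) (by omega)) (by simp) (by
      obtain ⟨_, _, -, -, h | h | h⟩ := hR.field
      exacts [absurd h.1 (by decide), h.2.2.1, by simp at h])
  have S : St P (0 : _ →ₛₗ[RingHom.id F] _ →ₗ[F] F) (specialLinear (Fin 4) F) ⊤
      (subgroupNormalizer R) :=
    ⟨by simp, fun _ _ _ => rfl, cc_sl, le_rfl, le_top, fun _ _ => trivial, fun y _ => by
      rw [h1, ← H97.toLE_coe]; rfl⟩
  have h2 := hp.out.two_le
  refine ⟨fun h => or_iff_not_imp_left.2 fun h3 => (S.of_elN (emb_sl (by simp)) h hΩ h3).imp_left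
    fun k => ⟨k.1, by_contra fun h6 => ?_⟩, ?_⟩
  · obtain ⟨e, h5⟩ := k
    have h7 : ¬ 3 ∣ p := fun e => h5 ((Nat.prime_dvd_prime_iff_eq Nat.prime_three hp.out).1 e).symm
    obtain ⟨h8, t, ht⟩ := exists_omega (F := F) (by omega)
    exact S.not_three ht h8 (fun x hx => mem_sl.2 (by
      simp [hx, Fin.prod_univ_four]; linear_combination cube_of ht)) (e ▸ h)
  rintro (rfl | ⟨rfl, h3⟩ | ⟨rfl, h3⟩)
  · refine S.elN_two hL hc (fun _ _ => rfl) fun x hx z hz => ?_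
    have h5 := pow_card_eq_one (r := 2) hx hz
    obtain ⟨d, rfl⟩ : ∃ d, d ^ 2 = z := by_contra fun h6 => by
      obtain ⟨k, h7, h8⟩ := det_of_irreducible (not_exists.1 h6) (toLin'_pow_eq_smul_one_iff.2 hz)
      obtain rfl : k = 2 := by simp at h7; omega
      rw [LinearMap.det_toLin', mem_sl.1 hx] at h8
      rcases sq_eq_one_iff.1 (show z ^ 2 = 1 by linear_combination -h8) with e | e
      exacts [h6 ⟨1, by simp [e]⟩, h6 ⟨c, by rw [e, pow_two, hc]⟩]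
    have h0 : d ≠ 0 := fun e => by simp [e] at h5
    exact ⟨d, h0, by rw [_root_.smul_pow, hz, smul_smul, ← mul_pow, inv_mul_cancel₀ h0]; simp,
      fun _ _ => rfl⟩
  · exact S.elN_three hL (cast_ne_zero_of_ne (p := p) (by omega)) h3
      (fun y _ => hF ▸ ri_of_card 3 _) fun y _ => eq_one_of_mu (M := Fintype.card F - 1) (by omega)
        (FiniteField.pow_card_sub_one_eq_one _ ((isUnit_iff_isUnit_det _).1 y.isUnit).ne_zero)
  · obtain ⟨a, b, a', b', hf⟩ := exists_fr4 P S.four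
    have := mod_five h3
    exact S.elN_five hf (hL _ (P.ne_zero_of_B (P.symm b a ▸ hf.ab)))
      (hL _ (P.ne_zero_of_B (y := b) (by simp [hf.ab, P.symm a' b, hf.h3])))
      (cast_ne_zero_of_ne (p := p) (by omega)) (by omega) h3 fun y _ => hF ▸ ri_of_card 5 _

theorem su4_row (hF : Fintype.card F = p ^ 2) (h4 : p % 4 = 3) {R : Subgroup (GL (Fin 4) F)}
    (hR : IsSymplecticTypeGroup 2 R) (hi : ActsAbsolutelyIrreducibly (matrixSet R))
    (hU : R ≤ Cfsg.GU 4 F p) (hZ : Nat.card (Subgroup.center R) = 4)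
    (hΩ : r ∣ (subgroupNormalizer R).relIndex (Cfsg.GU 4 F p ⊓ specialLinear (Fin 4) F)) :
    ElN (Cfsg.GU 4 F p ⊓ specialLinear (Fin 4) F) (subgroupNormalizer R) r ↔
      r = 2 ∨ (r = 3 ∧ p % 3 = 1) ∨ (r = 5 ∧ orderOf (p : ZMod 5) = 4) := by
  obtain ⟨E, _, _, _, P, -, c, hc, -, hL, h0, h1⟩ := H97c.lin_data hR hi
    (cast_ne_zero_of_ne (r := 2) (p := p) (by omega)) (by simp) hZ
  obtain ⟨σ, Q, H, hB⟩ := exists_hp (F := F) 4 hF
  have S : St P Q.B (Cfsg.GU 4 F p ⊓ specialLinear (Fin 4) F) (Cfsg.GU 4 F p)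
      (subgroupNormalizer R) :=
    ⟨by simp, fun x => by
      obtain ⟨_, ⟨t, rfl⟩, e⟩ := h0 x
      exact e ▸ ((mem_gu_iff H hB _).1 (hU t.2)).B, cc_su hF, inf_le_right, inf_le_left,
      fun y h => (mem_gu_iff H hB y).2 (H.iso h), fun y _ => by rw [h1, ← H97.toLE_coe]; rfl⟩
  have h2 : ∀ d : F, d ^ (p + 1) = 1 → ∀ u v, Q.B (d • u) (d • v) = Q.B u v := fun d e =>
    (H.smul Iso.one e).B
  have h9 : ∀ {k} (d : F), k ∣ p + 1 → d ^ k = 1 → d ^ (p + 1) = 1 := fun d ⟨m, e⟩ h => by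
    rw [e, pow_mul, h, one_pow]
  have hc' := h9 (k := 4) c (by omega) (by linear_combination (c * c - 1) * hc)
  refine ⟨fun h => or_iff_not_imp_left.2 fun h3 => (S.of_elN (emb_su hF) h hΩ h3).imp_left
    fun k => ⟨k.1, by_contra fun h6 => ?_⟩, ?_⟩
  · obtain ⟨e, h5⟩ := k
    have h7 : ¬ 3 ∣ p := fun e => h5 ((Nat.prime_dvd_prime_iff_eq Nat.prime_three hp.out).1 e).symm
    obtain ⟨h8, t, ht⟩ := exists_omega (F := F) (dvd_trans (by omega) H.dvd)
    refine S.not_three ht h8 (fun x hx => ⟨(mem_GU_iff H.pow _).2 ?_, mem_sl.2 (by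
      simp [hx, Fin.prod_univ_four]; linear_combination cube_of ht)⟩) (e ▸ h)
    have := (H.norm t).trans (h9 t (by omega) (cube_of ht))
    rw [hx, cstar_apply, diagonal_map (map_zero σ), diagonal_transpose, diagonal_mul_diagonal,
      ← diagonal_one]
    congr 1; ext i; fin_cases i <;> simp [this]
  rintro (rfl | ⟨rfl, h3⟩ | ⟨rfl, h3⟩)
  · refine S.elN_two hL hc (h2 c hc') fun x hx z hz => ?_
    have h5 := (mem_gu_iff H hB x).1 hx.1
    have h6 := toLin'_pow_eq_smul_one_iff.2 hz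
    rcases H.cases h5 h6 with ⟨d, k1, k2, -, k3⟩ | ⟨k1, k2⟩
    · exact ⟨d, k1, (toLin'_pow_eq_smul_one_iff.1 (by rw [map_smul, k3, one_smul])).trans
        (one_smul F _), h2 d k2⟩
    · obtain ⟨k, h7, h8⟩ := H.det_np h5 h6 k1 k2
      obtain rfl : k = 2 := by simp at h7; omega
      rw [LinearMap.det_toLin', mem_sl.1 hx.2] at h8
      rcases sq_eq_one_iff.1 (show z ^ 2 = 1 by linear_combination -h8) with e | e
      exacts [absurd (by simp [e]) (k2 1 (one_pow _)), absurd (by rw [e, pow_two, hc]) (k2 c hc')]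
  · exact S.elN_three (k := p * (3 - 1)) hL (cast_ne_zero_of_ne (p := p) (by omega)) (by omega)
      (fun y hy => ri_unitary H.pow ((mem_GU_iff H.pow _).1 hy) (by decide))
      fun y hy => eq_one_of_mu (M := p + 1) (by omega)
        (LinearMap.det_toLin' y.1 ▸ H.det_pow ((mem_gu_iff H hB y).1 hy))
  · obtain ⟨a, b, a', b', hf⟩ := exists_fr4 P S.four
    have := mod_five h3
    refine S.elN_five (k := p * (5 - 1)) hf (hL _ (P.ne_zero_of_B (P.symm b a ▸ hf.ab)))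
      (hL _ (P.ne_zero_of_B (y := b) (by simp [hf.ab, P.symm a' b, hf.h3])))
      (cast_ne_zero_of_ne (p := p) (by omega)) ?_ ?_
      fun y hy => ri_unitary H.pow ((mem_GU_iff H.pow _).1 hy) (by decide)
    · rw [hF, ← one_pow 2, Nat.sq_sub_sq, Nat.Prime.dvd_mul Nat.prime_five]
      omega
    · rw [ord_five_iff] at h3 ⊢
      push_cast
      exact mul_four _ h3

open H97c H28 in
theorem sp4_row (hF : Fintype.card F = p) (ho : Odd p) {R : Subgroup (GL (Fin 2 ⊕ Fin 2) F)}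
    (hR : IsSymplecticTypeGroup 2 R) (hi : ActsAbsolutelyIrreducibly (matrixSet R))
    (hU : R ≤ Cfsg.spGL 2 F) (hZ : Nat.card (Subgroup.center R) = 2) (hm : IsOfMinusType 2 R)
    (hΩ : r ∣ (subgroupNormalizer R).relIndex (Cfsg.spGL 2 F)) :
    ElN (Cfsg.spGL 2 F) (subgroupNormalizer R) r ↔
      r = 2 ∨ (r = 5 ∧ orderOf (p : ZMod 5) = 4) := by
  have h2 : (2 : F) ≠ 0 := cast_ne_zero_of_ne (r := 2) (p := p) (by rintro rfl; exact absurd ho (by decide))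
  have h := rd_of hR hi h2 hZ.symm.dvd
  have hB : (spPQ 2 F).B.SeparatingLeft := spPQ_sep
  have h0 : ∀ g, Iso (spPQ 2 F) (ce (rho R g)) := fun g => (mem_spGL_iff _).1 (hU g.2)
  have h1 : ∀ g (c : F), ce (rho R g) = c • 1 → c * c = 1 := fun g c e =>
    (e ▸ h0 g).norm_eq_one hB
  obtain ⟨E, _, _, _, P, π, h3, hq⟩ := h.exists_quad h1
  have hM := minus_of h h3 h1 hZ hq hm
  have hI : P.Iso (spPQ 2 F).B := fun x => (h3.l x).elim fun g e => e.2 ▸ (h0 g).B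
  have h4 : In (rho R).range ((-1 : F) • 1) := by
    obtain ⟨⟨z, hz⟩, h5, -⟩ := (Nat.card_eq_two_iff' (1 : Subgroup.center R)).1 hZ
    obtain ⟨c, hc⟩ := h.mem_center.1 hz
    rcases mul_self_eq_one_iff.1 (h1 z c hc) with rfl | rfl
    · exact absurd (Subtype.ext (h.inj (ce_inj (by simp [hc])))) h5
    · exact ⟨_, ⟨z, rfl⟩, hc⟩
  have S : St P (spPQ 2 F).B (Cfsg.spGL 2 F) (Cfsg.spGL 2 F) (subgroupNormalizer R) :=
    ⟨by simp, hI, cc_sp, fun x hx => mem_sl.2 (SymplecticGroup.det_eq_one (mem_spGL.1 hx)), le_rfl,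
      fun y h => (mem_spGL_iff y).2 (alt_iso rfl h), fun y hy => by
        rw [normalizer_eq, ← H97.toLE_coe]
        refine ⟨fun e => h3.normalizer_le h e, fun e => h3.mem_normalizer h e fun a b c e1 => ?_⟩
        rcases mul_self_eq_one_iff.1 (sq_of_mp hI hB ((mem_spGL_iff y).1 hy).B e1) with rfl | rfl
        exacts [by simpa using in_one, h4]⟩
  obtain ⟨a, b, a', b', hf, hb, ha'⟩ := hM.exists_fr4 S.four
  have ha0 := P.ne_zero_of_B hf.ab'
  refine ⟨fun k => or_iff_not_imp_left.2 fun h5 => (S.of_elN emb_sp k hΩ h5).resolve_left ?_, ?_⟩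
  · rintro ⟨rfl, h6⟩
    obtain ⟨x, hx, k1, k2, k3⟩ := (emb_sp (F := F)).exists_trace (r := 3) (t := -1) (by simp) (by
      ext i j
      fin_cases i <;> fin_cases j <;> simp [pow_succ])
    obtain ⟨-, y, γ, k4, -, k5, k6, k7⟩ := S.act k (by decide) hx k1 k2
    rw [k3, ((k5.cases S.four k6).resolve_left fun e => k5.card_ne_one hM (fun x =>
      (k5.mp x).elim fun c e => q_eq_of_sq k5.unit e.2
        (sq_of_mp hI hB ((mem_spGL_iff y).1 k4).B e.2)) ha0 ha' e.1).1] at k7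
    refine cast_ne_zero_of_ne (F := F) h6.symm ?_
    push_cast at k7 ⊢
    linear_combination -k7
  rintro (rfl | ⟨rfl, h5⟩)
  · refine (conj_el_iff mem_spGL_iff S.nm (fun f hf => hf.injective hB) 2).2
      (alt_elA_two hB rfl h2 (fun t h6 h7 => ⟨P.l a', alt_iso rfl (hI a'), ?_, ?_, Pauli.nm_l _⟩)
        ⟨P.l a, alt_iso rfl (hI a), by rw [pow_two, P.sq, hf.qa, sg_one], Pauli.nm_l _⟩)
    · rw [pow_two, Pauli.l_sq_of_zero ha']
    · rw [finrank_fixS_l S.four ha0 ha']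
      rw [S.four] at h7
      omega
  · have := mod_five h5
    have := hp.out.two_le
    exact S.elN_five hf hb (by rw [hq, hf.qa, ha', hf.h1]; rfl)
      (cast_ne_zero_of_ne (p := p) (by omega)) (by omega) h5 fun y _ => hF ▸ ri_of_card 5 _

end H99
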