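import Cfsg.Agent.Lib.Elusive.FldF
import Cfsg.Agent.Lib.Elusive.SubEl
import Cfsg.Agent.Lib.SSCls.Basic
import Cfsg.Agent.Lib.Transfer.Control

/-! Conjugacy of semisimple matrices, for the normalisers of groups of symplectic type. -/

set_option autoImplicit false
set_option linter.unusedSectionVars false

namespace H99

open Matrix Polynomial H72.Cls H66 Cfsg.Geo

variable {F : Type*} [Field F] {ι : Type} [Fintype ι] [DecidableEq ι] {r : ℕ}
  {A B C' : Matrix ι ι F} {G G' H : Subgroup (GL ι F)} {g x y : GL ι F}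

local notation "SSM" => H72.Cls.SS

/-- Every element of order `r` modulo scalars is conjugate into `H`. -/
def ElN (G H : Subgroup (GL ι F)) (r : ℕ) : Prop :=
  ∀ x ∈ G, (∃ z : F, ((x ^ r : GL ι F) : Matrix ι ι F) = z • (1 : Matrix ι ι F)) →
    (∀ z : F, (x : Matrix ι ι F) ≠ z • (1 : Matrix ι ι F)) → ∃ g ∈ G, g⁻¹ * x * g ∈ H

/-- Semisimple elements with the same characteristic polynomial are conjugate. -/
def CC (G G' : Subgroup (GL ι F)) : Prop :=
  ∀ x ∈ G, ∀ y ∈ G', SSM (x : Matrix ι ι F) → SSM (y : Matrix ι ι F) →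
    (x : Matrix ι ι F).charpoly = (y : Matrix ι ι F).charpoly → ∃ g ∈ G, g⁻¹ * x * g = y

theorem mem_sl : x ∈ specialLinear ι F ↔ (x : Matrix ι ι F).det = 1 :=
  ⟨fun h => congrArg Units.val h, fun h => Units.ext h⟩

theorem conj_of_mul {c : Matrix ι ι F} (hc : IsUnit c) (h : c * x = y * c) :
    hc.unit⁻¹⁻¹ * x * hc.unit⁻¹ = y := by
  rw [inv_inv, mul_inv_eq_iff_eq_mul]
  exact Units.ext h

theorem cc_sl [Finite F] [Nonempty ι] : CC (specialLinear ι F) ⊤ := fun x _ y _ h1 h2 h3 => by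
  obtain ⟨c, hc⟩ := h1.isConj h2 h3
  obtain ⟨Z, h4, h5⟩ := h1.exists_commute (c.1.det)⁻¹
  have h6 : (c.1 * Z).det = 1 := by
    rw [det_mul, h5, mul_inv_cancel₀ ((isUnit_iff_isUnit_det _).1 c.isUnit).ne_zero]
  have h7 : IsUnit (c.1 * Z) := (isUnit_iff_isUnit_det _).2 (h6 ▸ isUnit_one)
  exact ⟨_, inv_mem (mem_sl.2 h6), conj_of_mul h7 (by
    rw [mul_assoc, ← h4.eq, ← mul_assoc, hc.eq, mul_assoc])⟩

theorem cc_su [Fintype F] {n q : ℕ} [NeZero n] (hF : Fintype.card F = q ^ 2) :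
    CC (Cfsg.GU n F q ⊓ specialLinear (Fin n) F) (Cfsg.GU n F q) := fun x hx y hy hg h2 h3 => by
  obtain ⟨σ, hσ, h4, h5⟩ := exists_conjHom hF
  obtain ⟨P, hP⟩ := hg.isConj h2 h3
  have hg' := (mem_GU_iff hσ _).1 hx.1
  obtain ⟨c, c1, c2⟩ := exists_unitary_conj_matrix h4 h5 _ _ hg' ((mem_GU_iff hσ _).1 hy) P
    P.isUnit hP.eq
  have c3 := congrArg det c1
  rw [det_mul, det_cstar, det_one] at c3
  obtain ⟨u, u1, u2, u3⟩ := exists_unitary_commute h4 h5 hg' hg (a := σ c.det) (by rw [h4, c3])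
  have h6 : (c * u).det = 1 := by rw [det_mul, u3, mul_comm, c3]
  have h7 : IsUnit (c * u) := (isUnit_iff_isUnit_det _).2 (h6 ▸ isUnit_one)
  refine ⟨_, inv_mem ⟨(mem_GU_iff hσ _).2 ?_, mem_sl.2 h6⟩, conj_of_mul h7 (by
    rw [mul_assoc, ← u2.eq, ← mul_assoc, c2, mul_assoc])⟩
  change cstar σ (c * u) * (c * u) = 1
  rw [cstar_mul, mul_assoc, ← mul_assoc _ c, c1, one_mul, u1]

theorem mem_spGL {m : ℕ} {x : GL (Fin m ⊕ Fin m) F} :
    x ∈ Cfsg.spGL m F ↔ (x : Matrix _ _ F) ∈ symplecticGroup (Fin m) F := by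
  simp only [mem_symplecticGroup_iff, sympBilin_apply]; rfl

theorem cc_sp [Finite F] {m : ℕ} : CC (Cfsg.spGL m F) (Cfsg.spGL m F) := fun x hx y hy h1 h2 h3 => by
  have h4 : IsConj (⟨x, mem_spGL.1 hx⟩ : symplecticGroup (Fin m) F) ⟨y, mem_spGL.1 hy⟩ := by
    refine sp_isConj h1 ?_
    convert h1.isConj h2 h3
  obtain ⟨c, hc⟩ := isConj_iff.1 h4
  have h7 : IsUnit c.1 := (Group.isUnit c).map (symplecticGroup (Fin m) F).subtype
  exact ⟨_, inv_mem (mem_spGL.2 c.2), conj_of_mul h7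
    (congrArg Subtype.val (mul_inv_eq_iff_eq_mul.1 hc))⟩

/-- `A` has the matrix `B` in the basis `g`. -/
def Rel (g : GL ι F) (A B : Matrix ι ι F) : Prop := A * g = g * B

namespace Rel

theorem eq (h : Rel g A B) : A = g * B * (g⁻¹ : GL ι F) := by
  rw [← h, mul_assoc, Units.mul_inv, mul_one]

theorem conj (g : GL ι F) (B : Matrix ι ι F) : Rel g (g * B * (g⁻¹ : GL ι F)) B := by
  rw [Rel, mul_assoc, Units.inv_mul, mul_one]

theorem conj' (g : GL ι F) (A : Matrix ι ι F) : Rel g A ((g⁻¹ : GL ι F) * A * g) := by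
  rw [Rel, mul_assoc, ← mul_assoc, Units.mul_inv, one_mul]

theorem of_conj (g x : GL ι F) : Rel g x ((g⁻¹ * x * g : GL ι F) : Matrix ι ι F) := conj' g x

theorem symm (h : Rel g A B) : Rel g⁻¹ B A := by
  rw [h.eq]; simpa using conj' g⁻¹ B

theorem inj {A' : Matrix ι ι F} (h : Rel g A B) (h' : Rel g A' B) : A = A' := h.eq.trans h'.eq.symm

theorem inj' {B' : Matrix ι ι F} (h : Rel g A B) (h' : Rel g A B') : B = B' := h.symm.inj h'.symm

theorem one : Rel g (1 : Matrix ι ι F) 1 := by simp [Rel]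

theorem mul {A' B' : Matrix ι ι F} (h : Rel g A B) (h' : Rel g A' B') : Rel g (A * A') (B * B') := by
  rw [Rel, mul_assoc, h', ← mul_assoc, h, mul_assoc]

theorem pow (h : Rel g A B) (k : ℕ) : Rel g (A ^ k) (B ^ k) := by
  induction k with
  | zero => simpa using one
  | succ k ih => rw [pow_succ, pow_succ]; exact ih.mul h

theorem smul (h : Rel g A B) (c : F) : Rel g (c • A) (c • B) := by
  rw [Rel, smul_mul_assoc, h, mul_smul_comm]

theorem charpoly (h : Rel g A B) : A.charpoly = B.charpoly := by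
  rw [h.eq, coe_units_inv, charpoly_units_conj]

theorem trace (h : Rel g A B) : A.trace = B.trace := by rw [h.eq, trace_units_conj]

theorem det (h : Rel g A B) : A.det = B.det := by rw [h.eq, det_units_conj]

theorem scalar {c : F} (h : Rel g A B) : A = c • 1 ↔ B = c • 1 :=
  ⟨fun e => h.inj' (by rw [e]; exact one.smul c), fun e => h.inj (by rw [e]; exact one.smul c)⟩

theorem pow_eq_one {k : ℕ} (h : Rel g A B) : A ^ k = 1 ↔ B ^ k = 1 := by
  simpa using (h.pow k).scalar (c := 1)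

end Rel

theorem exists_rel (g : GL ι F) (hB : IsUnit B) : ∃ y : GL ι F, Rel g y B :=
  ⟨g * hB.unit * g⁻¹, Rel.conj g B⟩

theorem exists_eig (hr : (r : F) ≠ 0) (hs : (X ^ r - C 1 : F[X]).Splits) (h : A ^ r = 1) :
    ∃ (P : GL ι F) (d : ι → F), (∀ i, d i ^ r = 1) ∧ Rel P A (diagonal d) := by
  obtain ⟨b, d, h1, h2⟩ := exists_dg_of_splits (f := toLin' A) (ι := ι)
    (squarefree_X_pow_sub_C hr one_ne_zero) hs
    (aeval_X_pow_sub_C (toLin'_pow_eq_smul_one_iff.2 (by rw [h, one_smul]))) (by simp)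
  have := (Pi.basisFun F ι).invertibleToMatrix b
  refine ⟨unitOfInvertible ((Pi.basisFun F ι).toMatrix b), d, fun i => ?_, ?_⟩
  · simpa [sub_eq_zero] using h1 i
  · ext i j
    have := congrFun (h2 ▸ dg_basis b d j : toLin' A (b j) = d j • b j) i
    simpa [Matrix.mul_apply, Module.Basis.toMatrix_apply, mulVec, dotProduct, diagonal_apply,
      mul_comm] using this

theorem ss_of_pow [Fintype F] (hr : (r : F) ≠ 0) {z : F} (hz : z ≠ 0) (h : A ^ r = z • 1) :
    SSM A := ⟨r * (Fintype.card F - 1), by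
      rw [Nat.cast_mul, Nat.cast_pred Fintype.card_pos, FiniteField.cast_card_eq_zero]
      simpa using hr, by rw [pow_mul, h, _root_.smul_pow, FiniteField.pow_card_sub_one_eq_one z hz]; simp⟩

theorem ss_smul [Fintype F] (hr : (r : F) ≠ 0) {c : F} (hc : c ≠ 0) (h : A ^ r = 1) :
    SSM (c • A) := ss_of_pow hr (pow_ne_zero r hc) (by rw [_root_.smul_pow, h])

theorem charpoly_smul_congr (hA : SSM A) (hB : SSM B) (h : A.charpoly = B.charpoly) (c : F) :
    (c • A).charpoly = (c • B).charpoly := by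
  obtain ⟨P, hP⟩ := hA.isConj hB h
  exact ((show Rel P B A from hP.eq.symm).smul c).charpoly.symm

theorem pow_card_eq_one {z : F} (hx : x ∈ specialLinear ι F)
    (h : ((x ^ r : GL ι F) : Matrix ι ι F) = z • 1) : z ^ Fintype.card ι = 1 := by
  simpa [h] using mem_sl.1 (pow_mem hx r)

/-- The reduction to elements of order `r`. -/
theorem CC.conj [Fintype F] (hC : CC G G') (hr : (r : F) ≠ 0) (hx : x ∈ G) {c : F} (hc : c ≠ 0)
    (h1 : (x : Matrix ι ι F) = c • A) (hA : A ^ r = 1) (hy : y ∈ G') (hy' : y ∈ H)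
    (h2 : (y : Matrix ι ι F) = c • B) (hB : B ^ r = 1) (h : A.charpoly = B.charpoly) :
    ∃ g ∈ G, g⁻¹ * x * g ∈ H := by
  obtain ⟨g, h3, h4⟩ := hC x hx y hy (h1 ▸ ss_smul hr hc hA) (h2 ▸ ss_smul hr hc hB)
    (by rw [h1, h2]; exact charpoly_smul_congr ⟨r, hr, hA⟩ ⟨r, hr, hB⟩ h c)
  exact ⟨g, h3, h4 ▸ hy'⟩

/-- An element of order `r` gives one in `H`. -/
theorem ElN.exists (h : ElN G H r) (hx : x ∈ G) (h1 : x ^ r = 1)
    (h2 : ∀ z : F, (x : Matrix ι ι F) ≠ z • 1) : ∃ g y : GL ι F, y ∈ G ∧ y ∈ H ∧ y ^ r = 1 ∧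
      (∀ z : F, (y : Matrix ι ι F) ≠ z • 1) ∧ Rel g x y := by
  obtain ⟨g, h3, h4⟩ := h x hx ⟨1, by simp [h1]⟩ h2
  refine ⟨g, _, mul_mem (mul_mem (inv_mem h3) hx) h3, h4, Units.ext ?_,
    fun z e => h2 z ((Rel.of_conj g x).scalar.2 e), Rel.of_conj g x⟩
  exact (Rel.of_conj g x).pow_eq_one.1 (congrArg Units.val h1)

theorem exists_of_relIndex [Finite F] [hr : Fact r.Prime] (hG : G ≤ specialLinear ι F)
    (hn : r.Coprime (Fintype.card ι)) (h : r ∣ H.relIndex G) :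
    ∃ x ∈ G, x ^ r = 1 ∧ ∀ z : F, (x : Matrix ι ι F) ≠ z • 1 := by
  obtain ⟨x, h1, h2, h3⟩ := exists_orderOf_of_dvd G (h.trans (H.subgroupOf G).index_dvd_card)
  refine ⟨x, h1, h2, fun z e => h3 (Units.ext ?_)⟩
  have h4 := pow_card_eq_one (r := 1) (hG h1) (by simpa using e)
  rcases isEmpty_or_nonempty ι with _ | _
  · exact Subsingleton.elim _ _
  have h5 : z ^ r = 1 := smul_left_injective F (one_ne_zero (α := Matrix ι ι F)) (by
    simpa [e, _root_.smul_pow] using congrArg Units.val h2)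
  rw [e, (pow_eq_one_iff_of_coprime hn).1 ⟨h5, h4⟩, one_smul, Units.val_one]

end H99
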