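import Cfsg.Agent.Lib.Elusive.SpEl
import Cfsg.Agent.Lib.ExtFld.UO

/-!
Elements of prime order and field extension subgroups of symplectic groups.
-/

set_option autoImplicit false
set_option linter.unusedSectionVars false

namespace H99

open Module Polynomial H28
open H65 (Similar)
open H21 (Ext)

theorem prod_range_mul_split {M : Type*} [CommMonoid M] (g : ℕ → M) {k : ℕ} (hk : 0 < k) (m : ℕ) :
    ∏ j ∈ Finset.range (k * m), g (j + 1) = (∏ j ∈ Finset.range m, g (k * (j + 1))) *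
      ∏ j ∈ Finset.range (k * m) with ¬ k ∣ j + 1, g (j + 1) := by
  rw [← Finset.prod_filter_mul_prod_filter_not _ fun j => k ∣ j + 1]
  refine congrArg (· * _) (Finset.prod_nbij (fun j => k * (j + 1) - 1) (fun j hj => ?_)
    (fun a _ b _ h => ?_) (fun j hj => ?_) fun j _ => ?_).symm
  · have := Nat.mul_le_mul_left k (Finset.mem_range.mp hj)
    have h1 := Nat.mul_pos hk j.succ_pos
    rw [Finset.mem_filter, Finset.mem_range, Nat.sub_add_cancel h1]
    exact ⟨by simp only [Nat.succ_eq_add_one] at *; omega, dvd_mul_right _ _⟩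
  · have h1 := Nat.mul_pos hk a.succ_pos
    have h2 := Nat.mul_pos hk b.succ_pos
    simpa [hk.ne'] using show k * (a + 1) = k * (b + 1) by simp only [Nat.succ_eq_add_one] at *; omega
  · obtain ⟨h1, _ | t, h2⟩ := Finset.mem_filter.mp hj
    · simp at h2
    exact ⟨t, Finset.mem_coe.mpr (Finset.mem_range.mpr (lt_of_mul_lt_mul_left' (a := k) (by
      have := Finset.mem_range.mp h1; rw [mul_add_one] at h2; omega))), by simp [← h2]⟩
  · rw [Nat.sub_add_cancel (Nat.mul_pos hk j.succ_pos)]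

theorem mul_card_dvd_of_le {G : Type*} [Group G] {H K L : Subgroup G} {r : ℕ} (h1 : L ≤ H)
    (h2 : L ≤ K) (h : r ∣ H.relIndex K) : r * Nat.card L ∣ Nat.card K := by
  rw [← (L.subgroupOf K).index_mul_card, Nat.card_congr (Subgroup.subgroupOfEquivOfLe h2).toEquiv]
  exact Nat.mul_dvd_mul_right (h.trans (Subgroup.relIndex_dvd_of_le_left K h1)) _

theorem mul_card_dvd_rs {F E : Type*} [Field F] [Fintype F] [Field E] [Algebra F E] {ι : Type}
    [Fintype ι] [DecidableEq ι] [Module E (ι → F)] [IsScalarTower F E (ι → F)] {H K : Subgroup (GL ι F)}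
    {M : Subgroup ((ι → F) ≃ₗ[F] (ι → F))} (hK : ∀ x, x ∈ K ↔ glEquiv x ∈ M)
    (hH : ∀ x : GL ι F, x ∈ H ↔ FB E (Matrix.toLin' (x : Matrix ι ι F))) {r : ℕ}
    (h : r ∣ H.relIndex K) (L : Subgroup ((ι → F) ≃ₗ[E] (ι → F)))
    (hL : ∀ g ∈ L, H21.res g ∈ M) : r * Nat.card L ∣ Nat.card M := by
  rw [← card_comap_glEquiv M, ← Subgroup.card_map_of_injective (K := L) (f := H21.res (F := F))
    fun a b h => LinearEquiv.ext fun v => LinearEquiv.congr_fun h v, ← card_comap_glEquiv (L.map _),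
    ← show K = M.comap glEquiv.toMonoidHom from Subgroup.ext hK]
  exact mul_card_dvd_of_le (fun x ⟨g, _, h⟩ => (hH x).mpr
    ((toLin'_gl x).trans (congrArg _ h.symm) ▸ fb_rs (g : End E (ι → F))))
    (fun x ⟨g, h1, h⟩ => (hK x).mpr (h ▸ hL g h1 : _)) h

variable {F E V : Type*} [Field F] [Field E] [Algebra F E] [AddCommGroup V] [Module F V]
  [Module E V] [IsScalarTower F E V] {σ : E →+* E} {P : PQ F V (RingHom.id F)} {Pk : PQ E V σ}
  {T : E →ₗ[F] F} {f y : End F V} {g : End E V} {r : ℕ}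

theorem cast_ne_zero_ext (h : (r : F) ≠ 0) : (r : E) ≠ 0 := by
  rwa [← map_natCast (algebraMap F E), _root_.map_ne_zero]

theorem movS_rs [Fact r.Prime] (g : End E V) : movS r (rs F g) = (movS r g).restrictScalars F :=
  Submodule.ext fun v => by
    rw [Submodule.restrictScalars_mem, mem_movS, mem_movS, aeval_cyclotomic_apply,
      aeval_cyclotomic_apply]
    simp only [← map_pow, rs_apply]

theorem finrank_movS_rs [Fact r.Prime] (g : End E V) :
    finrank F (movS r (rs F g)) = finrank F E * finrank E (movS r g) := by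
  rw [movS_rs, finrank_restrictScalars]

theorem ext_rs (X : Ext P Pk T) (h : ∀ u v, Pk.B (g u) (g v) = Pk.B u v) (u v : V) :
    P.B (rs F g u) (rs F g v) = P.B u v := by rw [X.B, X.B, rs_apply, rs_apply, h]

theorem ext_of_rs (X : Ext P Pk T) (h : Iso P (rs F g)) (u v : V) :
    Pk.B (g u) (g v) = Pk.B u v := sub_eq_zero.mp (X.nd _ fun k => by
  have := h.B u (k • v)
  rw [X.B, X.B, rs_apply, rs_apply, g.map_smul, (Pk.B _).map_smul, (Pk.B _).map_smul] at this
  rw [mul_comm, mul_sub, map_sub]; exact sub_eq_zero.mpr this)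

section Semi

variable {ι : Type*} [Fintype ι] (b : Basis ι E V) (τ : E ≃ₐ[F] E) (c : ι → E)

/-- The `τ`-semilinear map scaling the basis vectors. -/
noncomputable def semi : End F V where
  toFun v := ∑ i, (τ (b.repr v i) * c i) • b i
  map_add' u v := by simp [add_mul, add_smul, Finset.sum_add_distrib]
  map_smul' a v := by
    rw [RingHom.id_apply, ← algebraMap_smul E a, ← algebraMap_smul E a]
    simp [-algebraMap_smul, Finset.smul_sum, smul_smul, mul_assoc]

theorem semi_repr (v : V) (i : ι) : b.repr (semi b τ c v) i = τ (b.repr v i) * c i :=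
  congrFun (b.repr_sum_self _) i

theorem semi_smul (a : E) (v : V) : semi b τ c (a • v) = τ a • semi b τ c v :=
  b.ext_elem fun i => by simp [semi_repr, mul_assoc]

theorem fb_semi : FB E (semi b τ c) := ⟨τ, semi_smul b τ c⟩

theorem semi_basis (i : ι) : semi b τ c (b i) = c i • b i := b.ext_elem fun j => by
  classical
  simp only [semi_repr, map_smul, b.repr_self, Finsupp.smul_apply, Finsupp.single_apply]
  split_ifs with h <;> simp [h]

variable {τ c}

theorem semi_sq (hτ : ∀ a, τ (τ a) = a) {z : F} (h : ∀ i, τ (c i) * c i = algebraMap F E z) :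
    semi b τ c ^ 2 = z • 1 := LinearMap.ext fun v => b.ext_elem fun i => by
  rw [LinearMap.smul_apply, ← algebraMap_smul E z]
  simp [-algebraMap_smul, pow_two, semi_repr, hτ, mul_assoc, h, mul_comm (algebraMap F E z)]

theorem semi_B (hσ : ∀ a, σ (τ a) = τ (σ a)) {μ : E}
    (h : ∀ i j, σ (c i) * c j * Pk.B (b i) (b j) = μ * τ (Pk.B (b i) (b j))) (u v : V) :
    Pk.B (semi b τ c u) (semi b τ c v) = μ * τ (Pk.B u v) := by
  rw [← b.sum_repr u, ← b.sum_repr v]
  simp only [map_sum, semi_smul, semi_basis, LinearMap.sum_apply, LinearMap.map_smulₛₗ,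
    LinearMap.smul_apply, smul_eq_mul, RingHom.id_apply, map_mul, Finset.mul_sum, hσ]
  exact Finset.sum_congr rfl fun j _ => Finset.sum_congr rfl fun i _ => by
    linear_combination (τ (b.repr v j) * τ (σ (b.repr u i))) * h i j

end Semi

variable [FiniteDimensional F V]

theorem two_mul_fix_of_semi (h2 : (2 : F) ≠ 0) (h : y ^ 2 = 1) {τ : E ≃ₐ[F] E} (hτ : τ ≠ 1)
    (hy : ∀ (a : E) v, y (a • v) = τ a • y v) : 2 * finrank F (fixS y) = finrank F V := by
  rcases subsingleton_or_nontrivial V with _ | _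
  · simp [finrank_zero_of_subsingleton]
  obtain ⟨v, hv⟩ := exists_ne (0 : V)
  have key : ∀ y : End F V, y ^ 2 = 1 → (∀ (a : E) v, y (a • v) = τ a • y v) →
      2 * finrank F (fixS y) ≤ finrank F V := fun y h hy => not_lt.mp fun h1 => by
    obtain ⟨g, rfl⟩ := FB.exists_rs_of_fix ⟨τ, hy⟩ h1
    refine hτ (AlgEquiv.ext fun a => smul_left_injective E (m := rs F g v) (fun h0 => hv ?_) ?_)
    · simpa [pow_two, h0] using (LinearMap.congr_fun h v).symm
    · exact (hy a v).symm.trans (g.map_smul a v)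
  have h3 := key y h hy
  have h4 := key (-y) (by simpa using h) fun a v => by simp [hy]
  have h5 := finrank_fixS_add (r := 2) (by simpa using h2) h
  rw [fixS_neg] at h4; omega

variable [Fintype F] [Fintype E] [hr : Fact r.Prime]

theorem exists_elt_of_card {σ : F →+* F} {P : PQ F V σ} (h : r ∣ Nat.card P.Isom) :
    ∃ f, Iso P f ∧ f ^ r = 1 ∧ f ≠ 1 := by
  have := finite_equiv F V
  obtain ⟨g, h1, h2, h3⟩ := exists_orderOf_of_dvd _ h
  exact ⟨g, Iso.of_mem h1, coe_pow_eq_one h2, coe_ne_one h3⟩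

theorem exists_aut (h : finrank F E = 2) : ∃ τ : E ≃ₐ[F] E, τ ≠ 1 ∧ ∀ a, τ (τ a) = a := by
  have h1 := (IsGalois.card_aut_eq_finrank F E).trans h
  have := Finite.one_lt_card_iff_nontrivial.mp (h1 ▸ one_lt_two : 1 < Nat.card (E ≃ₐ[F] E))
  obtain ⟨τ, hτ⟩ := exists_ne (1 : E ≃ₐ[F] E)
  have h2 : τ * τ = 1 := (pow_two τ).symm.trans (h1 ▸ pow_card_eq_one')
  exact ⟨τ, hτ, AlgEquiv.congr_fun h2⟩

theorem card_ext : Nat.card E = Fintype.card F ^ finrank F E := by
  rw [Nat.card_eq_fintype_card, Module.card_eq_pow_finrank (K := F)]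

theorem alt_fb_elA_iff (hP : P.B.SeparatingLeft) (hΛ : P.Λ = ⊤) {k d : ℕ} (hk : k.Prime)
    (hE : finrank F E = k) (hV : finrank F V = 2 * d) (hd : 2 ≤ d)
    (h1 : ∀ (a : E) x y, P.B (a • x) y = P.B x (a • y)) (h2 : ∀ (a : E) x, P.B (a • x) x = 0)
    (hi : ∀ L : Subgroup (V ≃ₗ[E] V), (∀ g ∈ L, H21.res g ∈ P.Isom) →
      r * Nat.card L ∣ Nat.card P.Isom) :
    ElA (Iso P) (FB E) r ↔ r = 2 ∧ d = 2 ∧ k = 2 ∧ (2 : F) ≠ 0 := by
  have := Module.Finite.right F E V
  have : Nontrivial V := nontrivial_of_finrank_pos (R := F) (by omega)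
  obtain ⟨β, hβ⟩ := H21.exists_form (τ := RingHom.id E) (Algebra.trace F E) H21.nd_trace P.B h1
  have hb : ∀ x, β x x = 0 := fun x => H21.nd_trace (F := F) _ fun k => by
    rw [mul_comm, ← smul_eq_mul, ← map_smul, ← hβ, ← h1, h2]
  have X : Ext P (PQ.ofAlt β hb) (Algebra.trace F E) := ⟨H21.nd_trace, hβ, hP⟩
  obtain ⟨m, hm⟩ := (alt_hyp X.sepK rfl (nondeg_top X.sepK)).even
  have h3 := finrank_mul_finrank F E V
  rw [finrank_top, ← two_mul] at hm
  obtain rfl : d = k * m := by rw [hE, hm, hV, mul_left_comm] at h3; omega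
  have h4 := hk.two_le
  have h5 : k ≤ k * m := Nat.le_mul_of_pos_right k (Nat.pos_of_mul_pos_left (by omega : 0 < k * m))
  have key : ∀ {r : ℕ} [Fact r.Prime] (g : End E V), (r : F) ≠ 0 → Iso P (rs F g) →
      rs F g ^ r = 1 → 2 * k ∣ finrank F (movS r (rs F g)) := fun {r} _ g h0 h6 h7 => by
    obtain ⟨t, ht⟩ := (alt_hyp X.sepK rfl (nondeg_movS X.sepK (cast_ne_zero_ext h0)
      (alt_iso rfl (ext_of_rs X h6)) (pow_eq_one_of_rs h7))).even
    exact ⟨t, by rw [finrank_movS_rs, ht, hE]; ring⟩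
  refine ⟨fun h => ?_, ?_⟩
  swap
  · rintro ⟨rfl, h6, rfl, h7⟩
    obtain rfl : m = 1 := by omega
    refine alt_elA_two hP hΛ h7 (fun t h8 h9 => ?_) ?_
    · obtain ⟨τ, h10, h11⟩ := exists_aut hE
      obtain ⟨b, hb⟩ := exists_hyp_basis X.sepK (alt_hyp X.sepK rfl (nondeg_top X.sepK)) hm
      have h12 : semi b τ 1 ^ 2 = 1 := (semi_sq b h11 (z := 1) (by simp)).trans (one_smul _ _)
      refine ⟨semi b τ 1, alt_iso hΛ fun u v => ?_, h12, ?_, fb_semi b τ 1⟩
      · rw [X.B, X.B, semi_B b (fun _ => rfl) (μ := 1), one_mul, Algebra.trace_eq_of_algEquiv]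
        rintro (i | i) (j | j) <;>
          simp [hb.ee, hb.ff, hb.ef, alt_symm (P := PQ.ofAlt β _) rfl (b (.inl _)) (b (.inr _)),
            Subsingleton.elim i j]
      · have := two_mul_fix_of_semi h7 h12 h10 (semi_smul b τ 1)
        omega
    · obtain ⟨s, h8, h9⟩ := exists_alt_sq X.sepK rfl (-1)
      exact ⟨rs F s, alt_iso hΛ (ext_rs X (by simpa [Sim] using h9)), by
        rw [← map_pow, h8]; simp, fb_rs s⟩
  by_cases h0 : (r : F) = 0
  · have : CharP F r := (CharP.charP_iff_prime_eq_zero hr.out).mpr h0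
    obtain ⟨f, h6, h7, h8⟩ := alt_transv r hP hΛ
    refine absurd h (not_elA (fun _ => id) h6 h7 (ne_smul_of_fix (by omega) (by omega))
      fun y _ h9 h10 => ?_)
    rw [finrank_fixS_eq h9] at h8
    obtain ⟨t, ht⟩ := h10.dvd_fix (by omega)
    exact hk.one_lt.ne' (Nat.dvd_one.mp ((Nat.dvd_add_right ⟨t, hE ▸ ht⟩).mp
      (h8 ▸ hV ▸ (dvd_mul_right k m).mul_left 2)))
  rcases eq_or_ne r 2 with rfl | hr2
  · have h6 : (2 : F) ≠ 0 := by simpa using h0
    suffices k * m = 2 from ⟨rfl, this, by omega, h6⟩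
    by_contra h7
    obtain ⟨f, h8, h9, h10⟩ := alt_neg hP hΛ h6 even_two (by omega)
    refine not_elA (fun _ => id) h8 h9 (ne_smul_of_fix (by omega) (by omega))
      (fun y h11 h12 h13 => ?_) h
    have h14 := pow_eq_one_of_similar h12 h9
    have h15 := finrank_fixS_add h0 h14
    rw [finrank_fixS_eq h12] at h10
    obtain ⟨g, rfl⟩ := h13.exists_rs_of_fix (by omega)
    have := Nat.le_of_dvd (by omega) (key g h0 h11 h14)
    omega
  have H : Ord F r _ := ⟨h0, rfl⟩
  generalize orderOf (Fintype.card F : ZMod r) = i at H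
  obtain ⟨c, hc⟩ : ∃ c, c = if Even i then i else 2 * i := ⟨_, rfl⟩
  have h6 := hi (PQ.ofAlt β hb).Isom fun g hg => (alt_iso hΛ (ext_rs X (g := g) hg.1)).mem
  obtain ⟨f, h7, h8, h9⟩ := exists_elt_of_card ((dvd_mul_right _ _).trans h6)
  obtain ⟨f, h7, h8, h9, h10⟩ := (ss_id hP H hr2 hc).exists_one h7 h8 h9
  rw [H66.card_isom_alt P hΛ hP hV, H66.card_isom_alt _ rfl X.sepK hm, H66.spN, H66.spN,
    prod_range_mul_split (fun j => Nat.card F ^ (2 * j) - 1) hk.pos, card_ext (F := F), hE,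
    Nat.card_eq_fintype_card, mul_left_comm, mul_left_comm _ (∏ _ ∈ Finset.range m, _)] at h6
  simp only [← pow_mul, mul_left_comm k] at h6
  obtain ⟨j, h11, h12⟩ := H.exists_dvd (Nat.dvd_of_mul_dvd_mul_left (prod_pow_sub_one_pos
    Fintype.one_lt_card fun _ _ => by positivity) ((Dvd.intro_left _ (by rw [mul_comm _ r])).trans h6))
  have h13 : ∀ j, i ∣ 2 * j → c ∣ 2 * j := fun j h => by
    rw [hc]; split_ifs with h14
    exacts [h, Nat.mul_dvd_mul_left 2 
      ((Nat.not_even_iff_odd.mp h14).coprime_two_right.dvd_of_dvd_mul_left h)]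
  refine absurd h (not_elA (fun _ => id) h7 h8
    (ne_smul_of_odd hP (hr.out.odd_of_ne_two hr2) h7 h8 h9) fun y h14 h15 h16 => ?_)
  have h17 := pow_eq_one_of_similar h15 h8
  rw [finrank_movS_eq h15] at h10
  obtain ⟨g, rfl⟩ : ∃ g : End E V, y = rs F g := by
    rcases eq_or_ne r k with rfl | h18
    · obtain ⟨t, ht⟩ := hr.out.odd_of_ne_two hr2
      have := Nat.le_of_dvd (by omega) (h13 t (by simpa [ht] using H.dvd))
      have := finrank_fixS_add h0 h17
      exact h16.exists_rs_of_fix (by omega)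
    · exact h16.exists_rs_of_pow one_ne_zero (h17.trans (one_smul _ _).symm)
        (hE ▸ (Nat.coprime_primes hr.out hk).mpr h18)
  exact (Finset.mem_filter.mp h11).2 (Nat.dvd_of_mul_dvd_mul_left two_pos
    ((h10 ▸ key g h0 h14 h17).trans (h13 _ h12)))

theorem exists_aut_eq (h : finrank F E = 2) (h1 : ∀ a, σ (algebraMap F E a) = algebraMap F E a)
    (h2 : σ ≠ RingHom.id E) :
    ∃ τ : E ≃ₐ[F] E, (∀ a, τ a = σ a) ∧ ∀ a, σ a = a ^ Fintype.card F := by
  obtain ⟨_, -, h3⟩ := (Nat.card_eq_two_iff' 1).mp ((IsGalois.card_aut_eq_finrank F E).trans h)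
  have h4 := h3 (AlgEquiv.ofBijective ⟨σ, h1⟩ (AlgHom.bijective _)) fun h =>
    h2 (RingHom.ext (AlgEquiv.congr_fun h))
  have h5 := h3 (FiniteField.frobeniusAlgEquivOfAlgebraic F E) fun h5 => by
    simpa [h5, h] using FiniteField.orderOf_frobeniusAlgEquivOfAlgebraic F E
  exact ⟨AlgEquiv.ofBijective ⟨σ, h1⟩ (AlgHom.bijective _), fun _ => rfl,
    AlgEquiv.congr_fun (h4.trans h5.symm)⟩

theorem alt_gu_elA_iff (hP : P.B.SeparatingLeft) (hΛ : P.Λ = ⊤) (h2 : (2 : F) ≠ 0) {d : ℕ}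
    (hE : finrank F E = 2) (hV : finrank F V = 2 * d) (hd : 2 ≤ d)
    (h1 : ∀ a : E, ∃ a' : E, ∀ x y, P.B (a • x) y = P.B x (a' • y))
    (h3 : ¬ ∀ (a : E) x y, P.B (a • x) y = P.B x (a • y))
    (hi : ∀ L : Subgroup (V ≃ₗ[E] V), (∀ g ∈ L, H21.res g ∈ P.Isom) →
      r * Nat.card L ∣ Nat.card P.Isom) : ElA (Iso P) (FB E) r ↔ r = 2 := by
  have := Module.Finite.right F E V
  have : Nontrivial V := nontrivial_of_finrank_pos (R := F) (by omega)
  have h2' : (2 : E) ≠ 0 := by simpa using cast_ne_zero_ext (F := F) (r := 2) (by simpa using h2)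
  obtain ⟨u, hu⟩ := exists_ne (0 : V)
  obtain ⟨σ, t1, t2, t3⟩ := H21.exists_adjoint hP hu h1
  obtain ⟨T, I⟩ := H21.exists_invol (hE ▸ Nat.prime_two) t2 t3 fun h => h3 fun k x y => by
    simpa [h] using t1 k x y
  obtain ⟨β, hβ⟩ := H21.exists_form T I.nd P.B t1
  obtain ⟨τ, t4, t5⟩ := exists_aut_eq hE t3 I.ne
  obtain ⟨δ, hδ0, hδ⟩ : ∃ δ, δ ≠ 0 ∧ σ δ = -δ := by
    obtain ⟨l, hl⟩ := not_forall.mp fun h => I.ne (RingHom.ext h)
    exact ⟨l - σ l, sub_ne_zero.2 (Ne.symm hl), by simp [t2]⟩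
  have hS : ∀ x y, σ ((δ⁻¹ • β) x y) = (δ⁻¹ • β) y x := fun x y => by
    simp [H21.form_symm I.nd I.T_τ t2 hβ x y, alt_ε hΛ, hδ]
  obtain ⟨c₀, hc₀⟩ := exists_trace_one I.ne t2
  have X : Ext P (PQ.ofHerm t2 c₀ hc₀ _ hS) (T ∘ₗ LinearMap.mulLeft F δ) :=
    ⟨fun k hk => (mul_eq_zero.1 (I.nd (δ * k) fun k' => by
      rw [mul_assoc]; exact hk k')).resolve_left hδ0, fun x y => (hβ x y).trans
        (congrArg T (mul_inv_cancel_left₀ hδ0 _).symm), hP⟩
  have HH : HP (PQ.ofHerm t2 c₀ hc₀ _ hS) (Fintype.card F) :=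
    ⟨by rw [← Nat.card_eq_fintype_card, card_ext (F := F), hE], t5, I.ne, rfl, rfl, X.sepK⟩
  generalize PQ.ofHerm t2 c₀ hc₀ _ hS = Pk at X HH
  have hm : finrank E V = d := by have := finrank_mul_finrank F E V; rw [hE] at this; omega
  refine ⟨fun h => by_contra fun hr2 => ?_, ?_⟩
  swap
  · rintro rfl
    refine alt_elA_two hP hΛ h2 (fun t _ h4 => ?_) ?_
    · obtain ⟨W, -, h5, h6⟩ := HH.dc.ex ⊤ (d - t) (nondeg_top HH.sep) (one_dvd _)
        (by rw [finrank_top]; omega)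
      obtain ⟨g, h7, h8, -, h9⟩ := exists_neg_dim HH.sep h2' h5
      exact ⟨rs F g, alt_iso hΛ (ext_rs X h7.B), by rw [← map_pow, h8, map_one],
        by rw [finrank_fixS_rs, hE]; omega, fb_rs g⟩
    · obtain ⟨b, hb⟩ := HH.exists_on (ι := Fin d) (by simpa using hm)
      obtain ⟨a, ha⟩ := exists_norm_eq I.ne t2 (t := -1) (by simp)
      refine ⟨semi b τ fun _ => a, alt_iso hΛ fun u v => ?_, semi_sq b (by simpa [t4] using t2)
        (by simp [t4, ha]), fb_semi _ _ _⟩
      rw [X.B, X.B, semi_B b (by simp [t4]) (μ := -1) fun i j => by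
        rw [ha, hb]; split_ifs <;> simp]
      simpa [t4, hδ] using I.T_τ (δ * Pk.B u v)
  by_cases h0 : (r : F) = 0
  · have : CharP F r := (CharP.charP_iff_prime_eq_zero hr.out).mpr h0
    obtain ⟨f, h6, h7, h8⟩ := alt_transv r hP hΛ
    refine not_elA (fun _ => id) h6 h7 (ne_smul_of_fix (by omega) (by omega))
      (fun y _ h9 h10 => ?_) h
    rw [finrank_fixS_eq h9] at h8
    have := hE ▸ h10.dvd_fix (by omega)
    omega
  have H : Ord F r _ := ⟨h0, rfl⟩
  have S := HH.ss (cast_ne_zero_ext h0) hr2 rfl rfl rfl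
  have h4 := fun k => (dvd_pow_add_one_iff _ k).trans (pow_eq_neg_one_iff H.not_dvd hr2 k)
  generalize orderOf (Fintype.card F : ZMod r) = i at H S h4
  obtain ⟨c, hc⟩ : ∃ c, c = if Even i then i else 2 * i := ⟨_, rfl⟩
  have h6 := hi Pk.Isom fun g hg => (alt_iso hΛ (ext_rs X (g := g) hg.1)).mem
  obtain ⟨f, h7, h8, h9⟩ := exists_elt_of_card ((dvd_mul_right _ _).trans h6)
  obtain ⟨f, h7, h8, h9, h10⟩ := (ss_id hP H hr2 hc).exists_one h7 h8 h9
  have h5 : i % 4 ≠ 2 := fun h5 => by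
    have hq : 1 < Fintype.card F := Fintype.one_lt_card
    rw [H66.card_isom_alt P hΛ hP hV, HH.card_isom hm, H66.spN, Nat.card_eq_fintype_card,
      Finset.prod_congr rfl (f := fun j => _ ^ (2 * _) - 1) (g := fun j => (if Even j then Fintype.card F ^ (j + 1) + 1 else
        Fintype.card F ^ (j + 1) - 1) * if Even j then Fintype.card F ^ (j + 1) - 1 else
          Fintype.card F ^ (j + 1) + 1) fun j _ => by
        rw [mul_comm 2, pow_mul, ← one_pow 2, Nat.sq_sub_sq]; split_ifs <;> simp [mul_comm],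
      Finset.prod_mul_distrib, mul_left_comm, mul_left_comm _ (∏ _ ∈ _, _)] at h6
    have h11 := Nat.dvd_of_mul_dvd_mul_left (Finset.prod_pos fun (j : ℕ) _ => by
      have := Nat.one_lt_pow (show j + 1 ≠ 0 by omega) hq
      split_ifs <;> omega) ((Dvd.intro_left _ (by rw [mul_comm _ r])).trans h6)
    obtain ⟨j, -, h12⟩ := (hr.out.prime.dvd_finsetProd_iff _).mp
      ((hr.out.dvd_mul.mp h11).resolve_left fun h => H.not_dvd (hr.out.dvd_of_dvd_pow h))
    split_ifs at h12 with h13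
    · have := (even_iff_two_dvd.mp (Nat.even_iff.mpr (by omega))).trans ((H.dvd_iff _).mp h12)
      have := Nat.even_iff.mp h13
      omega
    · have h14 := Nat.mod_add_div (j + 1) i
      rw [((h4 _).mp h12).2] at h14
      have := Nat.even_iff.mp ((Nat.even_iff.mpr (show i % 2 = 0 by omega)).mul_right ((j + 1) / i))
      rw [Nat.even_iff] at h13
      omega
  refine not_elA (fun _ => id) h7 h8 (ne_smul_of_odd hP (hr.out.odd_of_ne_two hr2) h7 h8 h9)
    (fun y h14 h15 h16 => ?_) h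
  have h17 := pow_eq_one_of_similar h15 h8
  obtain ⟨g, rfl⟩ := h16.exists_rs_of_pow one_ne_zero (h17.trans (one_smul _ _).symm)
    (hE ▸ (Nat.coprime_primes hr.out Nat.prime_two).mpr hr2)
  obtain ⟨e, h18, -⟩ := S.fix_shape (HH.iso (ext_of_rs X h14)) (pow_eq_one_of_rs h17)
  rw [finrank_movS_eq h15, finrank_movS_rs, h18, hE, hc, if_neg h5] at h10
  have hi := H.pos
  simp only [Nat.even_iff] at h10
  rcases e with _ | e <;> split_ifs at h10 <;> first | omega | nlinarith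

end H99
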