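import Cfsg.Agent.Lib.Elusive.QuadOm

/-!
Unipotent elements of prime order in orthogonal groups.
-/

set_option autoImplicit false
set_option linter.unusedSectionVars false

namespace H99

open Module H28 Polynomial QuadraticMap

section General

variable {F V : Type*} [Field F] [AddCommGroup V] [Module F V] {σ : F →+* F} {P P' : PQ F V σ}
  {f N : V →ₗ[F] V} {W T : Submodule F V} {e : ℕ} {μ : Multiset ℕ}

theorem OSum.transfer {ι : Type*} {Φ : ι → Submodule F V → Prop} {L : Multiset ι}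
    (h : OSum P Φ L T) (hB : P'.B = P.B) : OSum P' Φ L T := by
  induction h with
  | nil => exact OSum.nil
  | cons _ h1 h2 h3 ih =>
    exact ih.cons h1 (fun x hx h => h2 x hx (hB ▸ h)) fun x hx y hy => hB ▸ h3 hx y hy

theorem OSum.hyp [FiniteDimensional F V] {ι : Type*} {L : Multiset ι}
    (h : OSum P (fun _ B => Hyp P B) L T) : Hyp P T := by
  induction h with
  | nil => exact Hyp.bot
  | cons _ h1 _ h3 ih => exact ih.sup h1 h3

theorem RSum.partition {Φ : Submodule F V → Prop} (h : RSum P Φ e T) (χ : Submodule F V → Prop) :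
    ∃ a b T₁ T₂, RSum P (fun B => Φ B ∧ χ B) a T₁ ∧ RSum P (fun B => Φ B ∧ ¬ χ B) b T₂ ∧
      T₂ ≤ P.perp T₁ ∧ T₁ ⊔ T₂ = T := by
  obtain ⟨L, hL⟩ := h.induction (C := fun _ T => ∃ L : Multiset Bool,
    OSum P (fun b B => if b = true then Φ B ∧ χ B else Φ B ∧ ¬ χ B) L T) ⟨0, OSum.nil⟩ (by
      rintro _ T B - h1 h2 h3 ⟨L, hL⟩
      by_cases h4 : χ B
      · exact ⟨true ::ₘ L, hL.cons (by simp [h1, h4]) h2 h3⟩
      · exact ⟨false ::ₘ L, hL.cons (by simp [h1, h4]) h2 h3⟩)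
  exact hL.bool

theorem JT.ker_le_map [FiniteDimensional F V] (h : JT N W μ) (hW : Inv N W) (h1 : 1 ∉ μ) :
    W ⊓ LinearMap.ker N ≤ W.map N := by
  have h2 := finrank_inf_ker_add N (W ⊓ LinearMap.ker (N ^ 2))
  have h3 := h.2 1
  rw [inf_assoc, inf_eq_right.mpr (show LinearMap.ker N ≤ _ from fun v hv => by
    simp [pow_two, LinearMap.mem_ker.mp hv]), h.2 2, sum_map_min_succ, ← h3, pow_one,
    Multiset.filter_eq_self.mpr fun a ha => by
      have := h.1 a ha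
      have : a ≠ 1 := fun h => h1 (h ▸ ha)
      omega, ← h.finrank_ker] at h2
  refine (Submodule.eq_of_le_of_finrank_eq (S₁ := (W ⊓ LinearMap.ker (N ^ 2)).map N) ?_
    (by omega)).ge.trans (Submodule.map_mono inf_le_left)
  rintro _ ⟨v, hv, rfl⟩
  exact ⟨hW v hv.1, by simpa [pow_two] using hv.2⟩

theorem sum_eq_of_le_three {ν : Multiset ℕ} (h : ∀ a ∈ ν, 0 < a ∧ a ≤ 3) :
    ν.sum = ν.count 1 + 2 * ν.count 2 + 3 * ν.count 3 := by
  induction ν using Multiset.induction_on with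
  | empty => simp
  | cons a ν ih =>
    have h1 := h a (Multiset.mem_cons_self _ _)
    rw [Multiset.sum_cons, ih fun b hb => h b (Multiset.mem_cons_of_mem hb)]
    obtain rfl | rfl | rfl : a = 1 ∨ a = 2 ∨ a = 3 := by omega
    all_goals simp; omega

/-- The partition with `a` parts `1`, `2 * b` parts `2` and `c` parts `3`. -/
def sml (a b c : ℕ) : Multiset ℕ :=
  Multiset.replicate a 1 + Multiset.replicate (2 * b) 2 + Multiset.replicate c 3

theorem mem_sml {a b c x : ℕ} :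
    x ∈ sml a b c ↔ (a ≠ 0 ∧ x = 1) ∨ (b ≠ 0 ∧ x = 2) ∨ (c ≠ 0 ∧ x = 3) := by
  simp [sml, Multiset.mem_replicate, or_assoc]

theorem sum_sml (a b c : ℕ) : (sml a b c).sum = a + 4 * b + 3 * c := by
  simp [sml]; ring

theorem adm_sml (a b c : ℕ) : Adm Even (sml a b c) := fun x hx => by
  simp only [sml, Multiset.count_add, Multiset.count_replicate]
  rw [Nat.even_iff] at hx ⊢
  split_ifs <;> omega

theorem exists_sml {a b c : ℕ} {ν : Multiset ℕ} (h : ν ≤ sml a b c) (ha : Adm Even ν) :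
    ∃ a' ≤ a, ∃ b' ≤ b, ∃ c' ≤ c, ν = sml a' b' c' := by
  obtain ⟨k, hk⟩ := ha 2 even_two
  have h1 := Multiset.le_iff_count.mp h
  refine ⟨ν.count 1, by simpa [sml, Multiset.count_replicate] using h1 1, k,
    by have := h1 2; simp [sml, Multiset.count_replicate] at this; omega, ν.count 3,
    by simpa [sml, Multiset.count_replicate] using h1 3, Multiset.ext.mpr fun x => ?_⟩
  have := h1 x
  simp only [sml, Multiset.count_add, Multiset.count_replicate] at this ⊢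
  split_ifs at this ⊢ <;> subst_vars <;> omega

end General

variable {F V : Type*} [Field F] [AddCommGroup V] [Module F V] {Q : QuadraticForm F V}
  {f g : V →ₗ[F] V} {W U T N B : Submodule F V} {e m r : ℕ} {μ : Multiset ℕ}
  [FiniteDimensional F V] {Ω : Submodule F V → Prop}

theorem hyp_of_jt_even (hP : (qP Q).B.SeparatingLeft) (h2 : (2 : F) ≠ 0) (hf : Iso (qP Q) f)
    {K : ℕ} (hW : (qP Q).Nondeg W) (hWf : Inv f W) (hK : ∀ w ∈ W, ((f - 1) ^ K) w = 0)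
    (h : JT (f - 1) W μ) (he : ∀ a ∈ μ, Even a) : Hyp (qP Q) W := by
  obtain ⟨L, hL⟩ := (ub_quad rfl h2).exists_osum hP hf hW hWf hK
  have h1 := h.unique (hL.jt _ fun _ _ h => h)
  refine (hL.mono fun a ha B h3 h4 ⟨h5, h6⟩ => ?_).hyp
  have h7 : Even a := he a (by
    rw [h1]
    exact Multiset.mem_join.mpr ⟨_, Multiset.mem_map_of_mem _ ha, by
      unfold blk; split_ifs <;> simp⟩)
  rw [blk, if_pos h7] at h6
  obtain ⟨k, rfl⟩ := h7
  have h7 := h6.finrank_eq fun w hw => hK w (h3 hw)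
  have h8 := finrank_inf_ker_add ((f - 1) ^ k) B
  have h9 := h6.pow_eq_zero (K := k + k) (by simp) h7.symm
  have h10 := inv_sub_one_iff.mp h5
  rw [h6.2] at h8
  refine ⟨h4, B.map ((f - 1) ^ k), inv_iff_map_le.mp (h5.pow k), (isotropic_iff h2).mp ?_,
    by simp at h7 h8; omega⟩
  rintro _ ⟨v, hv, rfl⟩ _ ⟨u, -, rfl⟩
  obtain ⟨y, hy, rfl⟩ := ((h10.pow k).map_eq ((hf.pow k).injective hP)).ge hv
  have h11 : Commute ((f - 1) ^ k) (f ^ k) :=
    (((Commute.refl f).sub_left (Commute.one_left f)).pow_pow k k)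
  rw [← Module.End.mul_apply _ (f ^ k), h11.eq, Module.End.mul_apply, hf.B_pow, pow_apply_pow,
    h9 y hy, map_zero, mul_zero]

variable [Fintype F]

theorem quad_H2 (hP : (qP Q).B.SeparatingLeft) (h2 : (2 : F) ≠ 0) (T : Submodule F V) (a : ℕ)
    (ha : ¬ Even a) (hT : (qP Q).Nondeg T) (h : a ≤ finrank F T) :
    ∃ B ≤ T, (qP Q).Nondeg B ∧ finrank F B = a ∧ HasTS (qP Q) B (a / 2) ∧
      (Even a → ∃ c ∈ (qP Q).Λ, c ≠ 0) := by
  obtain ⟨B, h1, h3, h4⟩ := quad_exists_nondeg hP h2 hT h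
  exact ⟨B, h1, h3, h4, quad_hasTS hP h3 (by rw [Nat.even_iff] at ha; omega), fun h => absurd h ha⟩

theorem quad_char_two (hP : (qP Q).B.SeparatingLeft) (h2 : (2 : F) = 0) (hf : Iso (qP Q) f)
    (h : f ^ 2 = 1) : ∃ a b c, finrank F V = 2 * a + 2 * b + 4 * c ∧ (Hyp (qP Q) ⊤ ↔ Even b) ∧
      ∀ x ≤ a, ∀ y ≤ b, ∀ z ≤ c, ∃ W, (qP Q).Nondeg W ∧ Inv f W ∧
        finrank F W = 2 * x + 2 * y + 4 * z ∧ (Hyp (qP Q) W ↔ Even y) := by
  obtain ⟨a, c, T, T₃, h3, h4, h5, h6⟩ := alt_char_two (f := f)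
    (P := PQ.ofAlt (polarBilin Q) fun x => (qP_self x).trans (by rw [h2, zero_mul])) hP rfl h2
    (alt_iso rfl hf.B) (fun v => by simpa [pow_two] using congrArg (fun g : V →ₗ[F] V => g v) h)
    (nondeg_top hP) Inv.top
  have h7 : RSum (qP Q) (Swp (qP Q) f 2) c T₃ := RSum.mono (h4.transfer rfl) fun _ _ _ h => h.1
  obtain ⟨a, b, T₁, T₂, h8, h9, h10, rfl⟩ := RSum.partition (P := qP Q) (Φ := IPl f)
    (RSum.mono (h3.transfer rfl) fun _ _ _ h => h.1) (Hyp (qP Q))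
  have key : ∀ x y z U₁ U₂ U₃, RSum (qP Q) (fun B => IPl f B ∧ Hyp (qP Q) B) x U₁ →
      RSum (qP Q) (fun B => IPl f B ∧ ¬ Hyp (qP Q) B) y U₂ → RSum (qP Q) (Swp (qP Q) f 2) z U₃ →
      U₂ ≤ (qP Q).perp U₁ → U₃ ≤ (qP Q).perp (U₁ ⊔ U₂) →
      (qP Q).Nondeg (U₁ ⊔ U₂ ⊔ U₃) ∧ Inv f (U₁ ⊔ U₂ ⊔ U₃) ∧
        finrank F ↥(U₁ ⊔ U₂ ⊔ U₃) = 2 * x + 2 * y + 4 * z ∧
        (Hyp (qP Q) (U₁ ⊔ U₂ ⊔ U₃) ↔ Even y) := fun x y z U₁ U₂ U₃ k1 k2 k3 k4 k5 => by
    have k6 := nondeg_sup k1.nondeg k2.nondeg k4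
    have k7 := k1.hyp_iff hP (τ := True) fun B _ h => ⟨by simp [h.1.2], by simp [h.2]⟩
    have k8 := k2.hyp_iff hP (τ := False) fun B _ h => ⟨by simp [h.1.2], by simp [h.2]⟩
    have k9 := k3.hyp_iff hP (τ := True) fun B _ h => ⟨by
      rw [h.finrank_eq hP hf]; decide, by
        obtain ⟨U, h1, h3, h4, rfl⟩ := h
        rw [quad_hyp_sup hP h1 (hf.nondeg_map h1) (by simp [h3]) (by simp [hf.finrank_map hP, h3]) h4]
        exact iff_true_intro ⟨fun h => h.cj (hf.cj hP U), fun h => h.cj (hf.cj hP U).symm⟩⟩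
    have k10 := finrank_sup_orth k1.nondeg k4
    refine ⟨nondeg_sup k6 k3.nondeg k5, ((k1.inv fun _ h => h.1.1).sup
      (k2.inv fun _ h => h.1.1)).sup (k3.inv fun _ h' => h'.inv (z := 1) (by simpa using h)), ?_, ?_⟩
    · rw [finrank_sup_orth k6 k5, k10, k1.finrank_eq fun _ h => h.1.2,
        k2.finrank_eq fun _ h => h.1.2, k3.finrank_eq fun _ h => h.finrank_eq hP hf]; ring
    · rw [quad_hyp_sup hP k6 k3.nondeg (k10 ▸ k7.1.add k8.1) k9.1 k5,
        (k7.2.mpr (Or.inl trivial)).sup_iff hP k4, k8.2, k9.2]; simp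
  have h11 := key _ _ _ _ _ _ h8 h9 h7 h10 h5
  rw [h6, finrank_top] at h11
  refine ⟨a, b, c, h11.2.2.1, h11.2.2.2, fun x hx y hy z hz => ?_⟩
  obtain ⟨U₁, k1, k2⟩ := h8.exists_le hx
  obtain ⟨U₂, k3, k4⟩ := h9.exists_le hy
  obtain ⟨U₃, k5, k6⟩ := h7.exists_le hz
  exact ⟨_, key _ _ _ _ _ _ k2 k4 k6 (le_perp_mono h10 k1 k3)
    (le_perp_mono h5 (sup_le_sup k1 k3) k5)⟩

theorem el_char_two (hP : (qP Q).B.SeparatingLeft) (h2 : (2 : F) = 0) [Nontrivial V]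
    {T : (V →ₗ[F] V) → Prop} : El Q 2 T ↔ ∀ f, InOm Q f → f ^ 2 = 1 → f ≠ 1 → T f := by
  have key : ∀ {f : V →ₗ[F] V} {r : ℕ} {c : F}, Iso (qP Q) f → f ^ r = c • 1 → c = 1 :=
    fun hf h => (sq_eq_one_of_pow hP hf h).elim id fun h => by rw [h]; linear_combination -h2
  exact ⟨fun h f hf h1 h3 => h f hf ⟨1, by rw [h1, one_smul]⟩ fun c hc => h3 (by
      rw [hc, key hf.iso ((pow_one _).trans hc), one_smul]),
    fun h f hf ⟨c, hc⟩ h1 => h f hf (by rw [hc, key hf.iso hc, one_smul]) (by simpa using h1 1)⟩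

variable (p : ℕ) [hp : Fact p.Prime] [CharP F p]

theorem El.char {T : (V →ₗ[F] V) → Prop} (h : El Q p T) [Nontrivial V] (hf : InOm Q f) (h1 : f ^ p = 1) (h3 : f ≠ 1) : T f :=
  h f hf ⟨1, by rw [h1, one_smul]⟩ fun c hc => h3 (by
    rw [hc, _root_.smul_pow, one_pow, ← one_smul F (1 : V →ₗ[F] V), smul_smul, mul_one] at h1
    rw [hc, eq_one_of_pow_char (p := p) (smul_left_injective F one_ne_zero h1), one_smul])

theorem El.exists_at (h : El Q p fun f => ∃ W, Ω W ∧ Inv f W) (hP : (qP Q).B.SeparatingLeft)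
    (hG : H12.Good Q) (hΩ : ∀ W, Ω W → (qP Q).Nondeg W) (hT : Hyp (qP Q) T)
    (h4 : finrank F T % 4 = 0) (h0 : T ≠ ⊥) : ∃ W, Ω W ∧ ∃ M ≤ (qP Q).perp T, (qP Q).Nondeg M ∧
      finrank F W % 4 = finrank F M % 4 ∧ (Hyp (qP Q) W ↔ Hyp (qP Q) M) := by
  have : Nontrivial V := (Submodule.nontrivial_iff F).mp (nontrivial_of_ne _ _ h0)
  obtain ⟨f, h1, h2, h3⟩ := exists_at_hyp hP qP_symm hT h4 h0
  obtain ⟨W, h5, h6⟩ := h.char p (h1.inOm hP hG) (h1.pow_char p) h2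
  obtain ⟨H, M, M', h7, h8, h9, h10, h11, h12, rfl⟩ := h3 W (hΩ W h5) h6
  exact ⟨_, h5, M', h7, h11.nondeg h10, by rw [finrank_sup_orth h8.1 h12, h11.finrank_eq]; omega,
    (h8.sup_iff hP h12).trans ⟨fun h => h.cj h11, fun h => h.cj h11.symm⟩⟩

theorem two_ne_zero_of_ne (h : p ≠ 2) : (2 : F) ≠ 0 := by
  have := Fact.mk Nat.prime_two
  simpa using cast_ne_zero_of_ne (F := F) h.symm

theorem El.exists_jt (h : El Q p fun f => ∃ W, Ω W ∧ Inv f W) (hP : (qP Q).B.SeparatingLeft)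
    (hp2 : p ≠ 2) (hΩ : ∀ W, Ω W → (qP Q).Nondeg W) (ha : Adm Even μ)
    (h0 : ∀ a ∈ μ, 0 < a ∧ a ≤ p) (hs : μ.sum = finrank F V)
    (hh : (∀ a ∈ μ, Even a) → Hyp (qP Q) ⊤) (h1 : ∃ a ∈ μ, 1 < a) :
    ∃ W, Ω W ∧ ∃ ν ≤ μ, ν.sum = finrank F W ∧ Adm Even ν ∧
      ((∀ a ∈ ν, Even a) → Hyp (qP Q) W) := by
  have h2 := two_ne_zero_of_ne (F := F) p hp2
  obtain ⟨f, h3, h4, h5, h6, h7⟩ := exists_unip_top p hP (fun _ _ => quad_hasTS hP)
    (quad_H2 hP h2) ha h0 hs hh h1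
  have : Nontrivial V := by
    by_contra h; rw [not_nontrivial_iff_subsingleton] at h; exact h5 (Subsingleton.elim _ _)
  obtain ⟨W, h8, h9⟩ := h.char p (inOm_of_odd hP (H12.good_of_two_ne_zero hP h2)
    (hp.1.odd_of_ne_two hp2) h3 h4) h4 h5
  obtain ⟨ν, h10, h11, h12, h13⟩ := (ub_quad rfl h2).exists_le hP h3 h7 h6 (hΩ W h8) h9
  exact ⟨W, h8, ν, h10, h11, h12,
    hyp_of_jt_even hP h2 h3 (hΩ W h8) h9 (fun w _ => h7 w trivial) h13⟩

theorem El.exists_sml (h : El Q p fun f => ∃ W, Ω W ∧ Inv f W) (hP : (qP Q).B.SeparatingLeft)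
    (hp2 : p ≠ 2) (hΩ : ∀ W, Ω W → (qP Q).Nondeg W) (a b c : ℕ)
    (hn : finrank F V = a + 4 * b + 3 * c) (h1 : 0 < a + c) (h2 : 0 < b + c) :
    ∃ W, Ω W ∧ ∃ a' ≤ a, ∃ b' ≤ b, ∃ c' ≤ c, finrank F W = a' + 4 * b' + 3 * c' ∧
      (a' = 0 → c' = 0 → Hyp (qP Q) W) := by
  have h3 := hp.1.two_le
  obtain ⟨W, h4, ν, h5, h6, h7, h8⟩ := h.exists_jt p hP hp2 hΩ (adm_sml a b c)
    (fun x hx => by rw [mem_sml] at hx; omega) (by rw [sum_sml, hn]) (fun h => by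
      rcases Nat.eq_zero_or_pos a with rfl | h5
      · exact absurd (h 3 (mem_sml.mpr (by omega))) (by decide)
      · exact absurd (h 1 (mem_sml.mpr (by omega))) (by decide)) (by
      rcases Nat.eq_zero_or_pos b with rfl | h5
      · exact ⟨3, mem_sml.mpr (by omega), by omega⟩
      · exact ⟨2, mem_sml.mpr (by omega), by omega⟩)
  obtain ⟨a', k1, b', k2, c', k3, rfl⟩ := H99.exists_sml h5 h7
  exact ⟨W, h4, a', k1, b', k2, c', k3, by rw [← h6, sum_sml], fun k4 k5 => h8 fun x hx => by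
    rw [mem_sml] at hx; rw [Nat.even_iff]; omega⟩

theorem El.exists_le (h : El Q p fun f => ∃ W, Ω W ∧ Inv f W) (hP : (qP Q).B.SeparatingLeft)
    (hp2 : p ≠ 2) (hΩ : ∀ W, Ω W → (qP Q).Nondeg W ∧ finrank F W = m) (hm : m ≤ finrank F V)
    (h0 : ∀ a ∈ μ, 0 < a ∧ a ≤ p) (ha : Adm Even μ) (hs : μ.sum = finrank F V)
    (hh : (∀ a ∈ μ, Even a) → Hyp (qP Q) ⊤) : ∃ ν ≤ μ, ν.sum = m ∧ Adm Even ν := by
  by_cases h1 : ∃ a ∈ μ, 1 < a
  · obtain ⟨W, h3, ν, h4, h5, h6, -⟩ := h.exists_jt p hP hp2 (fun W h => (hΩ W h).1) ha h0 hs hh h1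
    exact ⟨ν, h4, h5.trans (hΩ W h3).2, h6⟩
  · obtain ⟨ν, h2, h3, h4⟩ := exists_le_sum_eq_of_le_one (fun a h => (h0 a h).1) h1 (hs ▸ hm)
    exact ⟨ν, h2, h3, fun a h => by
      rw [Multiset.count_eq_zero_of_notMem fun h5 => absurd (h4 a h5 ▸ h) (by decide)]
      exact Even.zero⟩

theorem exists_line_hyp (hP : (qP Q).B.SeparatingLeft) (hW : (qP Q).Nondeg W)
    (h : Odd (finrank F W)) :
    ∃ w H, Q w ≠ 0 ∧ Hyp (qP Q) H ∧ (F ∙ w) ≤ (qP Q).perp H ∧ H ⊔ (F ∙ w) = W := by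
  obtain ⟨H, M, h1, h2, h3, rfl, h4, -⟩ := quad_witt hP hW
  obtain ⟨w, h5, -, rfl⟩ := exists_line h2 (by
    rw [finrank_sup_orth h1.1 h3, Nat.odd_iff] at h
    have := Nat.even_iff.mp h1.even
    omega)
  exact ⟨w, H, h5, h1, h3, rfl⟩

theorem exists_unip_line (hP : (qP Q).B.SeparatingLeft) (hp2 : p ≠ 2) (hW : (qP Q).Nondeg W)
    (hn : finrank F V % 4 = 0) (hm : finrank F W % 4 = 1) :
    ∃ f, Iso (qP Q) f ∧ f ^ p = 1 ∧ f ≠ 1 ∧ ∀ U, Cj (qP Q) W U → ¬ Inv f U := by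
  have h2 := two_ne_zero_of_ne (F := F) p hp2
  have h3 := hp.1.two_le
  have hle := Submodule.finrank_le W
  obtain ⟨b, hb⟩ : ∃ b, finrank F V = 4 * b + 4 := ⟨finrank F V / 4 - 1, by omega⟩
  obtain ⟨w₀, H₀, k1, k2, k3, rfl⟩ := exists_line_hyp hP hW (Nat.odd_iff.mpr (by omega))
  obtain ⟨α, hα⟩ := FiniteField.exists_nonsquare (F := F) (by rwa [ringChar.eq F p])
  have hα0 : α ≠ 0 := by rintro rfl; exact hα IsSquare.zero
  obtain ⟨v, -, hv⟩ := quad_universal (nondeg_top hP) (by rw [finrank_top]; omega) (α * Q w₀)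
  have hv0 : Q v ≠ 0 := hv ▸ mul_ne_zero hα0 k1
  have h4 := nondeg_line h2 hv0
  have h5 := (qP Q).finrank_perp_add hP (F ∙ v)
  rw [finrank_span_singleton (H12.ne_zero_of_Q_ne hv0)] at h5
  obtain ⟨f, h6, h7, h8⟩ := exists_unip hP (fun _ _ => quad_hasTS hP) (quad_H2 hP h2)
    (adm_sml 0 b 1) (fun x hx => by rw [mem_sml] at hx; omega) _ (h4.perp hP)
    (by rw [sum_sml]; omega) fun h => absurd (h 3 (mem_sml.mpr (by omega))) (by decide)
  have h9 : f v = v := h7 v ((qP Q).le_perp_perp _ (Submodule.mem_span_singleton_self v))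
  have h10 : ∀ x ∈ F ∙ v, (f - 1) x = 0 := fun x hx => by
    obtain ⟨a, rfl⟩ := Submodule.mem_span_singleton.mp hx; simp [h9]
  have h11 := inv_sub_one_iff.mpr (h7.inv hP h6)
  have h12 := (jt_of_zero h10).add h8 (fun x hx => by simp [h10 x hx]) h11
    (nondeg_disjoint h4 le_rfl)
  rw [h4.isCompl.sup_eq_top, finrank_span_singleton (H12.ne_zero_of_Q_ne hv0),
    show Multiset.replicate 1 1 + sml 0 b 1 = sml 1 b 1 by simp [sml]] at h12
  have h13 := h12.pow_eq_zero (K := p) (fun x hx => by rw [mem_sml] at hx; omega)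
    (by rw [sum_sml, finrank_top]; omega)
  refine ⟨f, h6, ?_, ?_, fun U hU hUf => ?_⟩
  · rw [← sub_eq_zero, ← sub_one_pow_char]; exact LinearMap.ext fun v => h13 v trivial
  · rintro rfl
    exact absurd (h12.le_of_pow_eq_zero (K := 1) (by simp) 3 (mem_sml.mpr (by omega))) (by omega)
  have h14 := hU.nondeg hW
  obtain ⟨ν, h15, h16, h17, h18⟩ := (ub_quad rfl h2).exists_le hP h6 h13 h12 h14 hUf
  obtain ⟨a', -, b', -, c', -, rfl⟩ := exists_sml h15 h17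
  have h19 := Multiset.le_iff_count.mp h15
  have h20 := h19 1
  have h21 := h19 3
  rw [sum_sml, ← hU.finrank_eq] at h16
  simp only [sml, Multiset.count_add, Multiset.count_replicate] at h20 h21
  obtain ⟨rfl, rfl⟩ : a' = 1 ∧ c' = 0 := by simp at h20 h21; omega
  have hK : ∀ w ∈ U, ((f - 1) ^ p) w = 0 := fun w _ => h13 w trivial
  obtain ⟨L, l1, l2, l3, l4, l5⟩ := (ub_quad rfl h2).exists_nondeg hP h6 h14 hUf hK h18
    (ν := {1}) (by simp [mem_sml]) fun a ha => by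
      rw [Multiset.count_eq_zero_of_notMem (by rintro h; simp_all)]; exact Even.zero
  obtain ⟨ν, ν', l6, l7, l8, -⟩ := h18.exists_perp hP h6 hUf hK l2 l3 l1
  rw [l6.unique l4, show sml 1 b' 0 = {1} + sml 0 b' 0 by simp [sml], add_right_inj] at l8
  have l9 := hyp_of_jt_even hP h2 h6 (nondeg_inf_perp h14 l2 l1) (hUf.inf (h6.inv_perp hP l3))
    (fun w hw => hK w hw.1) l7 fun x hx => by rw [l8, mem_sml] at hx; rw [Nat.even_iff]; omega
  obtain ⟨w, l10, -, rfl⟩ := exists_line l2 (by simpa using l5)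
  have l11 := finrank_inf_perp' l2 l1
  have l12 := finrank_sup_orth k2.1 k3
  rw [finrank_span_singleton (H12.ne_zero_of_Q_ne k1), hU.finrank_eq] at l12
  rw [← sup_inf_perp l2 l1, sup_comm (F ∙ w)] at hU
  have l13 := (cj_line_iff hP k1 l10).mp (hU.cancel hP (k2.cj_of_finrank hP l9 (by
    simp at l5; omega)) k2.1 k3 ((qP Q).le_perp_comm.mp inf_le_right))
  have l14 : (f - 1) w = 0 := by
    simpa using l4.pow_eq_zero (K := 1) (by simp) l5.symm w (Submodule.mem_span_singleton_self w)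
  obtain ⟨x, hx, t, ht, rfl⟩ := exists_add_perp h4 w
  obtain ⟨a, rfl⟩ := Submodule.mem_span_singleton.mp hx
  rw [map_add, h10 _ hx, zero_add] at l14
  obtain ⟨y, -, rfl⟩ := h8.ker_le_map h11 (by simp [mem_sml]) ⟨ht, l14⟩
  have l15 : Q ((f - 1) y) = 0 := by
    have := h6.B_sub_one y ((f - 1) y)
    rw [l14, show f ((f - 1) y) = (f - 1) y by simpa [sub_eq_zero] using l14, qP_self] at this
    simpa [h2] using this
  rw [qP_add, ht _ hx, l15, H12.Q_smul, hv] at l13 l10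
  refine hα ((isSquare_mul_iff (mul_ne_zero (a := a * Q w₀) ?_ ?_) hα0).mp
    (by convert l13 using 1; ring) |>.mp ⟨_, rfl⟩) <;>
  exact fun h => l10 (by linear_combination a * α * h)

theorem not_el_odd (hP : (qP Q).B.SeparatingLeft) (hp2 : p ≠ 2) (hW : (qP Q).Nondeg W)
    (hn : Even (finrank F V)) (h6 : 6 ≤ finrank F V) (hm : Odd (finrank F W)) :
    ¬ El Q p fun f => ∃ U, Cj (qP Q) W U ∧ Inv f U := fun h => by
  have h2 := two_ne_zero_of_ne (F := F) p hp2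
  have : Nontrivial V := Module.nontrivial_of_finrank_pos (R := F) (by omega)
  have hO := fun f => inOm_of_odd (f := f) hP (H12.good_of_two_ne_zero hP h2)
    (hp.1.odd_of_ne_two hp2)
  have h1 := (qP Q).finrank_perp_add hP W
  rw [Nat.even_iff] at hn
  rw [Nat.odd_iff] at hm
  obtain h3 | h3 : finrank F V % 4 = 0 ∨ finrank F V % 4 = 2 := by omega
  all_goals obtain h4 | h4 : finrank F W % 4 = 1 ∨ finrank F W % 4 = 3 := by omega
  · obtain ⟨f, h5, h7, h8, h9⟩ := exists_unip_line p hP hp2 hW h3 h4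
    obtain ⟨U, h10, h11⟩ := h.char p (hO f h5 h7) h7 h8
    exact h9 U h10 h11
  · obtain ⟨f, h5, h7, h8, h9⟩ := exists_unip_line p hP hp2 (hW.perp hP) h3 (by omega)
    obtain ⟨U, h10, h11⟩ := h.char p (hO f h5 h7) h7 h8
    exact h9 _ h10.perp (h5.inv_perp hP h11)
  · obtain ⟨U, h5, a, _, b, -, c, _, h7, -⟩ := h.exists_sml p hP hp2 (fun _ h => h.nondeg hW) 0
      ((finrank F V - 6) / 4) 2 (by omega) (by omega) (by omega)
    have := h5.finrank_eq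
    omega
  · obtain ⟨U, h5, a, _, b, -, c, _, h7, -⟩ := h.exists_sml p hP hp2 (fun _ h => h.nondeg hW) 2
      ((finrank F V - 2) / 4) 0 (by omega) (by omega) (by omega)
    have := h5.finrank_eq
    omega

end H99
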