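import Cfsg.Agent.Lib.Elusive.QuadP

/-!
Summary statements for orthogonal groups acting on subspaces.
-/

set_option autoImplicit false
set_option linter.unusedSectionVars false

namespace H99

open Module H28 Polynomial QuadraticMap

section Arith

variable {n m c i s : ℕ} {δ ε : Prop} {τ : ℕ → Prop}

theorem div_facts (hc : 0 < c) (hce : Even c) (n m : ℕ) : n % c < c ∧ m % c < c ∧ c % 2 = 0 ∧
    n % c % 2 = n % 2 ∧ m % c % 2 = m % 2 ∧ (c ≤ m ↔ 0 < m / c) ∧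
    (m % c = n % c → (n + m - 2 * (n % c)) / c = n / c + m / c) ∧
    (m < n ↔ m / c < n / c ∨ (m / c = n / c ∧ m % c < n % c)) ∧
    (2 * m < n ↔ 2 * (m / c) + 1 < n / c ∨ (2 * (m / c) + 1 = n / c ∧ 2 * (m % c) < c + n % c) ∨
      (2 * (m / c) = n / c ∧ 2 * (m % c) < n % c)) ∧ (0 < m ↔ 0 < m / c ∨ 0 < m % c) := by
  have h1 := Nat.mod_lt n hc
  have h2 := Nat.mod_lt m hc
  have h3 := lex_lt (m / c) (n / c) h2 h1
  have h4 := lex_lt₂ (2 * (m / c)) (n / c) (by omega : 2 * (m % c) < 2 * c) h1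
  have h5 := lex_lt 0 (m / c) hc h2
  rw [mul_assoc, ← mul_add] at h4
  rw [zero_mul] at h5
  simp only [Nat.div_add_mod'] at h3 h4 h5
  refine ⟨h1, h2, Nat.even_iff.mp hce, Nat.mod_mod_of_dvd _ hce.two_dvd,
    Nat.mod_mod_of_dvd _ hce.two_dvd, by rw [Nat.div_pos_iff]; simp [hc], fun h => ?_, h3, h4,
    by omega⟩
  have h6 := Nat.div_add_mod' n c
  have h7 := Nat.div_add_mod' m c
  rw [show n + m - 2 * (n % c) = (n / c + m / c) * c by rw [add_mul]; omega, Nat.mul_div_cancel _ hc]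

theorem exists_qg_iff (hc : 0 < c) (e : ℕ) : (∃ t, QG n m c δ ε τ e t) ↔
    (m / c ≤ e ∧ m % c = 0 ∧ (ε ↔ τ (m / c))) ∨
    ((0 < m % c ∧ ((e < n / c ∧ m / c < n / c) ∨ (e ≤ n / c ∧ m / c ≤ n / c ∧ m % c < n % c))) ∨
    (m % c = 0 ∧ 0 < m / c ∧ ((m / c < n / c ∧ e + 1 < n / c) ∨
      (m / c ≤ n / c ∧ e + 1 ≤ n / c ∧ 0 < n % c)))) ∨
    (n / c ≤ m / c + e ∧ m / c ≤ n / c ∧ e ≤ n / c ∧ m % c = n % c ∧
      (ε ↔ (τ (m / c + e - n / c) ↔ (δ ↔ τ e)))) := by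
  simp only [qg_iff hc]
  generalize n / c = E, n % c = k, m / c = M, m % c = l
  refine ⟨?_, ?_⟩
  · rintro ⟨t, h1, h2, ⟨rfl, h3⟩ | h3 | ⟨h3, h4, h5⟩⟩
    · exact Or.inl ⟨h1, h3⟩
    · exact Or.inr (Or.inl (by omega))
    · obtain rfl : t = M + e - E := by omega
      exact Or.inr (Or.inr ⟨by omega, by omega, by omega, h4, h5⟩)
  · rintro (h | (h | h) | ⟨h1, h2, h3, h4⟩)
    · exact ⟨M, h.1, le_rfl, Or.inl ⟨rfl, h.2⟩⟩
    · exact ⟨min e M, by omega, by omega, Or.inr (Or.inl (by omega))⟩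
    · exact ⟨min e (M - 1), by omega, by omega, Or.inr (Or.inl (by omega))⟩
    · exact ⟨M + e - E, by omega, by omega, Or.inr (Or.inr ⟨by omega, h4⟩)⟩

theorem nd_elim (hc : 0 < c) (h0 : 0 < m) (hm : m < n) :
    (∀ e, 0 < e → Feas n c δ τ e → ∃ t, QG n m c δ ε τ e t) ↔
    (0 < n / c → (0 < n % c ∨ (δ ↔ τ (n / c))) → (m % c = 0 ∧ (ε ↔ τ (m / c))) ∨
      (0 < m % c ∧ m % c < n % c) ∨ (m % c = n % c ∧ (ε ↔ (τ (m / c) ↔ (δ ↔ τ (n / c)))))) ∧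
    (1 < n / c → (m / c < n / c ∧ m % c = 0 ∧ (ε ↔ τ (m / c))) ∨
      (0 < m % c ∨ (0 < m / c ∧ 0 < n % c)) ∨
      (0 < m / c ∧ m % c = n % c ∧ (ε ↔ (τ (m / c - 1) ↔ (δ ↔ τ (n / c - 1)))))) := by
  have h1 := lex_lt (m / c) (n / c) (Nat.mod_lt m hc) (Nat.mod_lt n hc)
  have h2 := lex_lt 0 (m / c) hc (Nat.mod_lt m hc)
  simp only [Nat.div_add_mod', zero_mul, add_zero, hm, h0, true_iff] at h1 h2
  simp only [exists_qg_iff hc, feas_iff hc]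
  generalize n / c = E, n % c = k, m / c = M, m % c = l at *
  refine ⟨fun h => ⟨fun h3 h4 => ?_, fun h3 => ?_⟩, fun h e h3 h4 => ?_⟩
  · rcases h E h3 (Or.inr ⟨rfl, by by_cases k = 0 <;> simp_all; omega⟩) with h | h | h
    · exact Or.inl h.2
    · exact Or.inr (Or.inl (by omega))
    · exact Or.inr (Or.inr (by simpa using h.2.2.2))
  · rcases h (E - 1) (by omega) (Or.inl (by omega)) with h | h | h
    · exact Or.inl ⟨by omega, h.2⟩
    · exact Or.inr (Or.inl (by omega))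
    · exact Or.inr (Or.inr ⟨by omega, h.2.2.2.1, by
        rw [show M - 1 = M + (E - 1) - E by omega]; exact h.2.2.2.2⟩)
  rcases h4 with h4 | ⟨rfl, h4⟩
  · by_cases h5 : e + 1 = E
    · subst h5
      rcases h.2 (by omega) with h | h | h
      · exact Or.inl ⟨by omega, h.2⟩
      · exact Or.inr (Or.inl (by omega))
      · exact Or.inr (Or.inr ⟨by omega, by omega, by omega, h.2.1, by
          rw [show M + e - (e + 1) = M - 1 by omega]; simpa using h.2.2⟩)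
    · exact Or.inr (Or.inl (by omega))
  · rcases h.1 h3 (h4.imp_right And.right) with h | h | h
    · exact Or.inl ⟨by omega, h⟩
    · exact Or.inr (Or.inl (by omega))
    · exact Or.inr (Or.inr ⟨by omega, by omega, le_rfl, by simpa using h⟩)

theorem nd_weak (hc : 0 < c) (h0 : 0 < m) (hm : m < n) (hτ : τ 0)
    (h : ∃ e, Feas n c δ τ e ∧ ¬ QG n m c δ ε τ e 0 ∧ ¬ QG n m c δ ε τ e e) :
    ∃ e, (e < n / c ∨ (e = n / c ∧ (0 < n % c ∨ (δ ↔ τ e)))) ∧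
      (m / c < e ∨ (e = m / c ∧ m % c = 0 ∧ ¬ (ε ↔ τ e))) ∧ (n / c < m / c + e ∨
        (m / c + e = n / c ∧ (n % c < m % c ∨ (m % c = n % c ∧ ¬ (ε ↔ (δ ↔ τ e)))))) := by
  have h1 := lex_lt (m / c) (n / c) (Nat.mod_lt m hc) (Nat.mod_lt n hc)
  have h2 := lex_lt 0 (m / c) hc (Nat.mod_lt m hc)
  simp only [Nat.div_add_mod', zero_mul, add_zero, hm, h0, true_iff] at h1 h2
  simp only [qg_iff hc, feas_iff hc, hτ, true_iff] at h
  generalize n / c = E, n % c = k, m / c = M, m % c = l at *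
  obtain ⟨e, h3, h4, h5⟩ := h
  refine ⟨e, h3.imp_right fun h => ⟨h.1, h.2.imp_right And.right⟩, ?_, ?_⟩
  · clear h3 h4
    rcases lt_trichotomy M e with h | rfl | h
    · exact Or.inl h
    · by_cases h6 : l = 0
      · exact Or.inr ⟨rfl, h6, fun h => h5 ⟨le_rfl, le_rfl, Or.inl ⟨rfl, h6, h⟩⟩⟩
      · exact absurd ⟨le_rfl, le_rfl, Or.inr (Or.inl (by clear h5; omega))⟩ h5
    · exact absurd ⟨le_rfl, h.le, Or.inr (Or.inl (by clear h5; omega))⟩ h5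
  · clear h3 h5
    rcases lt_trichotomy E (M + e) with h | h | h
    · exact Or.inl h
    · rcases lt_trichotomy k l with h6 | h6 | h6
      · exact Or.inr ⟨h.symm, Or.inl h6⟩
      · exact Or.inr ⟨h.symm, Or.inr ⟨h6.symm, fun h7 => h4 ⟨zero_le, zero_le,
          Or.inr (Or.inr ⟨h.symm, h6.symm, h7⟩)⟩⟩⟩
      · exact absurd ⟨zero_le, zero_le, Or.inr (Or.inl (by clear h4; omega))⟩ h4
    · exact absurd ⟨zero_le, zero_le, Or.inr (Or.inl (by clear h4; omega))⟩ h4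

theorem exists_qt_odd (hi : 0 < i) (e : ℕ) : (∃ t, QT n m i (2 * i) s δ τ e t) ↔
    QT n m i (2 * i) s δ τ e (min e (m / i)) := by
  refine ⟨fun ⟨t, ht⟩ => ?_, fun h => ⟨_, h⟩⟩
  rcases eq_or_ne t (min e (m / i)) with rfl | h
  · exact ht
  rw [qt_iff_odd hi] at ht ⊢
  exact ⟨by omega, by omega, Or.inl (by omega)⟩

theorem exists_qt_even (hi : 0 < i) (hs : 0 < s) (e : ℕ) : (∃ t, QT n m i i s δ τ e t) ↔
    QT n m i i s δ τ e (min ((e + 1 - s) / 2) (m / i)) := by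
  refine ⟨fun ⟨t, ht⟩ => ?_, fun h => ⟨_, h⟩⟩
  rcases eq_or_ne t (min ((e + 1 - s) / 2) (m / i)) with rfl | h
  · exact ht
  have := Nat.mod_lt m hi
  rw [qt_iff_even hi] at ht ⊢
  exact ⟨by omega, by omega, by omega, Or.inl (by omega)⟩

theorem ts_even (hi : 0 < i) (hs : 0 < s) (hm : 2 * m < n)
    (h0 : ∃ e, Feas n i δ Even e ∧ ¬ QT n m i i s δ Even e 0) :
    (∀ e, 0 < e → Feas n i δ Even e → ∃ t, QT n m i i s δ Even e t) ↔
      0 < m / i ∧ s + 2 * (m / i) ≤ n / i ∧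
        ((2 * (m % i) ≤ i ∧ n % i = 0 ∧ ¬ (δ ↔ Even (n / i)) ∧ s + 2 * (m / i) < n / i) ∨
         (2 * (m % i) ≤ n % i ∧ (δ ↔ Even (n / i))) ∨ 2 * (m % i) < n % i) := by
  have h1 := Nat.mod_lt n hi
  have h2 := Nat.mod_lt m hi
  have h4 := lex_lt₂ (2 * (m / i)) (n / i) (by omega : 2 * (m % i) < 2 * i) h1
  rw [mul_assoc, ← mul_add] at h4
  simp only [Nat.div_add_mod', hm, true_iff] at h4
  refine ⟨fun h => ?_, fun h e h5 h6 => (exists_qt_even hi hs e).mpr ?_⟩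
  · have h3 : 0 < m / i := by
      obtain ⟨e, h5, h6⟩ := h0
      by_contra h7
      rcases Nat.eq_zero_or_pos e with rfl | h8
      · exact h6 ((qt_iff_even hi _ _).mpr ⟨le_rfl, Or.inl rfl, zero_le, Or.inl (by omega)⟩)
      · obtain ⟨t, ht⟩ := h e h8 h5
        obtain rfl : t = 0 := by have := ((qt_iff_even hi _ _).mp ht).2.2.1; omega
        exact h6 ht
    clear h0
    simp only [qt_iff_even hi, feas_iff hi, Nat.even_iff] at h ⊢
    generalize n / i = E, n % i = k, m / i = M, m % i = l at *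
    obtain ⟨t₁, h5⟩ := h (E - 1) (by omega) (Or.inl (by omega))
    have h6 : s + 2 * M ≤ E := by
      by_contra h6
      have h7 : s < E := by omega
      obtain ⟨t, h8⟩ := h s hs (Or.inl h7)
      omega
    obtain ⟨t₂, h7⟩ := h s hs (Or.inl (by omega))
    refine ⟨h3, h6, ?_⟩
    by_cases h8 : 0 < k ∨ (k = 0 ∧ (δ ↔ E % 2 = 0))
    · obtain ⟨t₃, h9⟩ := h E (by omega) (Or.inr ⟨rfl, h8⟩)
      clear h h5 h7
      by_cases hδ : δ <;> simp only [hδ, true_iff, false_iff] at * <;> omega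
    · clear h
      by_cases hδ : δ <;> simp only [hδ, true_iff, false_iff] at * <;> omega
  clear h0
  simp only [qt_iff_even hi, feas_iff hi, Nat.even_iff] at h h6 ⊢
  generalize n / i = E, n % i = k, m / i = M, m % i = l at *
  by_cases hδ : δ <;> simp only [hδ, true_iff, false_iff] at * <;> omega

theorem ts_odd (hi : 0 < i) (hm : 2 * m < n)
    (h0 : ∃ e, Feas n (2 * i) δ (fun _ => True) e ∧ ¬ QT n m i (2 * i) s δ (fun _ => True) e 0) :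
    (∀ e, 0 < e → Feas n (2 * i) δ (fun _ => True) e →
      ∃ t, QT n m i (2 * i) s δ (fun _ => True) e t) ↔
      0 < m / i ∧ (2 * (m % i) < n % (2 * i) ∨ (2 * (m % i) = n % (2 * i) ∧ δ) ∨
        (n % (2 * i) = 0 ∧ ¬ δ)) := by
  have hc : 0 < 2 * i := by omega
  have h1 := Nat.mod_lt n hc
  have h2 := Nat.mod_lt m hi
  have h4 := lex_lt (m / i) (n / (2 * i)) (by omega : 2 * (m % i) < 2 * i) h1
  rw [mul_left_comm, ← mul_add] at h4
  simp only [Nat.div_add_mod', hm, true_iff] at h4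
  simp only [exists_qt_odd hi]
  simp only [qt_iff_odd hi, feas_iff hc, iff_true] at h0 ⊢
  generalize n / (2 * i) = E, n % (2 * i) = k, m / i = M, m % i = l at *
  obtain ⟨e, h0⟩ := h0
  refine ⟨fun h => ?_, fun h e h5 h6 => ?_⟩
  · have h5 := h E
    have h6 := h e
    by_cases hδ : δ <;> 
      simp only [hδ, not_true, not_false_iff, and_true, and_false, or_false, true_and] at * <;> omega
  · clear h0
    by_cases hδ : δ <;> 
      simp only [hδ, not_true, not_false_iff, and_true, and_false, or_false, false_or] at * <;> omega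

end Arith

variable {F V : Type*} [Field F] [AddCommGroup V] [Module F V] {Q : QuadraticForm F V}
  {W : Submodule F V} {m n q r i c : ℕ} [FiniteDimensional F V] [Fintype F] {δ ε : Prop}

theorem negEx_arith (hn : finrank F V = n) (hδ : Hyp (qP Q) ⊤ ↔ δ) (hq : Fintype.card F = q) :
    NegEx Q ↔ n % 2 = 0 ∧ (δ ↔ q % 4 ≠ 3 ∨ n % 4 = 0) ∧ ((q % 8 ≠ 3 ∧ q % 8 ≠ 5) ∨ n % 4 = 0) := by
  rw [NegEx, hn, hδ, FiniteField.isSquare_neg_one_iff, FiniteField.isSquare_two_iff, hq]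
  refine ⟨fun ⟨e, h, h1⟩ => ⟨by omega, ?_⟩, fun h => ⟨n / 2, by omega, ?_⟩⟩
  · rwa [show n % 4 = 0 ↔ Even e by rw [Nat.even_iff]; omega]
  · rw [show Even (n / 2) ↔ n % 4 = 0 by rw [Nat.even_iff]; omega]; exact h.2

theorem exists_ty (hP : (qP Q).B.SeparatingLeft) (he : Even m) (h0 : 0 < m)
    (hm : m < finrank F V) (ε : Prop) : ∃ W, (qP Q).Nondeg W ∧ finrank F W = m ∧
      (Hyp (qP Q) W ↔ ε) ∧ ∀ U : Submodule F V, (finrank F U = m ∧ (qP Q).Nondeg U ∧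
        (Hyp (qP Q) U ↔ ε)) ↔ Cj (qP Q) W U := by
  obtain ⟨W, -, h1, h2, h3⟩ := exists_type hP (nondeg_top hP) he (by rwa [finrank_top]) ε (by omega)
  exact ⟨W, h1, h2, h3, fun U => ⟨fun ⟨h4, h5, h6⟩ => quad_cj hP h1 h5 (h2 ▸ he) (h2.trans h4.symm)
    (h3.trans h6.symm), fun h => ⟨h.finrank_eq ▸ h2, h.nondeg h1,
      Iff.trans ⟨fun h' => h'.cj h.symm, fun h' => h'.cj h⟩ h3⟩⟩⟩

variable (p : ℕ) [hp : Fact p.Prime] [CharP F p] [hr : Fact r.Prime]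

theorem odd_card (hp2 : p ≠ 2) (hq : Fintype.card F = q) : q % 2 = 1 :=
  hq ▸ FiniteField.odd_card_of_char_ne_two (by rwa [ringChar.eq F p])

theorem ne_two_of_odd_card (hq : Fintype.card F = q) (h : Odd q) : p ≠ 2 := by
  rintro rfl
  have := FiniteField.even_card_of_char_two (F := F) (ringChar.eq F 2)
  rw [Nat.odd_iff] at h; omega

theorem nd_el_two (hP : (qP Q).B.SeparatingLeft) (hp2 : p ≠ 2) (hq : Fintype.card F = q)
    (hW : (qP Q).Nondeg W) (hδ : Hyp (qP Q) ⊤ ↔ δ) (hε : Hyp (qP Q) W ↔ ε)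
    (hn : finrank F V = n) (hm : finrank F W = m) (h0 : 0 < n) (h : n = 2 * m → Even m ∧ ¬ δ) :
    El Q 2 (fun f => ∃ U, Cj (qP Q) W U ∧ Inv f U) ↔
      (n % 2 = 0 ∧ (δ ↔ q % 4 ≠ 3 ∨ n % 4 = 0) ∧ ((q % 8 ≠ 3 ∧ q % 8 ≠ 5) ∨ n % 4 = 0) →
        m % 2 = 0 ∧ (ε ↔ q % 4 ≠ 3 ∨ m % 4 = 0)) := by
  have : Nontrivial V := Module.nontrivial_of_finrank_pos (R := F) (by omega)
  rw [quad_nd_two hP (two_ne_zero_of_ne p hp2) hW (by rwa [hn, hm, hδ]), negEx_arith hn hδ hq, hm,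
    hε, FiniteField.isSquare_neg_one_iff, hq]
  refine imp_congr_right fun _ => ⟨fun ⟨e, h, h1⟩ => ⟨by omega, ?_⟩, fun h => ⟨m / 2, by omega, ?_⟩⟩
  · rwa [show m % 4 = 0 ↔ Even e by rw [Nat.even_iff]; omega]
  · rw [show Even (m / 2) ↔ m % 4 = 0 by rw [Nat.even_iff]; omega]; exact h.2

theorem nd_el_odd (hP : (qP Q).B.SeparatingLeft) (hG : H12.Good Q) (hrp : r ≠ p) (hr2 : r ≠ 2)
    (hq : Fintype.card F = q) (hi : i = orderOf (q : ZMod r))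
    (hc : c = if Even i then i else 2 * i) (hW : (qP Q).Nondeg W) (hδ : Hyp (qP Q) ⊤ ↔ δ)
    (hε : Hyp (qP Q) W ↔ ε) (hn : finrank F V = n) (hm : finrank F W = m) (h0 : 0 < m)
    (hmn : m < n) (he : Even m ∨ Even n) (hΩ : r ∣ Nat.card {U // Cj (qP Q) W U}) :
    0 < c ∧ Even c ∧ (∃ e, (e < n / c ∨ (e = n / c ∧ (0 < n % c ∨ (δ ↔ Odd i ∨ Even e)))) ∧
      (m / c < e ∨ (e = m / c ∧ m % c = 0 ∧ ¬ (ε ↔ Odd i ∨ Even e))) ∧ (n / c < m / c + e ∨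
        (m / c + e = n / c ∧ (n % c < m % c ∨
          (m % c = n % c ∧ ¬ (ε ↔ (δ ↔ Odd i ∨ Even e))))))) ∧
    (El Q r (fun f => ∃ U, Cj (qP Q) W U ∧ Inv f U) ↔
      (0 < n / c → (0 < n % c ∨ (δ ↔ Odd i ∨ Even (n / c))) →
        (m % c = 0 ∧ (ε ↔ Odd i ∨ Even (m / c))) ∨ (0 < m % c ∧ m % c < n % c) ∨
        (m % c = n % c ∧ (ε ↔ (Odd i ∨ Even (m / c) ↔ (δ ↔ Odd i ∨ Even (n / c)))))) ∧
      (1 < n / c → (m / c < n / c ∧ m % c = 0 ∧ (ε ↔ Odd i ∨ Even (m / c))) ∨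
        (0 < m % c ∨ (0 < m / c ∧ 0 < n % c)) ∨ (0 < m / c ∧ m % c = n % c ∧
          (ε ↔ (Odd i ∨ Even (m / c - 1) ↔ (δ ↔ Odd i ∨ Even (n / c - 1))))))) := by
  have : Nontrivial V := Module.nontrivial_of_finrank_pos (R := F) (by omega)
  have H := ss_id hP (Ord.of_ne hrp hq hi) hr2 hc
  rw [el_iff_of_odd hP hG (hr.1.odd_of_ne_two hr2) fun f ⟨U, h1, h2⟩ => ⟨U, h1, h2.of_neg⟩]
  obtain ⟨h1, h2⟩ := quad_nd_iff H hc hW (by rwa [hm, hn]) hΩ hδ hε hn hm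
  exact ⟨H.pos, even_c hc, nd_weak H.pos h0 hmn (Or.inr Even.zero) h1,
    h2.trans (nd_elim H.pos h0 hmn)⟩

theorem ts_el (hP : (qP Q).B.SeparatingLeft) (hG : H12.Good Q) (hq : Fintype.card F = q)
    (hi : i = orderOf (q : ZMod r)) (hc : c = if Even i then i else 2 * i)
    (hδ : Hyp (qP Q) ⊤ ↔ δ) (hn : finrank F V = n) (h3 : 3 ≤ n) (hm : 2 * m < n)
    (hΩ : r ∣ Nat.card {W : Submodule F V // finrank F W = m ∧ (qP Q).TotSing W}) :
    r ≠ p ∧ (r = 2 → q % 2 = 1 ∧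
      (El Q r (fun f => ∃ W : Submodule F V, finrank F W = m ∧ (qP Q).TotSing W ∧ Inv f W) ↔
        q % 4 ≠ 3 ∨ ((2 * m + 2 < n ∨ (2 * m + 2 = n ∧ ¬ δ)) ∧ (n % 2 = 0 ∧
          (δ ↔ q % 4 ≠ 3 ∨ n % 4 = 0) ∧ ((q % 8 ≠ 3 ∧ q % 8 ≠ 5) ∨ n % 4 = 0) → Even m)))) ∧
    (r ≠ 2 → 0 < i ∧
      (El Q r (fun f => ∃ W : Submodule F V, finrank F W = m ∧ (qP Q).TotSing W ∧ Inv f W) ↔
        i ≤ m ∧ ((Odd i ∧ (2 * (m % i) < n % c ∨ (2 * (m % i) = n % c ∧ δ) ∨ (n % c = 0 ∧ ¬ δ))) ∨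
        (Even i ∧ (r - 1) / i + 2 * (m / i) ≤ n / i ∧ ((2 * (m % i) ≤ i ∧ n % c = 0 ∧
          ¬ (δ ↔ Even (n / i)) ∧ (r - 1) / i + 2 * (m / i) < n / i) ∨
          (2 * (m % i) ≤ n % c ∧ (δ ↔ Even (n / i))) ∨ 2 * (m % i) < n % c))))) := by
  have : Nontrivial V := Module.nontrivial_of_finrank_pos (R := F) (by omega)
  have hrp : r ≠ p := by
    rintro rfl
    exact not_dvd_card_totSing r hP (by
      rw [qP_card]; exact Nat.pow_lt_pow_right Finite.one_lt_card (by omega)) hΩ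
  refine ⟨hrp, ?_, fun hr2 => ?_⟩
  · rintro rfl
    rw [quad_ts_two hP (two_ne_zero_of_ne p hrp.symm) (by omega) (by omega), negEx_arith hn hδ hq,
      hn, hδ, FiniteField.isSquare_neg_one_iff, hq]
    exact ⟨odd_card p hrp.symm hq, Iff.rfl⟩
  have H := ss_id hP (Ord.of_ne hrp hq hi) hr2 hc
  rw [el_iff_of_odd hP hG (hr.1.odd_of_ne_two hr2) fun f ⟨U, h1, h2, h3⟩ => ⟨U, h1, h2, h3.of_neg⟩]
  have h4 := H.ord.pos
  obtain ⟨h1, h2⟩ := quad_ts_iff H hc (hn ▸ hm) hΩ hδ hn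
  refine ⟨h4, h2.trans ?_⟩
  have h5 : 0 < m / i ↔ i ≤ m := by rw [Nat.div_pos_iff]; simp [h4]
  rcases Nat.even_or_odd i with h6 | h6
  · obtain rfl : c = i := by simpa [h6] using hc
    simp only [Nat.not_odd_iff_even.mpr h6, false_or, false_and, h6, true_and] at h1 ⊢
    rw [ts_even h4 (Nat.div_pos (Nat.le_of_dvd (by have := hr.1.two_le; omega) H.ord.dvd) h4) hm h1,
      h5]
  · obtain rfl : c = 2 * i := by simpa [Nat.not_even_iff_odd.mpr h6] using hc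
    simp only [Nat.not_even_iff_odd.mpr h6, true_or, false_and, h6, true_and, or_false] at h1 ⊢
    rw [ts_odd h4 hm h1, h5]

section Std

variable {F : Type*} [Field F] [Fintype F]

theorem hyp_plus (d : ℕ) : Hyp (qP (H12.QPlus F d)) ⊤ ↔ True := by
  obtain ⟨U, h1, h2⟩ := H66.isPlusType_qPlus (F := F) d
  exact iff_true_intro ⟨nondeg_top (H12.nondeg_QPlus d), U, le_top, quad_totSing.mpr fun u hu => by
    rw [H12.QPlus_apply, ← H66.qPlus_apply, h1 u hu], by rw [h2, finrank_top]⟩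

theorem hyp_minus (d : ℕ) {a b : F} (h : H12.Aniso a b) : Hyp (qP (H12.QMinus d a b)) ⊤ ↔ False :=
  iff_false_intro fun ⟨_, U, _, h1, h2⟩ => H66.not_isPlusType_qMinus d h ⟨U, fun u hu => by
    rw [H66.qMinus_apply, ← H12.QMinus_apply]; exact h1.1 u hu, by rw [h2, finrank_top]⟩

theorem hyp_odd (d : ℕ) : Hyp (qP (H12.QOdd F d)) ⊤ ↔ False :=
  iff_false_intro fun h => by
    have := h.even
    rw [finrank_top, H12.finrank_odd, Nat.even_iff] at this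
    omega

variable {ι : Type} [Fintype ι] [DecidableEq ι] (Q : QuadraticForm F (ι → F))

theorem el_mat_iff (r : ℕ) (Ω : Submodule F (ι → F) → Prop) :
    (∀ x : GL ι F, x ∈ Cfsg.Geo.omegaGL Q →
      (∃ z : F, ((x ^ r : GL ι F) : Matrix ι ι F) = z • (1 : Matrix ι ι F)) →
      (∀ z : F, (x : Matrix ι ι F) ≠ z • (1 : Matrix ι ι F)) →
      ∃ W, Ω W ∧ Inv (Matrix.toLin' (x : Matrix ι ι F)) W) ↔ El Q r fun f => ∃ W, Ω W ∧ Inv f W :=
  forall_om_iff Q (fun _ => rfl) r fun f => ∃ W, Ω W ∧ Inv f W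

theorem el_mat_iff' (hP : (qP Q).B.SeparatingLeft) (h2 : (2 : F) ≠ 0)
    (hn : Odd (finrank F (ι → F))) (r : ℕ) [Fact r.Prime] (Ω : Submodule F (ι → F) → Prop) :
    (∀ x : GL ι F, x ∈ Cfsg.Geo.omegaGL Q → orderOf x = r →
      ∃ W, Ω W ∧ Inv (Matrix.toLin' (x : Matrix ι ι F)) W) ↔ El Q r fun f => ∃ W, Ω W ∧ Inv f W :=
  (forall_om_iff' Q (fun _ => rfl) r fun f => ∃ W, Ω W ∧ Inv f W).trans (el_iff_odd_dim hP h2 hn)

theorem plus_class_iff {m : ℕ} {W : Submodule F (ι → F)} :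
    (finrank F W = m ∧ Cfsg.Geo.IsNondegenerateOn (polar Q) W ∧ Cfsg.Geo.IsPlusTypeOn Q W) ↔
      finrank F W = m ∧ (qP Q).Nondeg W ∧ (Hyp (qP Q) W ↔ True) := by
  rw [quad_nd_iff₂, iff_true]
  exact and_congr_right fun _ => and_congr_right fun h => plusOn_iff Q h

theorem plus_class_iff' {m : ℕ} {W : Submodule F (ι → F)} :
    (finrank F W = m ∧ (∀ u ∈ W, u ≠ 0 → ∃ v ∈ W, polar Q u v ≠ 0) ∧
      ∃ U : Submodule F (ι → F), U ≤ W ∧ 2 * finrank F U = m ∧ ∀ u ∈ U, Q u = 0) ↔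
      finrank F W = m ∧ (qP Q).Nondeg W ∧ (Hyp (qP Q) W ↔ True) := by
  rw [quad_nd_iff₁, iff_true]
  exact and_congr_right fun h => and_congr_right fun h' =>
    ⟨fun ⟨U, h1, h2, h3⟩ => ⟨h', U, h1, quad_totSing.mpr h3, h ▸ h2⟩,
      fun ⟨_, U, h1, h2, h3⟩ => ⟨U, h1, h ▸ h3, h2.1⟩⟩

theorem minus_class_iff {m : ℕ} {W : Submodule F (ι → F)} :
    (finrank F W = m ∧ Cfsg.Geo.IsNondegenerateOn (polar Q) W ∧ ¬ Cfsg.Geo.IsPlusTypeOn Q W) ↔
      finrank F W = m ∧ (qP Q).Nondeg W ∧ (Hyp (qP Q) W ↔ False) := by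
  rw [quad_nd_iff₂, iff_false]
  exact and_congr_right fun _ => and_congr_right fun h => not_congr (plusOn_iff Q h)

theorem isom_class_iff (hP : (qP Q).B.SeparatingLeft) {m : ℕ} {W₀ W : Submodule F (ι → F)}
    (h : finrank F W₀ = m ∧ Cfsg.Geo.IsNondegenerateOn (polar Q) W₀) :
    (finrank F W = m ∧ Cfsg.Geo.IsNondegenerateOn (polar Q) W ∧ Cfsg.Geo.AreIsometricFor Q W W₀) ↔
      Cj (qP Q) W₀ W := by
  rw [quad_nd_iff₂] at h ⊢
  exact ⟨fun h => ((cj_iff hP).mp h.2.2).symm, fun h' =>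
    ⟨h'.finrank_eq ▸ h.1, h'.nondeg h.2, (cj_iff hP).mpr h'.symm⟩⟩

end Std

end H99
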