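import Cfsg.Agent.Lib.Elusive.FldF
import Cfsg.Agent.Lib.Elusive.QuadP
import Cfsg.Agent.Lib.Elusive.QuadRow

/-!
Elements of prime order and quadratic field extension subgroups of orthogonal groups.
-/

set_option autoImplicit false
set_option linter.unusedSectionVars false

namespace H99

open Module Polynomial H28 QuadraticMap
open H65 (Similar)
open H21 (Ext)

section

variable {F V : Type*} [Field F] [AddCommGroup V] [Module F V] [FiniteDimensional F V] [Fintype F]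
  {Q : QuadraticForm F V} {f y : End F V} {A : Submodule F V}

theorem exists_om_conj (hP : (qP Q).B.SeparatingLeft) (h2 : (2 : F) ≠ 0) (hA : (qP Q).Nondeg A)
    (hA2 : 2 ≤ finrank F A) (Y : End F V → Prop)
    (hY : ∀ y, Y y → ∀ u ∈ A, Q u ≠ 0 → Y ((H12.refl Q u).1.symm.conj y)) {g : V ≃ₗ[F] V}
    (hg : Iso (qP Q) (g : End F V)) (h : Y (g.symm.conj f)) :
    ∃ g : V ≃ₗ[F] V, InOm Q g ∧ Y (g.symm.conj f) := by
  classical
  have hG := H12.good_of_two_ne_zero hP h2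
  have h1 : ∀ s, ∃ u ∈ A, Q u ≠ 0 ∧ H12.spin hP hG (H12.refl Q u) = s := fun s => by
    rcases Int.units_eq_one_or s with rfl | rfl
    · obtain ⟨v, h3, hv⟩ := quad_universal hA hA2 1
      exact ⟨v, h3, by simp [hv], H12.spin_refl_of_isSquare hP hG (by simp [hv]) (by simp [hv])⟩
    · obtain ⟨c, hc⟩ := FiniteField.exists_nonsquare (H12.ringChar_ne_two_iff.mpr h2)
      obtain ⟨v, h3, rfl⟩ := quad_universal hA hA2 c
      have h4 : Q v ≠ 0 := fun h => hc (by simp [h])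
      exact ⟨v, h3, h4, H12.spin_refl_of_not_isSquare hP hG h4 hc⟩
  have h3 : ∀ g : H12.O Q, H12.dk hP hG g = -1 → Y (g.1.symm.conj f) →
      ∃ g : V ≃ₗ[F] V, InOm Q g ∧ Y (g.symm.conj f) := fun g h3 h => by
    obtain ⟨u, h4, h5, h6⟩ := h1 (H12.spin hP hG g)
    exact ⟨_, ⟨g * H12.refl Q u, (H12.mem_Om_iff hP hG _).mpr
      ⟨by simp [h3, H12.dk_refl hP hG h5], by simp [h6]⟩, rfl⟩, hY _ h u h4 h5⟩
  obtain ⟨g, rfl⟩ : ∃ g' : H12.O Q, g'.1 = g := ⟨⟨g, quad_iso.mp hg⟩, rfl⟩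
  rcases Int.units_eq_one_or (H12.dk hP hG g) with h4 | h4
  · obtain ⟨u, h5, h6, -⟩ := h1 1
    exact h3 (g * H12.refl Q u) (by simp [h4, H12.dk_refl hP hG h6]) (hY _ h u h5 h6)
  · exact h3 _ h4 h

theorem exists_conj_neg (hP : (qP Q).B.SeparatingLeft) (h2 : (2 : F) ≠ 0) (hf : Iso (qP Q) f)
    (hy : Iso (qP Q) y) (h : ∀ v, f (f v) = -v) (h' : ∀ v, y (y v) = -v) :
    ∃ g : V ≃ₗ[F] V, Iso (qP Q) g ∧ g.symm.conj f = y := by
  have h3 : ∀ {f : End F V}, (∀ v, f (f v) = -v) → f ^ 2 = (-1 : F) • 1 := fun h =>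
    LinearMap.ext fun v => by simp [pow_two, h]
  obtain ⟨e, he⟩ := similar_of_sq_neg hP h2 hy hf (h3 h') (h3 h)
  have h4 : ∀ {f : End F V}, Iso (qP Q) f → (∀ v, f (f v) = -v) → ∀ e : V ≃ₗ[F] V,
      LinearMap.BilinForm.Nondegenerate ((qP Q).B.compl₁₂ e (f ∘ₗ e)) := fun {f} hf h e =>
    ⟨fun x hx => e.map_eq_zero_iff.mp (hP _ fun z => by simpa [h] using hx (e.symm (f z))),
      fun x hx => e.map_eq_zero_iff.mp (hf.injective hP ((hP _ fun z => (qP_symm _ _).trans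
        (by simpa using hx (e.symm z))).trans (map_zero f).symm))⟩
  obtain ⟨c, h5, h6, h7⟩ := H66.exists_commute_equiv_alt _ _ (h4 hf h e) (h4 hy h' (.refl F V))
    (fun u => B_self_neg h2 hf (h _)) (fun u => B_self_neg h2 hy (h' _)) y (2 * 2)
    (by rw [Nat.cast_mul, Nat.cast_ofNat]; positivity) (by rw [pow_mul, h3 h']; simp) (fun u v => by simp [he, hf.B])
    fun u v => by simp [hy.B]
  have h8 : ∀ v, c (y v) = y (c v) := fun v => (LinearMap.congr_fun h6 v).symm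
  refine ⟨(LinearEquiv.ofBijective c ((Module.End.isUnit_iff c).mp h5)).trans e,
    iso_of_sim_quad h2 _ fun u v => ?_, LinearMap.ext fun v => ?_⟩
  · simpa [← he, ← h8, h'] using h7 u (y v)
  · simp [LinearEquiv.symm_apply_eq, he, h8]

theorem movS_symm_conj {g : V ≃ₗ[F] V} (h : A.map (g : End F V) = movS 2 f) :
    movS 2 (g.symm.conj f) = A := Submodule.ext fun v => by
  rw [← Submodule.comap_map_eq_of_injective g.injective A]
  erw [h]
  simp [mem_movS_two, LinearEquiv.symm_apply_eq]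

theorem invol_eq {σ : F →+* F} {P : PQ F V σ} (hP : P.B.SeparatingLeft) (h2 : (2 : F) ≠ 0)
    (hf : Iso P f) (hy : Iso P y) (h : f ^ 2 = 1) (h' : y ^ 2 = 1) (h1 : movS 2 f = movS 2 y) :
    f = y := by
  have h0 : ((2 : ℕ) : F) ≠ 0 := by simpa using h2
  exact ext_perp (nondeg_movS hP h0 hf h) (fun v hv => (mem_movS_two.mp hv).trans
    (mem_movS_two.mp (h1 ▸ hv)).symm) fun v hv => (supp_movS hP h0 hf h v hv).trans
      (supp_movS hP h0 hy h' v (h1 ▸ hv)).symm

theorem symm_conj_pow (g : V ≃ₗ[F] V) {r : ℕ} (h : f ^ r = 1) : g.symm.conj f ^ r = 1 :=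
  pow_eq_one_of_similar (similar_symm_conj g f) h

theorem refl_conj_neg (hP : (qP Q).B.SeparatingLeft) (h2 : (2 : F) ≠ 0) (hA : (qP Q).Nondeg A)
    (hA2 : finrank F A = 2) (hy : Iso (qP Q) y) (h : ∀ v, y (y v) = -v) (hyA : Inv y A) {u : V}
    (hu : u ∈ A) (h0 : Q u ≠ 0) (h1 : ∀ v ∈ A, f v = -v) (h3 : Supp (qP Q) f A) :
    (H12.refl Q u).1.symm.conj y = y * f := by
  have h4 := B_self_neg h2 hy (h u)
  have h5 : (H12.refl Q u).1.symm = (H12.refl Q u).1 := congrArg Subtype.val (H12.refl_inv u)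
  have h6 : ∀ v ∈ (qP Q).perp A, (H12.refl Q u).1 v = v := fun v hv =>
    H12.refl_apply_of_orth ((qP_symm _ _).trans (hv u hu))
  have h7 : (H12.refl Q u).1 (y u) = y u := H12.refl_apply_of_orth ((qP_symm _ _).trans h4)
  refine ext_perp hA (fun v hv => ?_) fun v hv => by
    simp [h5, h6 v hv, h3 v hv, h6 _ (hy.inv_perp hP hyA v hv)]
  obtain ⟨a, b, rfl⟩ := mem_span_pair'.mp ((Submodule.eq_of_le_of_finrank_eq
    (sup_le ((Submodule.span_singleton_le_iff_mem _ _).mpr hu)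
      ((Submodule.span_singleton_le_iff_mem _ _).mpr (hyA u hu)))
    ((finrank_pair (gram_orth h2 h0 (quad_iso.mp hy u ▸ h0) h4)).trans hA2.symm)).ge hv)
  simp [h5, h7, h, H12.refl_apply_self h0, h1 u hu, h1 _ (hyA u hu)]

open Classical in
theorem card_O_even (hP : (qP Q).B.SeparatingLeft) {m : ℕ} (hm : finrank F V = 2 * (m + 1)) :
    Nat.card (H12.O Q) = 2 * Fintype.card F ^ ((m + 1) * m) * (if Hyp (qP Q) ⊤ then
      Fintype.card F ^ (m + 1) - 1 else Fintype.card F ^ (m + 1) + 1) *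
        ∏ i ∈ Finset.range m, (Fintype.card F ^ (2 * (i + 1)) - 1) := by
  split_ifs with h
  exacts [card_O_plus hP hm h, card_O_minus hP hm h]

end

variable {F E V : Type*} [Field F] [Field E] [Algebra F E] [AddCommGroup V] [Module F V]
  [Module E V] [IsScalarTower F E V] {T : E →ₗ[F] F} {W U : Submodule E V}

theorem nondeg_rs {σ : E →+* E} {P : PQ F V (RingHom.id F)} {Pk : PQ E V σ} (X : Ext P Pk T)
    (h : Pk.Nondeg W) : P.Nondeg (W.restrictScalars F) := fun x hx h1 =>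
  h x hx fun y hy => X.BK_zero fun k => h1 _ (W.smul_mem k hy)

theorem le_perp_rs {σ : E →+* E} {P : PQ F V (RingHom.id F)} {Pk : PQ E V σ} (X : Ext P Pk T)
    (h : U ≤ Pk.perp W) : U.restrictScalars F ≤ P.perp (W.restrictScalars F) :=
  fun _ hx y hy => X.B_zero (h hx y hy)

theorem FB.mul_rs {y : End F V} (h : FB E y) (g : End E V) : FB E (y * rs F g) :=
  h.imp fun τ h a v => by simp [rs_apply, h]

variable [FiniteDimensional F V] [Fintype F] [Fintype E] {Q : QuadraticForm F V}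
  {Qk : QuadraticForm E V} {δ : E}

theorem line_hyp_iff (X : Ext (qP Q) (qP Qk) T) (hQ : ∀ v, Q v = T (Qk v)) (h2 : (2 : E) ≠ 0)
    (hE : finrank F E = 2) (hδ0 : δ ≠ 0) (hδ : T δ = 0) {v : V} (hv : Qk v ≠ 0) :
    Hyp (qP Q) ((E ∙ v).restrictScalars F) ↔ IsSquare (δ * Qk v) := by
  have h0 := H12.ne_zero_of_Q_ne hv
  have h1 : finrank F ((E ∙ v).restrictScalars F) = 2 := by
    rw [finrank_restrictScalars, finrank_span_singleton h0, hE]
  refine ⟨fun h => by_contra fun h3 => not_hyp_of_aniso (ne_bot_of_finrank (by omega))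
    (fun w hw h4 => ?_) h, fun ⟨s, hs⟩ => ?_⟩
  · obtain ⟨x, rfl⟩ := Submodule.mem_span_singleton.mp hw
    rcases eq_or_ne x 0 with rfl | hx
    · simp
    rw [hQ, H12.Q_smul] at h4
    obtain ⟨t, ht⟩ := H21.exists_smul_of_T hE X.nd hδ0 hδ h4
    obtain ⟨s, hs⟩ := isSquare_algebraMap (F := E) (by
      rw [← Nat.card_eq_fintype_card, card_ext (F := F), hE]) t
    exact absurd ⟨s * δ / x, by field_simp; rw [pow_two s, ← hs]; linear_combination ht⟩ h3
  · have h3 : s ≠ 0 := by rintro rfl; exact mul_ne_zero hδ0 hv (by simpa using hs)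
    refine hyp_of_sing (nondeg_rs X (nondeg_line h2 hv)) h1 (v := (δ / s) • v)
      (Submodule.smul_mem _ _ (Submodule.mem_span_singleton_self v))
      (smul_ne_zero (div_ne_zero hδ0 h3) h0) ?_
    rw [hQ, H12.Q_smul, ← hδ]; congr 1; field_simp; linear_combination hs

theorem hyp_sup_rs (X : Ext (qP Q) (qP Qk) T) (hE : finrank F E = 2) (hW : (qP Qk).Nondeg W)
    (hU : (qP Qk).Nondeg U) (h : U ≤ (qP Qk).perp W) : Hyp (qP Q) ((W ⊔ U).restrictScalars F) ↔
      (Hyp (qP Q) (W.restrictScalars F) ↔ Hyp (qP Q) (U.restrictScalars F)) := by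
  rw [Submodule.restrictScalars_sup, quad_hyp_sup X.sep (nondeg_rs X hW) (nondeg_rs X hU)
    (by simp [finrank_restrictScalars, hE]) (by simp [finrank_restrictScalars, hE]) (le_perp_rs X h)]

theorem top_hyp_iff (X : Ext (qP Q) (qP Qk) T) (hQ : ∀ v, Q v = T (Qk v)) (h2 : (2 : E) ≠ 0)
    (hE : finrank F E = 2) (hδ0 : δ ≠ 0) (hδ : T δ = 0) {ι : Type*} [Fintype ι] (b : Basis ι E V)
    (h : ∀ i j, i ≠ j → polar Qk (b i) (b j) = 0) (h0 : ∀ i, Qk (b i) ≠ 0) :
    Hyp (qP Q) ⊤ ↔ IsSquare (∏ i, (δ * Qk (b i))) := by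
  classical
  have key : ∀ S : Finset ι, (qP Qk).Nondeg (Submodule.span E (b '' S)) ∧
      (Hyp (qP Q) ((Submodule.span E (b '' S)).restrictScalars F) ↔
        IsSquare (∏ i ∈ S, (δ * Qk (b i)))) := fun S => by
    induction S using Finset.induction_on with
    | empty => simpa using ⟨nondeg_bot, Hyp.bot⟩
    | insert i S hi ih =>
      have h1 : Submodule.span E (b '' S) ≤ (qP Qk).perp (E ∙ b i) := Submodule.span_le.mpr (by
        rintro _ ⟨j, hj, rfl⟩
        exact mem_perp_singleton.mpr (h i j (by rintro rfl; exact hi hj)))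
      rw [Finset.coe_insert, Set.image_insert_eq, Submodule.span_insert, Finset.prod_insert hi,
        hyp_sup_rs X hE (nondeg_line h2 (h0 i)) ih.1 h1, ih.2, line_hyp_iff X hQ h2 hE hδ0 hδ (h0 i),
        isSquare_mul_iff (mul_ne_zero hδ0 (h0 i))
          (Finset.prod_ne_zero_iff.mpr fun j _ => mul_ne_zero hδ0 (h0 j))]
      exact ⟨nondeg_sup (nondeg_line h2 (h0 i)) ih.1 h1, Iff.rfl⟩
  simpa using (key Finset.univ).2

theorem hyp_rs_iff (X : Ext (qP Q) (qP Qk) T) (hQ : ∀ v, Q v = T (Qk v)) (h2 : (2 : E) ≠ 0)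
    (hE : finrank F E = 2) (hδ0 : δ ≠ 0) (hδ : T δ = 0) (hW : (qP Qk).Nondeg W) {e : ℕ}
    (he : finrank E W = e * 2) : Hyp (qP Q) (W.restrictScalars F) ↔ Hyp (qP Qk) W := by
  have := Module.Finite.right F E V
  refine (orth_planes h2 hW he).induction
    (C := fun _ W => Hyp (qP Q) (W.restrictScalars F) ↔ Hyp (qP Qk) W) (by simp [Hyp.bot]) ?_
  rintro e W _ h ⟨u, w, hu, hw, h1, rfl⟩ h3 h4 ih
  have h5 : ∀ {u w}, Qk u ≠ 0 → Qk w ≠ 0 → (qP Qk).B u w = 0 →
    finrank E ↥((E ∙ u) ⊔ (E ∙ w)) = 2 := fun hu hw h => finrank_pair (gram_orth h2 hu hw h)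
  obtain ⟨s, hs⟩ := isSquare_algebraMap (F := E) (by
    rw [← Nat.card_eq_fintype_card, card_ext (F := F), hE]) (-1 : F)
  rw [hyp_sup_rs X hE h.nondeg h3 h4, ih, quad_hyp_sup X.sepK h.nondeg h3 (by
      rw [h.finrank_eq (d := 2) (by rintro _ ⟨u, w, hu, hw, h, rfl⟩; exact h5 hu hw h)]; simp)
      (by rw [h5 hu hw h1]; simp) h4, hyp_pair_iff h2 hu hw h1, hyp_sup_rs X hE (nondeg_line h2 hu)
      (nondeg_line h2 hw) ((Submodule.span_singleton_le_iff_mem _ _).mpr (mem_perp_singleton.mpr h1)),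
    line_hyp_iff X hQ h2 hE hδ0 hδ hu, line_hyp_iff X hQ h2 hE hδ0 hδ hw,
    ← isSquare_mul_iff (mul_ne_zero hδ0 hu) (mul_ne_zero hδ0 hw)]
  refine iff_congr Iff.rfl ⟨fun ⟨t, ht⟩ => ⟨s * t / δ, ?_⟩, fun ⟨t, ht⟩ => ⟨s * t * δ, ?_⟩⟩ <;>
    simp only [map_neg, map_one] at hs
  · field_simp; linear_combination -ht + t ^ 2 * hs
  · linear_combination -δ ^ 2 * ht + (t * δ) ^ 2 * hs

theorem exists_type_rs (X : Ext (qP Q) (qP Qk) T) (hQ : ∀ v, Q v = T (Qk v)) (h2 : (2 : E) ≠ 0)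
    (hE : finrank F E = 2) (hδ0 : δ ≠ 0) (hδ : T δ = 0) {e : ℕ} (he : e + 2 ≤ finrank E V)
    (ε : Prop) : ∃ W, (qP Qk).Nondeg W ∧ finrank E W = e + 1 ∧
      (Hyp (qP Q) (W.restrictScalars F) ↔ ε) := by
  have := Module.Finite.right F E V
  obtain ⟨W, -, h3, h4⟩ := quad_exists_nondeg X.sepK h2 (nondeg_top X.sepK) (k := e)
    (by rw [finrank_top]; omega)
  obtain ⟨t, h5, h6⟩ : ∃ t : E, t ≠ 0 ∧ ((Hyp (qP Q) (W.restrictScalars F) ↔ IsSquare t) ↔ ε) := by
    obtain ⟨c, hc⟩ := FiniteField.exists_nonsquare (H12.ringChar_ne_two_iff.mpr h2)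
    by_cases h : Hyp (qP Q) (W.restrictScalars F) ↔ ε
    · exact ⟨1, one_ne_zero, by simpa using h⟩
    · exact ⟨c, by rintro rfl; simp at hc, by simp only [hc]; tauto⟩
  obtain ⟨v, h7, h8⟩ := quad_universal (h3.perp X.sepK)
    (by have := (qP Qk).finrank_perp_add X.sepK W; omega) (δ⁻¹ * t)
  have h9 : Qk v ≠ 0 := h8 ▸ mul_ne_zero (inv_ne_zero hδ0) h5
  have h10 := (Submodule.span_singleton_le_iff_mem _ _).mpr h7
  refine ⟨_, nondeg_sup h3 (nondeg_line h2 h9) h10, ?_, ?_⟩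
  · rw [finrank_sup_orth h3 h10, h4, finrank_span_singleton (H12.ne_zero_of_Q_ne h9)]
  · rwa [hyp_sup_rs X hE h3 (nondeg_line h2 h9) h10, line_hyp_iff X hQ h2 hE hδ0 hδ h9, h8,
      mul_inv_cancel_left₀ hδ0]

theorem quad_fb_two (X : Ext (qP Q) (qP Qk) (Algebra.trace F E))
    (hQ : ∀ v, Q v = Algebra.trace F E (Qk v)) (h2 : (2 : F) ≠ 0) (hE : finrank F E = 2)
    (hδ0 : δ ≠ 0) (hδ : Algebra.trace F E δ = 0) [Nontrivial V] : ElA (InOm Q) (FB E) 2 := by
  have := Module.Finite.right F E V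
  have hP := X.sep
  have h0 : ((2 : ℕ) : F) ≠ 0 := by simpa using h2
  have h2' : (2 : E) ≠ 0 := by simpa using cast_ne_zero_ext (E := E) h0
  have hn := finrank_mul_finrank F E V
  have key : ∀ W, (qP Qk).Nondeg W → ∃ n : End E V, Iso (qP Q) (rs F n) ∧ rs F n ^ 2 = 1 ∧
      movS 2 (rs F n) = W.restrictScalars F := fun W hW => by
    obtain ⟨n, h3, h4, h5, -⟩ := exists_neg_dim X.sepK h2' hW
    exact ⟨n, iso_of_sim_quad h2 _ (by simpa [Sim] using ext_rs X h3.B), by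
      rw [← map_pow, h4, map_one], by rw [movS_rs, h5]⟩
  refine (el_two_iff hP h2).mpr ⟨fun f hf h h3 h4 => ?_, fun f hf h => ?_⟩
  · obtain ⟨e, h5, -⟩ := (inOm_invol hP h2 hf.iso h).mp hf
    have h6 := finrank_fixS_add h0 h
    have h7 : finrank F (movS 2 f) ≠ 0 := fun h7 => h3 (fixS_eq_top_iff.mp
      (Submodule.eq_top_of_finrank_eq (by omega)))
    have h8 : finrank F (fixS f) ≠ 0 := fun h7 => h4 (neg_eq_iff_eq_neg.mp (fixS_eq_top_iff.mp
      (fixS_neg.trans (Submodule.eq_top_of_finrank_eq (by omega)))))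
    obtain ⟨W, h9, h10, h11⟩ := exists_type_rs X hQ h2' hE hδ0 hδ (e := e - 1)
      (by rw [hE] at hn; omega) (Hyp (qP Q) (movS 2 f))
    have h12 : finrank F (W.restrictScalars F) = 2 * e := by
      rw [finrank_restrictScalars, hE, h10]; omega
    obtain ⟨g, h13, h14⟩ := quad_cj hP (nondeg_rs X h9) (nondeg_movS hP h0 hf.iso h)
      (h12 ▸ even_two_mul e) (h12.trans h5.symm) h11
    obtain ⟨g, h15, h16, h17, h18⟩ := exists_om_conj (f := f) hP h2 (nondeg_rs X h9) (by omega)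
      (fun y => Iso (qP Q) y ∧ y ^ 2 = 1 ∧ movS 2 y = W.restrictScalars F)
      (fun y ⟨h1, h3, h4⟩ u hu _ => ⟨Iso.symm_conj (quad_iso.mpr (H12.refl Q u).2) h1,
        symm_conj_pow _ h3, movS_symm_conj ((Submodule.eq_of_le_of_finrank_eq
          (Submodule.map_le_iff_le_comap.mpr fun v hv => by
            simpa [H12.refl_apply] using sub_mem hv (Submodule.smul_mem _ _ hu))
          (LinearEquiv.finrank_map_eq _ _)).trans h4.symm)⟩) (Iso.of_mem h13)
      ⟨(Iso.of_mem h13).symm_conj hf.iso, symm_conj_pow _ h, movS_symm_conj h14⟩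
    obtain ⟨n, h19, h20, h21⟩ := key W h9
    exact ⟨g, h15, invol_eq hP h2 h16 h19 h17 h20 (h18.trans h21.symm) ▸ fb_rs n⟩
  obtain ⟨e, h3, h4, -⟩ := neg_type hP h2 hf.iso h (nondeg_top hP) Inv.top
  obtain ⟨k, hk⟩ : Odd (Fintype.card F) := Nat.odd_iff.mpr
    (FiniteField.odd_card_of_char_ne_two (H12.ringChar_ne_two_iff.mpr h2))
  have hc := H12.ringChar_ne_two_iff.mpr h2'
  have hq : Fintype.card E = (2 * k + 1) ^ 2 := by
    rw [← Nat.card_eq_fintype_card, card_ext (F := F), hE, hk]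
  have hq2 : Fintype.card E / 2 = 2 * k * (k + 1) := by rw [hq]; ring_nf; omega
  obtain ⟨ν, hν⟩ := FiniteField.exists_nonsquare hc
  have hν0 : ν ≠ 0 := by rintro rfl; simp at hν
  have h5 : ν ^ (2 * k * (k + 1)) = -1 := hq2 ▸ (FiniteField.pow_dichotomy hc hν0).resolve_left
    (mt (FiniteField.isSquare_iff hc hν0).mpr hν)
  have h6 : IsSquare δ ↔ ¬ IsSquare (-1 : F) := by
    have h6 := FiniteField.algebraMap_trace_eq_sum_pow F E δ
    rw [hδ, hE, Nat.card_eq_fintype_card, hk] at h6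
    have h7 : δ ^ (2 * k) = -1 := mul_right_cancel₀ hδ0 (by
      simp [Finset.sum_range_succ, pow_succ] at h6; linear_combination -h6)
    rw [FiniteField.isSquare_iff hc hδ0, hq2, pow_mul, h7, FiniteField.isSquare_neg_one_iff, hk,
      neg_one_pow_eq_one_iff_even (fun h => h2' (by linear_combination -h)), Nat.even_iff]
    omega
  obtain ⟨m, hm⟩ : ∃ m, finrank E V = m + 1 := ⟨_, (Nat.succ_pred finrank_pos.ne').symm⟩
  obtain ⟨b, h7, h8, h9⟩ := exists_basis_one_or_nonsquare h2' ((2 * ν)⁻¹ • polarBilin Qk)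
    (fun x y => by simp [polar_comm]) (fun x hx => X.sepK x fun y => by
      simpa [h2', hν0, qP_B] using hx y) hm ν hν
  simp only [LinearMap.smul_apply, polarBilin_apply_apply, polar_self, smul_eq_mul, nsmul_eq_mul,
    inv_mul_eq_one₀ (mul_ne_zero h2' hν0), mul_eq_zero, inv_eq_zero, h2', hν0,
    Nat.cast_ofNat, mul_right_inj' h2', inv_mul_eq_iff_eq_mul₀ (mul_ne_zero h2' hν0),
    mul_assoc, mul_zero] at h7 h8 h9
  have h10 : ∀ i, Qk (b i) = ν := fun i => by
    rcases eq_or_ne i (Fin.last m) with rfl | hi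
    swap
    · exact (h8 i hi).symm
    refine (h9.resolve_right fun h9 => ?_).symm
    rw [top_hyp_iff X hQ h2' hE hδ0 hδ b h7 (fun i => by
      rcases eq_or_ne i (Fin.last m) with rfl | hi
      exacts [h9 ▸ mul_ne_zero hν0 hν0, h8 i hi ▸ hν0]), Fin.prod_univ_castSucc,
      Finset.prod_congr rfl fun i _ => by rw [← h8 _ (Fin.castSucc_ne_last i)], h9, ← mul_assoc,
      Finset.prod_const, ← mul_assoc, mul_assoc _ δ, ← pow_succ,
      isSquare_mul_iff (by positivity) hν0, isSquare_pow_iff (by positivity),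
      isSquare_mul_iff hδ0 hν0, h6] at h4
    obtain rfl : e = m + 1 := by rw [hE, hm] at hn; rw [finrank_top] at h3; omega
    simp only [hν, iff_false, not_not, Finset.card_univ, Fintype.card_fin] at h4
    exact not_iff_self h4
  let τ := FiniteField.frobeniusAlgEquivOfAlgebraic F E
  have h11 : ∀ a, τ a = a ^ (2 * k + 1) := fun a => hk ▸ rfl
  have h12 : Iso (qP Q) (semi b τ fun _ => ν ^ k) := iso_of_sim_quad h2 _ fun u v => by
    rw [X.B, X.B, semi_B b (fun _ => rfl) (μ := 1), one_mul, one_mul,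
      Algebra.trace_eq_of_algEquiv]
    intro i j
    rcases eq_or_ne i j with rfl | hij
    · simp only [qP_self, h10, map_mul, h11 ν, map_ofNat, RingHom.id_apply]; ring
    · simp [qP_B, h7 i j hij]
  have h13 : ∀ v, semi b τ (fun _ => ν ^ k) (semi b τ (fun _ => ν ^ k) v) = -v := fun v => by
    simpa [pow_two] using LinearMap.congr_fun (semi_sq b (τ := τ) (c := fun _ => ν ^ k) (z := -1)
      (fun a => by rw [h11, h11, ← pow_mul, ← pow_two, ← hq, FiniteField.pow_card]) fun _ => by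
      rw [h11, map_neg, map_one, ← h5]; ring) v
  obtain ⟨g, h14, h15⟩ := exists_conj_neg hP h2 hf.iso h12 h h13
  have h16 := nondeg_line h2' (h10 0 ▸ hν0)
  have h17 : finrank F ((E ∙ b 0).restrictScalars F) = 2 := by
    rw [finrank_restrictScalars, finrank_span_singleton (b.ne_zero 0), hE]
  obtain ⟨n, h18, h19, h20⟩ := key _ h16
  obtain ⟨g, h21, -, -, -, h22⟩ := exists_om_conj (f := f) hP h2 (nondeg_rs X h16) h17.ge
    (fun y => Iso (qP Q) y ∧ (∀ v, y (y v) = -v) ∧ Inv y ((E ∙ b 0).restrictScalars F) ∧ FB E y)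
    (fun y ⟨h1, h3, h4, h5⟩ u hu hu0 => by
      have h6 := fun v hv => mem_movS_two.mp (h20.ge (hv : v ∈ (E ∙ b 0).restrictScalars F))
      refine ⟨Iso.symm_conj (quad_iso.mpr (H12.refl Q u).2) h1, fun v => by simp [h3], ?_⟩
      rw [refl_conj_neg hP h2 (nondeg_rs X h16) h17 h1 h3 h4 hu hu0 h6
        (h20 ▸ supp_movS hP h0 h18 h19)]
      exact ⟨fun v hv => by simpa [h6 v hv] using h4 v hv, h5.mul_rs n⟩) h14
    (h15 ▸ ⟨h12, h13, fun v hv => by
      obtain ⟨a, rfl⟩ := Submodule.mem_span_singleton.mp hv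
      rw [semi_smul, semi_basis, smul_smul]
      exact Submodule.smul_mem (E ∙ b 0) _ (Submodule.mem_span_singleton_self _), fb_semi _ _ _⟩)
  exact ⟨g, h21, h22⟩

theorem quad_fb_elA_iff {r : ℕ} [hr : Fact r.Prime] (hP : (qP Q).B.SeparatingLeft)
    (h2 : (2 : F) ≠ 0) {d : ℕ} (hE : finrank F E = 2) (hV : finrank F V = 2 * d) (hd : 3 ≤ d)
    (h1 : ∀ (a : E) x y, polar Q (a • x) y = polar Q x (a • y))
    (hi : ∀ L : Subgroup (V ≃ₗ[E] V), (∀ g ∈ L, H21.res g ∈ H12.O Q) →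
      r * Nat.card L ∣ Nat.card (H12.O Q)) : ElA (InOm Q) (FB E) r ↔ r = 2 := by
  have := Module.Finite.right F E V
  have : Nontrivial V := nontrivial_of_finrank_pos (R := F) (by omega)
  have hG := H12.good_of_two_ne_zero hP h2
  have h2' : (2 : E) ≠ 0 := by simpa using cast_ne_zero_ext (F := F) (r := 2) (by simpa using h2)
  obtain ⟨β, hβ⟩ := H21.exists_form (τ := RingHom.id E) (Algebra.trace F E) H21.nd_trace (qP Q).B h1
  have hb : ∀ x y, β y x = β x y := fun x y => (H21.form_symm H21.nd_trace (fun _ => rfl)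
    (fun _ => rfl) hβ x y).trans ((congrArg (· * _) (map_one _)).trans (one_mul _))
  have X : Ext (qP Q) (qP ((2 : E)⁻¹ • LinearMap.BilinMap.toQuadraticMap β)) (Algebra.trace F E) :=
    ⟨H21.nd_trace, fun x y => (hβ x y).trans (congrArg _ (by
      simp [qP_B, polar, hb x y]; field_simp; ring)), hP⟩
  generalize (2 : E)⁻¹ • LinearMap.BilinMap.toQuadraticMap β = Qk at X
  have hQ : ∀ v, Q v = Algebra.trace F E (Qk v) := fun v => mul_left_cancel₀ h2 (by
    rw [← qP_self, X.B, qP_self, two_mul, two_mul, map_add])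
  obtain ⟨δ, hδ, hδ0⟩ := (Submodule.ne_bot_iff _).mp (LinearMap.ker_ne_bot_of_finrank_lt
    (f := Algebra.trace F E) (by simp [hE]))
  have hm : finrank E V = d := by have := finrank_mul_finrank F E V; rw [hE] at this; omega
  refine ⟨fun h => by_contra fun hr2 => ?_, by rintro rfl; exact quad_fb_two X hQ h2 hE hδ0 hδ⟩
  have ho := hr.out.odd_of_ne_two hr2
  by_cases h0 : (r : F) = 0
  · have : CharP F r := (CharP.charP_iff_prime_eq_zero hr.out).mpr h0
    have h3 := hr.out.two_le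
    obtain ⟨f, h4, h5, h6, ⟨-, h7⟩, -⟩ := exists_unip_top r hP (fun _ _ => quad_hasTS hP)
      (quad_H2 hP h2) (adm_sml (2 * d - 3) 0 1) (fun a ha => by rw [mem_sml] at ha; omega)
      (by rw [sum_sml]; omega) (fun h => absurd (h 3 (by simp [mem_sml])) (by decide))
      ⟨3, by simp [mem_sml], by omega⟩
    refine not_elA (fun _ => InOm.iso) (inOm_of_odd hP hG ho h4 h5) h5
      (ne_smul_of_odd hP ho h4 h5 h6) (fun y _ h8 h9 => ?_) h
    have h10 := fun k => (h8.sub_one.pow k).finrank_ker.symm.trans (top_inf_eq (α := Submodule F V) _ ▸ h7 k)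
    obtain ⟨g, rfl⟩ := h9.exists_rs_of_fix (by
      have := h10 1
      rw [pow_one, ← show fixS y = LinearMap.ker (y - 1) by simp [fixS]] at this
      simp [sml] at this; omega)
    have h11 := h10 2
    rw [← map_one (rs F : End E V →+* _), ← map_sub, ← map_pow, finrank_ker_rs, hE] at h11
    simp [sml] at h11; omega
  have H : Ord F r _ := ⟨h0, rfl⟩
  have H' : Ord E r _ := ⟨cast_ne_zero_ext h0, rfl⟩
  have hq : Fintype.card E = Fintype.card F ^ 2 := by
    rw [← Nat.card_eq_fintype_card, card_ext (F := F), hE]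
  have h3 := orderOf_pow' (Fintype.card F : ZMod r) two_ne_zero
  rw [← Nat.cast_pow, ← hq] at h3
  generalize orderOf (Fintype.card F : ZMod r) = i at H h3
  generalize orderOf (Fintype.card E : ZMod r) = i' at H' h3
  have h6 := hi (H12.O Qk) fun g hg v => by rw [hQ, hQ, H21.res_apply, hg]
  have := finite_equiv F V
  obtain ⟨g, h7, h8, h9⟩ := exists_orderOf_of_dvd _ ((dvd_mul_right _ _).trans h6)
  obtain ⟨f, h7, h8, h9, h10⟩ := (ss_id hP H hr2 rfl).exists_one (f := g) (quad_iso.mpr fun v => h7 v)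
    (coe_pow_eq_one h8) (coe_ne_one h9)
  have h5 : ¬ 4 ∣ i := fun h5 => by
    have h11 : 1 < Fintype.card F := Fintype.one_lt_card
    have h12 : ∀ a m, ¬ r ∣ 2 * (Fintype.card F ^ a *
        ∏ j ∈ Finset.range m, (Fintype.card F ^ (2 * (2 * j + 1)) - 1)) := fun a m h12 => by
      obtain ⟨j, -, h13⟩ := H.exists_dvd (ho.coprime_two_right.dvd_of_dvd_mul_left h12)
      have := h5.trans h13; omega
    have h13 : ∀ m, 0 < ∏ j ∈ Finset.range m, (Fintype.card F ^ (2 * (2 * (j + 1))) - 1) :=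
      fun m => prod_pow_sub_one_pos h11 fun _ _ => by omega
    obtain ⟨m, rfl | rfl⟩ := Nat.even_or_odd' (d - 1) |>.imp fun m h =>
      show d = 2 * m + 1 ∨ d = 2 * (m + 1) by omega
    · rw [card_O_odd h2' X.sepK hm, card_O_even hP hV, hq,
        prod_range_two_mul fun j => Fintype.card F ^ (2 * j) - 1, ← mul_assoc, ← mul_assoc _ _
          (∏ _ ∈ _, _)] at h6
      simp only [← pow_mul] at h6
      refine h12 ((2 * m + 1) * (2 * m)) (m + 1) (((dvd_mul_right _ _).trans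
        (Nat.dvd_of_mul_dvd_mul_right (h13 m) h6)).trans ?_)
      rw [Finset.prod_range_succ, ← mul_assoc, ← mul_assoc, mul_right_comm, ← mul_assoc _ (∏ _ ∈ _, _)]
      refine Nat.mul_dvd_mul_left _ ?_
      rw [pow_mul', ← one_pow 2, Nat.sq_sub_sq, one_pow]
      split_ifs
      exacts [dvd_mul_left _ _, dvd_mul_right _ _]
    · rw [card_O_even X.sepK hm, card_O_even hP (m := 2 * m + 1) hV, hq, Finset.prod_range_succ,
        prod_range_two_mul fun j => Fintype.card F ^ (2 * j) - 1,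
        ← hyp_rs_iff X hQ h2' hE hδ0 hδ (nondeg_top X.sepK) ((finrank_top E V).trans
          (hm.trans (mul_comm _ _))), Submodule.restrictScalars_top] at h6
      simp only [← pow_mul, show 2 * m + 1 + 1 = 2 * (m + 1) from rfl] at h6
      refine h12 (2 * (m + 1) * (2 * m + 1)) (m + 1) ?_
      rw [Finset.prod_range_succ, ← mul_assoc, ← mul_assoc]
      refine dvd_cancel (h13 m) ?_ (by convert h6 using 1; ring)
      have := Nat.one_lt_pow (show 2 * (m + 1) ≠ 0 by omega) h11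
      split_ifs <;> omega
  refine not_elA (fun _ => InOm.iso) (inOm_of_odd hP hG ho h7 h8) h8
    (ne_smul_of_odd hP ho h7 h8 h9) (fun y h14 h15 h16 => ?_) h
  have h17 := pow_eq_one_of_similar h15 h8
  obtain ⟨g, rfl⟩ := h16.exists_rs_of_pow one_ne_zero (h17.trans (one_smul _ _).symm)
    (hE ▸ (Nat.coprime_primes hr.out Nat.prime_two).mpr hr2)
  obtain ⟨e, h18, -⟩ := (ss_id X.sepK H' hr2 rfl).fix_shape
    (iso_of_sim_quad h2' g (by simpa [Sim] using ext_of_rs X h14)) (pow_eq_one_of_rs h17)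
  rw [finrank_movS_eq h15, finrank_movS_rs, h18, hE] at h10
  have hi := H.pos
  rcases Nat.even_or_odd' i with ⟨t, rfl | rfl⟩
  · have h19 : ¬ Even t := fun ⟨s, hs⟩ => h5 ⟨s, by omega⟩
    obtain rfl : i' = t := by simpa using h3
    rw [if_neg h19, if_pos (even_two_mul _)] at h10
    rcases e with _ | e <;> nlinarith
  · obtain rfl : i' = 2 * t + 1 := by simpa using h3
    rw [if_neg (by simp)] at h10
    rcases e with _ | e <;> nlinarith

open Cfsg Matrix in
theorem quad_fb_row {F : Type*} [Field F] [Fintype F] {ι : Type} [Fintype ι] [DecidableEq ι]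
    (Q : QuadraticForm F (ι → F)) (hP : (qP Q).B.SeparatingLeft) (h2 : Odd (Fintype.card F))
    {d : ℕ} (hV : finrank F (ι → F) = 2 * d) (hd : 3 ≤ d) {K : Subalgebra F (Matrix ι ι F)}
    (hK : Geo.IsFieldSubalgebra 2 K) (hKf : Geo.IsSelfAdjointFor (polar Q) K) (r : ℕ)
    [Fact r.Prime] (hΩ : r ∣ (Geo.subalgebraNormalizer K).relIndex (Geo.omegaGL Q)) :
    (∀ x ∈ Geo.omegaGL Q, (∃ z : F, ((x ^ r : GL ι F) : Matrix ι ι F) = z • (1 : Matrix ι ι F)) →
      (∀ z : F, (x : Matrix ι ι F) ≠ z • (1 : Matrix ι ι F)) →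
        ∃ g ∈ Geo.omegaGL Q, g⁻¹ * x * g ∈ Geo.subalgebraNormalizer K) ↔ r = 2 := by
  have : Nonempty ι := Fintype.card_pos_iff.mp (by simp at hV; omega)
  obtain ⟨E, _, _, _, _, _, h1, h3, h4⟩ := exists_field_structure hK
  rw [conj_el_iff (A := InOm Q) (fun x => ⟨inOm_of_mem Q (fun _ => rfl) x, fun h => by
    obtain ⟨y, h5, h6⟩ := exists_of_inOm Q (fun _ => rfl) _ h
    rwa [← Units.ext (toLin'.injective h6)]⟩) (fun x _ => h3 x) fun _ h => h.iso.injective hP]
  refine quad_fb_elA_iff hP (H65.two_ne_zero_of_odd_card h2) h1 hV hd (fun a x y => ?_)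
    (mul_card_dvd_rs (K := isometryGroup F Q) (M := H12.O Q) (fun _ => H12.mem_isometryGroup) h3
      (hΩ.trans ?_))
  · simpa [rs_apply] using hKf (LinearMap.toMatrix' (rs F (a • (1 : End E (ι → F)))))
      ((h4 _).mpr ⟨a, fun v => by simp [rs_apply]⟩) x y
  · rw [Geo.omegaGL, ← Subgroup.relIndex_comap]
    exact relIndex_dvd_index' _ _

end H99
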