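import Cfsg.Agent.Lib.Elusive.Lin

/-!
Elements of prime order of the projective special linear group on subspaces.
-/

set_option autoImplicit false

namespace H99

open Module Polynomial

variable {F V : Type*} [Field F] [AddCommGroup V] [Module F V] [FiniteDimensional F V] [Fintype F]
  {r : ℕ} [hr : Fact r.Prime] {i : ℕ}

theorem sl_subspace_iff (H : Ord F r i) {m : ℕ} (hm : 1 ≤ m) (hmn : m ≤ finrank F V)
    (hd : r ∣ dprod (Fintype.card F) (finrank F V) m) :
    (∀ f : V →ₗ[F] V, LinearMap.det f = 1 → (∃ c : F, f ^ r = c • 1) → (∀ c : F, f ≠ c • 1) →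
      ∃ W : Submodule F V, Inv f W ∧ finrank F W = m) ↔
    ((i = 1 ∧ (r ∣ m ∨ PadicCond r (finrank F V) (Fintype.card F))) ∨
      (2 ≤ i ∧ i ≤ m ∧ m % i ≤ finrank F V % i)) := by
  have hi := H.pos
  obtain ⟨h1, h2⟩ := mod_lt_of_dvd_dprod Fintype.card_pos hmn hd
  rw [H.eq] at h1 h2
  constructor
  · intro h
    by_cases hi1 : i = 1
    · refine Or.inl ⟨hi1, ?_⟩
      by_contra hc
      rw [not_or] at hc
      obtain ⟨f, hf1, ⟨c, -, hf2⟩, hf3, hf4⟩ := exists_sl_irreducible (V := V) H hi1 (by omega) hc.2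
      obtain ⟨W, hW, rfl⟩ := h f hf1 ⟨c, hf2⟩ hf3
      exact hc.1 (hf4 W hW)
    · obtain ⟨f, hf1, hf2, hf3, hf4⟩ := exists_sl_fix_mod (V := V) H hi1 h1
      obtain ⟨W, hW, rfl⟩ := h f hf1 ⟨1, by rw [hf2, one_smul]⟩ hf3
      have h3 := finrank_inf_fixS_eq_mod H hf2 (hf4 ▸ Nat.mod_lt _ hi) hW
      have h4 : finrank F ↥(W ⊓ fixS f) ≤ finrank F (fixS f) := Submodule.finrank_mono inf_le_right
      refine Or.inr ⟨by omega, ?_, by omega⟩
      by_contra h5
      rw [Nat.mod_eq_of_lt (by omega)] at h3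
      omega
  · rintro h f hf1 ⟨c, hf2⟩ -
    obtain ⟨U, W, hU, -, -, h3, -⟩ := exists_inv_flag_sl H hf1 hf2 (by omega) hmn le_rfl
      (by rcases h with ⟨rfl, -⟩ | h; exacts [by omega, h.2.2]) le_rfl
      (fun hi1 => by
        rcases h with ⟨-, h | h⟩ | h
        · exact Or.inl fun h' => ⟨h, h'⟩
        · exact Or.inr h
        · omega)
    exact ⟨U, hU, h3⟩

theorem sl_flag_iff (H : Ord F r i) {m : ℕ} (hm : 1 ≤ m) (hmn : 2 * m ≤ finrank F V)
    (hd : r ∣ dprod (Fintype.card F) (finrank F V) (2 * m)) :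
    (∀ f : V →ₗ[F] V, LinearMap.det f = 1 → (∃ c : F, f ^ r = c • 1) → (∀ c : F, f ≠ c • 1) →
      ∃ U W : Submodule F V, Inv f U ∧ Inv f W ∧ U ≤ W ∧ finrank F U = m ∧
        finrank F W = finrank F V - m) ↔
    ((i = 1 ∧ (r ∣ m ∨ PadicCond r (finrank F V) (Fintype.card F))) ∨
      (2 ≤ i ∧ i ≤ m ∧ 2 * (m % i) ≤ finrank F V % i)) := by
  have hi := H.pos
  obtain ⟨h1, h2⟩ := mod_lt_of_dvd_dprod Fintype.card_pos hmn hd
  rw [H.eq] at h1 h2
  have hadd : finrank F V % i = ((finrank F V - m) % i + m % i) % i := by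
    rw [← Nat.add_mod, Nat.sub_add_cancel (by omega)]
  have a1 := Nat.mod_lt (finrank F V - m) hi
  have a2 := Nat.mod_lt m hi
  have hcases : finrank F V % i = (finrank F V - m) % i + m % i ∨
      finrank F V % i + i = (finrank F V - m) % i + m % i := by
    rcases lt_or_ge ((finrank F V - m) % i + m % i) i with h | h
    · left; rw [hadd, Nat.mod_eq_of_lt h]
    · right; rw [hadd, Nat.mod_eq_sub_mod h, Nat.mod_eq_of_lt (by omega)]; omega
  constructor
  · intro h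
    by_cases hi1 : i = 1
    · refine Or.inl ⟨hi1, ?_⟩
      by_contra hc
      rw [not_or] at hc
      obtain ⟨f, hf1, ⟨c, -, hf2⟩, hf3, hf4⟩ := exists_sl_irreducible (V := V) H hi1 (by omega) hc.2
      obtain ⟨U, W, hU, -, -, rfl, -⟩ := h f hf1 ⟨c, hf2⟩ hf3
      exact hc.1 (hf4 U hU)
    · obtain ⟨f, hf1, hf2, hf3, hf4⟩ := exists_sl_fix_mod (V := V) H hi1 h1
      obtain ⟨U, W, hU, hW, hUW, hU1, hW1⟩ := h f hf1 ⟨1, by rw [hf2, one_smul]⟩ hf3
      have h3 := finrank_inf_fixS_eq_mod H hf2 (hf4 ▸ Nat.mod_lt _ hi) hU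
      have h3' := finrank_inf_fixS_eq_mod H hf2 (hf4 ▸ Nat.mod_lt _ hi) hW
      have h4 : finrank F ↥(W ⊓ fixS f) ≤ finrank F (fixS f) := Submodule.finrank_mono inf_le_right
      have h4' : finrank F ↥(U ⊓ fixS f) ≤ finrank F ↥(W ⊓ fixS f) :=
        Submodule.finrank_mono (inf_le_inf_right _ hUW)
      rw [hU1] at h3
      rw [hW1] at h3'
      refine Or.inr ⟨by omega, ?_, by omega⟩
      by_contra h5
      have : m % i = m := Nat.mod_eq_of_lt (by omega)
      omega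
  · rintro h f hf1 ⟨c, hf2⟩ -
    have a3 := Nat.mod_lt (finrank F V) hi
    exact exists_inv_flag_sl H hf1 hf2 (by omega) (by omega) (Nat.sub_le _ _)
      (by rcases h with ⟨rfl, -⟩ | h <;> omega) (by rcases h with ⟨rfl, -⟩ | h <;> omega)
      (fun hi1 => by
        rcases h with ⟨-, h | h⟩ | h
        · exact Or.inl fun h' => ⟨h, Nat.dvd_sub h' h⟩
        · exact Or.inr h
        · omega)

omit [Fintype F] in
/-- Elements of order `p` and complementary pairs. -/
theorem sl_compl_char_iff [Finite F] {p : ℕ} [hp : Fact p.Prime] [CharP F p] {m : ℕ}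
    (hmn : m ≤ finrank F V) (hn : 0 < finrank F V) :
    (∀ f : V →ₗ[F] V, LinearMap.det f = 1 → (∃ c : F, f ^ p = c • 1) → (∀ c : F, f ≠ c • 1) →
      ∃ U W : Submodule F V, IsCompl U W ∧ finrank F U = m ∧ Inv f U ∧ Inv f W) ↔
    ∀ μ : Multiset ℕ, (∀ a ∈ μ, 0 < a ∧ a ≤ p) → μ.sum = finrank F V → ∃ ν ≤ μ, ν.sum = m := by
  constructor
  · intro h μ hμ hs
    by_cases h1 : ∃ a ∈ μ, 1 < a
    · obtain ⟨N, hN, hN0, hN1, hN2⟩ := exists_unipotent (F := F) (V := V) μ hμ hs h1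
      obtain ⟨U, W, hc, hU, hU1, hW1⟩ := h _ (det_eq_one_of_pow_char hN1)
        ⟨1, by rw [hN1, one_smul]⟩ hN2
      obtain ⟨ν, h2, -, h3⟩ := hN.exists_le (K := p) (fun w _ => by rw [hN0]; rfl)
        (inv_add_one_iff.mp hU1) (inv_add_one_iff.mp hW1) hc.disjoint hc.codisjoint.eq_top
      exact ⟨ν, h2, h3.trans hU⟩
    · obtain ⟨ν, h2, h3, -⟩ := exists_le_sum_eq_of_le_one (fun a ha => (hμ a ha).1) h1 (hs ▸ hmn)
      exact ⟨ν, h2, h3⟩
  · rintro h f hf1 ⟨c, hf2⟩ -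
    have hc0 : c ≠ 0 := ne_zero_of_det (by rw [hf1]; exact one_ne_zero) hf2 hn
    obtain ⟨d, rfl⟩ := exists_pow_char_eq (p := p) c
    have hd0 : d ≠ 0 := by rintro rfl; exact hc0 (zero_pow hp.out.ne_zero)
    have hg := smul_pow_eq_one hd0 hf2
    have hN : ∀ w ∈ (⊤ : Submodule F V), ((d⁻¹ • f - 1) ^ p) w = 0 := fun w _ => by
      rw [sub_one_pow_char, hg, sub_self]; rfl
    obtain ⟨μ, hμ⟩ := exists_jt Inv.top hN
    obtain ⟨ν, h1, h2⟩ := h μ (fun a ha => ⟨hμ.1 a ha, hμ.le_of_pow_eq_zero hN a ha⟩)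
      (by rw [← hμ.finrank_eq hN, finrank_top])
    obtain ⟨U, W, hU, hW, hd, hs, hj⟩ := hμ.split Inv.top hN h1
    exact ⟨U, W, ⟨hd, codisjoint_iff.mpr hs⟩, by rw [hj.finrank_eq fun w _ => hN w trivial, h2],
      (inv_sub_one_iff.mp hU).of_smul (inv_ne_zero hd0),
      (inv_sub_one_iff.mp hW).of_smul (inv_ne_zero hd0)⟩

/-- The partition condition for parts of size at most two. -/
theorem partition_two_iff {n m : ℕ} (hm : m ≤ n) :
    (∀ μ : Multiset ℕ, (∀ a ∈ μ, 0 < a ∧ a ≤ 2) → μ.sum = n → ∃ ν ≤ μ, ν.sum = m) ↔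
      (Odd n ∨ Even m) := by
  constructor
  · intro h
    by_contra hc
    rw [not_or, Nat.not_odd_iff_even, Nat.not_even_iff_odd] at hc
    obtain ⟨⟨k, rfl⟩, hc⟩ := hc
    obtain ⟨ν, h1, rfl⟩ := h (Multiset.replicate k 2)
      (fun a ha => by rw [Multiset.eq_of_mem_replicate ha]; omega) (by simp; omega)
    obtain ⟨j, -, rfl⟩ := Multiset.le_replicate_iff.mp h1
    simp [Nat.odd_iff] at hc
  · intro h μ hμ hs
    have h1 : μ = Multiset.replicate (μ.count 1) 1 + Multiset.replicate (μ.count 2) 2 := by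
      ext a
      simp only [Multiset.count_add, Multiset.count_replicate]
      by_cases h1 : 1 = a
      · subst h1; simp
      by_cases h2 : 2 = a
      · subst h2; simp
      rw [if_neg h1, if_neg h2, Multiset.count_eq_zero]
      intro ha
      have := hμ a ha
      omega
    generalize μ.count 1 = a at h1
    generalize μ.count 2 = b at h1
    subst h1
    simp only [Multiset.sum_add, Multiset.sum_replicate, smul_eq_mul] at hs
    rw [Nat.odd_iff, Nat.even_iff] at h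
    refine ⟨Multiset.replicate (m - 2 * min b (m / 2)) 1 + Multiset.replicate (min b (m / 2)) 2,
      add_le_add ((Multiset.replicate_le_replicate 1).mpr (by omega))
        ((Multiset.replicate_le_replicate 2).mpr (by omega)), ?_⟩
    simp only [Multiset.sum_add, Multiset.sum_replicate, smul_eq_mul]
    omega

end H99
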