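import Cfsg.Agent.Lib.Elusive.QuadSS
import Cfsg.Agent.Lib.QF.OmegaGeom

/-!
Membership in the commutator subgroup of an orthogonal group; elements whose square is `± 1`.
-/

set_option autoImplicit false
set_option linter.unusedSectionVars false

namespace H99

open Module H28 Polynomial QuadraticMap Matrix

variable {F V : Type*} [Field F] [AddCommGroup V] [Module F V] {Q : QuadraticForm F V}
  {f g : V →ₗ[F] V} {W U T N B : Submodule F V} {e m r : ℕ}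

/-- `f` lies in the commutator subgroup of the orthogonal group. -/
def InOm (Q : QuadraticForm F V) (f : V →ₗ[F] V) : Prop :=
  ∃ g ∈ H12.Om Q, (g.1 : V →ₗ[F] V) = f

theorem InOm.iso (h : InOm Q f) : Iso (qP Q) f := by
  obtain ⟨g, -, rfl⟩ := h; exact quad_iso.mpr g.2

section Bridge

variable {ι : Type} [Fintype ι] [DecidableEq ι] (Q : QuadraticForm F (ι → F))
  {q : (ι → F) → F}

theorem inOm_of_mem (h : ∀ v, Q v = q v) (x : GL ι F) (hx : x ∈ Cfsg.Geo.omegaGL q) :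
    InOm Q (toLin' (x : Matrix ι ι F)) := by
  obtain ⟨g, hg, rfl⟩ := hx
  exact ⟨_, (H66.mem_Omega_iff Q h g).mp hg, rfl⟩

theorem exists_of_inOm (h : ∀ v, Q v = q v) (f : (ι → F) →ₗ[F] (ι → F)) (hf : InOm Q f) :
    ∃ x : GL ι F, x ∈ Cfsg.Geo.omegaGL q ∧ toLin' (x : Matrix ι ι F) = f := by
  obtain ⟨g, hg, rfl⟩ := hf
  obtain ⟨g, rfl⟩ := (H12.isoEquiv Q h).surjective g
  exact ⟨g.1, ⟨g, (H66.mem_Omega_iff Q h g).mpr hg, rfl⟩, rfl⟩

theorem forall_om_iff (h : ∀ v, Q v = q v) (r : ℕ) (T : ((ι → F) →ₗ[F] (ι → F)) → Prop) :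
    (∀ x : GL ι F, x ∈ Cfsg.Geo.omegaGL q →
      (∃ z : F, ((x ^ r : GL ι F) : Matrix ι ι F) = z • (1 : Matrix ι ι F)) →
      (∀ z : F, (x : Matrix ι ι F) ≠ z • (1 : Matrix ι ι F)) → T (toLin' (x : Matrix ι ι F))) ↔
    ∀ f, InOm Q f → (∃ c : F, f ^ r = c • 1) → (∀ c : F, f ≠ c • 1) → T f :=
  forall_mat_iff (Units.coeHom _) _ _ (inOm_of_mem Q h) (exists_of_inOm Q h) r T

theorem forall_om_iff' (h : ∀ v, Q v = q v) (r : ℕ) [Fact r.Prime]
    (T : ((ι → F) →ₗ[F] (ι → F)) → Prop) :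
    (∀ x : GL ι F, x ∈ Cfsg.Geo.omegaGL q → orderOf x = r → T (toLin' (x : Matrix ι ι F))) ↔
    ∀ f, InOm Q f → f ^ r = 1 → f ≠ 1 → T f := by
  have key : ∀ x : GL ι F, orderOf x = r ↔
      toLin' (x : Matrix ι ι F) ^ r = 1 ∧ toLin' (x : Matrix ι ι F) ≠ 1 := fun x => by
    have h1 := toLin'_pow_eq_smul_one_iff (A := (x : Matrix ι ι F)) (r := r) (c := 1)
    have h2 := toLin'_eq_smul_one_iff (A := (x : Matrix ι ι F)) (c := 1)
    simp only [one_smul] at h1 h2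
    rw [orderOf_eq_prime_iff, h1, ne_eq, ne_eq, h2, ← Units.val_pow_eq_pow_val, Units.val_eq_one,
      Units.val_eq_one]
  refine ⟨fun h1 f hf h2 h3 => ?_, fun h1 x hx h2 =>
    h1 _ (inOm_of_mem Q h x hx) ((key x).mp h2).1 ((key x).mp h2).2⟩
  obtain ⟨x, hx, rfl⟩ := exists_of_inOm Q h f hf
  exact h1 x hx ((key x).mpr ⟨h2, h3⟩)

theorem quad_nd_iff₁ {W : Submodule F (ι → F)} :
    (∀ u ∈ W, u ≠ 0 → ∃ v ∈ W, polar Q u v ≠ 0) ↔ (qP Q).Nondeg W :=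
  ⟨fun h x hx h1 => by_contra fun h0 => (h x hx h0).elim fun v hv => hv.2 (h1 v hv.1),
    fun h _ hu h0 => exists_B_ne h hu h0⟩

theorem quad_nd_iff₂ {W : Submodule F (ι → F)} :
    Cfsg.Geo.IsNondegenerateOn (polar Q) W ↔ (qP Q).Nondeg W :=
  ⟨fun h => (quad_nd_iff₁ Q).mp fun u hu h0 => (h u hu h0).2, fun h u hu h0 =>
    ⟨(exists_B_ne h hu h0).imp fun _ h => ⟨h.1, polar_comm Q u _ ▸ h.2⟩, exists_B_ne h hu h0⟩⟩

theorem plusOn_iff {W : Submodule F (ι → F)} (hW : (qP Q).Nondeg W) :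
    Cfsg.Geo.IsPlusTypeOn Q W ↔ Hyp (qP Q) W :=
  ⟨fun ⟨U, h1, h2, h3⟩ => ⟨hW, U, h1, quad_totSing.mpr h2, h3⟩,
    fun ⟨_, U, h1, h2, h3⟩ => ⟨U, h1, h2.1, h3⟩⟩

end Bridge

theorem isSquare_mul_iff [Finite F] {a b : F} (ha : a ≠ 0) (hb : b ≠ 0) :
    IsSquare (a * b) ↔ (IsSquare a ↔ IsSquare b) := by
  by_cases h : IsSquare b
  · obtain ⟨t, rfl⟩ := id h
    rw [mul_comm, ← pow_two, H66.isSquare_sq_mul_iff (left_ne_zero_of_mul hb), pow_two]
    simp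
  · rw [H66.isSquare_mul_iff_of_not ha h]; simp [h]

theorem isSquare_pow_iff [Finite F] {a : F} (ha : a ≠ 0) (e : ℕ) :
    IsSquare (a ^ e) ↔ IsSquare a ∨ Even e := by
  induction e with
  | zero => simp
  | succ e ih => rw [pow_succ, isSquare_mul_iff (pow_ne_zero _ ha) ha, ih, Nat.even_add_one]; tauto

theorem gram_orth (h2 : (2 : F) ≠ 0) {u w : V} (hu : Q u ≠ 0) (hw : Q w ≠ 0)
    (h : (qP Q).B u w = 0) : (qP Q).B u u * (qP Q).B w w ≠ (qP Q).B u w * (qP Q).B w u := by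
  rw [qP_self, qP_self, h, zero_mul]
  exact mul_ne_zero (mul_ne_zero h2 hu) (mul_ne_zero h2 hw)

theorem Q_comb {u w : V} (h : (qP Q).B u w = 0) (a b : F) :
    Q (a • u + b • w) = a ^ 2 * Q u + b ^ 2 * Q w := by
  simp [qP_add, H12.Q_smul, h]

theorem hyp_pair_iff (h2 : (2 : F) ≠ 0) {u w : V} (hu : Q u ≠ 0) (hw : Q w ≠ 0)
    (h : (qP Q).B u w = 0) : Hyp (qP Q) ((F ∙ u) ⊔ (F ∙ w)) ↔ IsSquare (-(Q u * Q w)) := by
  have h1 := gram_orth h2 hu hw h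
  refine ⟨fun h3 => ?_, fun ⟨s, hs⟩ => hyp_of_sing (nondeg_pair h1) (finrank_pair h1)
    (mem_span_pair'.mpr ⟨s, Q u, rfl⟩) (fun h3 => hu (eq_zero_of_gram h1 (by rw [h3]; simp)
      (by rw [h3]; simp)).2) (by rw [Q_comb h]; linear_combination (-Q u) * hs)⟩
  obtain ⟨U, h4, h5, h6⟩ := h3.hasTS (k := 1) (finrank_pair h1)
  obtain ⟨v, hv, hv0⟩ := (Submodule.ne_bot_iff U).mp fun h => by rw [h, finrank_bot] at h6; omega
  obtain ⟨a, b, rfl⟩ := mem_span_pair'.mp (h4 hv)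
  have h7 := (Q_comb h a b).symm.trans (h5.1 _ hv)
  have h8 : b ≠ 0 := by
    rintro rfl
    obtain rfl : a = 0 := by simpa [hu] using h7
    simp at hv0
  exact ⟨a * Q u / b, by field_simp; linear_combination -h7⟩

theorem B_self_neg (h2 : (2 : F) ≠ 0) (hf : Iso (qP Q) f) {u : V} (h : f (f u) = -u) :
    (qP Q).B u (f u) = 0 := by
  have := hf.B u (f u)
  rw [h, map_neg, qP_symm] at this
  exact (mul_eq_zero.mp (show 2 * (qP Q).B u (f u) = 0 by linear_combination -this)).resolve_left h2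

variable [FiniteDimensional F V]

theorem exists_O (hP : (qP Q).B.SeparatingLeft) (hf : Iso (qP Q) f) :
    ∃ g : H12.O Q, (g.1 : V →ₗ[F] V) = f := by
  obtain ⟨g, hg, rfl⟩ := hf.exists_equiv hP
  exact ⟨⟨g, PQ.mem_isom_ofQuad.mp hg⟩, rfl⟩

theorem exists_orth_pair (h2 : (2 : F) ≠ 0) (hW : (qP Q).Nondeg W) (h : 2 ≤ finrank F W) :
    ∃ u ∈ W, ∃ w ∈ W, Q u ≠ 0 ∧ Q w ≠ 0 ∧ (qP Q).B u w = 0 := by
  obtain ⟨u, hu, h1⟩ := exists_Q_ne hW (ne_bot_of_finrank (by omega))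
  have h3 := (Submodule.span_singleton_le_iff_mem _ _).mpr hu
  have h4 := finrank_inf_perp' (nondeg_line h2 h1) h3
  rw [finrank_span_singleton (H12.ne_zero_of_Q_ne h1)] at h4
  obtain ⟨w, hw, h5⟩ := exists_Q_ne (nondeg_inf_perp hW (nondeg_line h2 h1) h3)
    (ne_bot_of_finrank (by omega))
  exact ⟨u, hu, w, hw.1, h1, h5, mem_perp_singleton.mp hw.2⟩

theorem orth_planes (h2 : (2 : F) ≠ 0) (hW : (qP Q).Nondeg W) (h : finrank F W = e * 2) :
    RSum (qP Q) (fun B => ∃ u w, Q u ≠ 0 ∧ Q w ≠ 0 ∧ (qP Q).B u w = 0 ∧ (F ∙ u) ⊔ (F ∙ w) = B)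
      e W :=
  exists_rsum_of_dvd two_pos (fun _ => True)
    (by rintro _ ⟨u, w, h1, h3, h4, rfl⟩; exact finrank_pair (gram_orth h2 h1 h3 h4))
    (fun W _ hW h => by
      obtain ⟨u, hu, w, hw, h1, h3, h4⟩ := exists_orth_pair h2 hW h
      exact ⟨_, pair_le hu hw, ⟨u, w, h1, h3, h4, rfl⟩, nondeg_pair (gram_orth h2 h1 h3 h4),
        trivial⟩) trivial hW h

theorem neg_planes (hP : (qP Q).B.SeparatingLeft) (h2 : (2 : F) ≠ 0) (hf : Iso (qP Q) f)
    (h : ∀ v, f (f v) = -v) (hW : (qP Q).Nondeg W) (hWf : Inv f W) :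
    ∃ e, RSum (qP Q) (fun B => ∃ u, Q u ≠ 0 ∧ (F ∙ u) ⊔ (F ∙ f u) = B) e W :=
  exists_rsum (Inv f) (fun W h1 hW h0 => by
    obtain ⟨u, hu, h3⟩ := exists_Q_ne hW h0
    have h4 := gram_orth h2 h3 ((quad_iso.mp hf u).symm ▸ h3) (B_self_neg h2 hf (h u))
    exact ⟨_, pair_le hu (h1 u hu), ne_bot_of_finrank (by rw [finrank_pair h4]; omega),
      ⟨u, h3, rfl⟩, nondeg_pair h4, h1.inf (hf.inv_perp hP (inv_pair (c := -1) (by simp [h])))⟩)
    W hWf hW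

section Fin

variable [Fintype F]

theorem inOm_of_odd (hP : (qP Q).B.SeparatingLeft) (hG : H12.Good Q) (hr : Odd r)
    (hf : Iso (qP Q) f) (h : f ^ r = 1) : InOm Q f := by
  classical
  obtain ⟨g, rfl⟩ := exists_O hP hf
  have h1 : g ^ r = 1 := Subtype.ext (LinearEquiv.toLinearMap_injective
    ((coe_equiv_pow g.1 r).trans h))
  have key : ∀ φ : H12.O Q →* ℤˣ, φ g = 1 := fun φ => by
    have := map_pow φ g r
    rwa [h1, map_one, Int.units_pow_eq_pow_mod_two, Nat.odd_iff.mp hr, pow_one, eq_comm] at this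
  exact ⟨g, (H12.mem_Om_iff hP hG g).mpr ⟨key _, key _⟩, rfl⟩

theorem mov_eq (g : H12.O Q) : H12.mov g = (⊤ : Submodule F V).map ((g.1 : V →ₗ[F] V) - 1) := by
  rw [Submodule.map_top, ← LinearMap.range_neg, neg_sub]; rfl

theorem InOm.even (hP : (qP Q).B.SeparatingLeft) (hG : H12.Good Q) (h : InOm Q f) :
    Even (finrank F ((⊤ : Submodule F V).map (f - 1))) := by
  classical
  obtain ⟨g, hg, rfl⟩ := h
  have := ((H12.mem_Om_iff hP hG g).mp hg).1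
  rwa [H12.dk_apply hP, mov_eq, neg_one_pow_eq_one_iff_even (by decide)] at this

theorem inOm_of_even (hP : (qP Q).B.SeparatingLeft) (hG : H12.Good Q) (h2 : (2 : F) = 0)
    (hf : Iso (qP Q) f) (h : Even (finrank F ((⊤ : Submodule F V).map (f - 1)))) : InOm Q f := by
  classical
  obtain ⟨g, rfl⟩ := exists_O hP hf
  exact ⟨g, (H12.mem_Om_iff hP hG g).mpr ⟨by rw [H12.dk_apply hP, mov_eq, h.neg_one_pow],
    H12.spin_eq_one_of_two_eq_zero hP hG h2 g⟩, rfl⟩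

theorem AT.inOm (h : AT (qP Q) f) (hP : (qP Q).B.SeparatingLeft) (hG : H12.Good Q) : InOm Q f := by
  obtain ⟨p, hp, hc⟩ : ∃ p, p.Prime ∧ CharP F p :=
    ⟨ringChar F, CharP.char_is_prime F _, ringChar.charP F⟩
  have := Fact.mk hp
  rcases hp.eq_two_or_odd' with rfl | h2
  · exact inOm_of_even hP hG (by simpa using CharP.cast_eq_zero F 2) h.iso
      (h.even (nondeg_top hP) Inv.top)
  · exact inOm_of_odd hP hG h2 h.iso (h.pow_char p)

theorem inOm_of_planes (hP : (qP Q).B.SeparatingLeft) (hG : H12.Good Q)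
    {Φ : Submodule F V → Prop} (h : RSum (qP Q) Φ e T) (hs : Supp (qP Q) f T)
    {s : F} (hs0 : s ≠ 0) (χ : Submodule F V → Prop) (h0 : χ ⊥)
    (hχ : ∀ e T B, RSum (qP Q) Φ e T → Φ B → (qP Q).Nondeg B → B ≤ (qP Q).perp T →
      (χ (T ⊔ B) ↔ (χ T ↔ χ B)))
    (hΦ : ∀ B, Φ B → Inv f B ∧ ∃ a ∈ B, ∃ b ∈ B, Q a ≠ 0 ∧ Q b ≠ 0 ∧
      (∀ v ∈ B, f v = (H12.refl Q a).1 ((H12.refl Q b).1 v)) ∧ (IsSquare (s * (Q a * Q b)) ↔ χ B)) :
    InOm Q f ↔ (IsSquare (s ^ e) ↔ χ T) := by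
  obtain ⟨L, h1, h2, h3, h4, h5⟩ := h.induction (C := fun e T => ∃ L : List V,
    (∀ v ∈ L, Q v ≠ 0) ∧ Even L.length ∧ (∀ v ∈ T, (L.map (H12.refl Q)).prod.1 v = f v) ∧
      (∀ v ∈ (qP Q).perp T, (L.map (H12.refl Q)).prod.1 v = v) ∧
        (IsSquare (s ^ e * (L.map fun v => Q v).prod) ↔ χ T))
    ⟨[], by simp, by simp, by simp, fun _ _ => rfl, by simpa using h0⟩ (by
      rintro e T B h1 h2 h3 h4 ⟨L, h5, h6, h7, h8, h9⟩
      obtain ⟨-, a, ha, b, hb, h10, h11, h12, h13⟩ := hΦ B h2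
      have h14 : ∀ v ∈ (qP Q).perp B, (H12.refl Q a).1 ((H12.refl Q b).1 v) = v := fun v hv => by
        rw [H12.refl_apply_of_orth ((qP_symm b v).trans (hv b hb)),
          H12.refl_apply_of_orth ((qP_symm a v).trans (hv a ha))]
      have h15 : (L.map fun v => Q v).prod ≠ 0 := List.prod_ne_zero fun h => by
        obtain ⟨v, hv, h⟩ := List.mem_map.mp h
        exact h5 v hv h
      refine ⟨a :: b :: L, by simpa [h10, h11] using h5, by simpa [Nat.even_add_one] using h6,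
        fun v hv => ?_, fun v hv => ?_, ?_⟩
      · obtain ⟨x, hx, y, hy, rfl⟩ := Submodule.mem_sup.mp hv
        simp only [List.map_cons, List.prod_cons, H12.O.mul_apply, map_add]
        rw [h7 x hx, h8 y (h4 hy), ← h12 y hy, h14 _ ((qP Q).le_perp_comm.mp h4
          (h1.inv (fun B h => (hΦ B h).1) x hx))]
      · rw [PQ.perp_sup] at hv
        simp only [List.map_cons, List.prod_cons, H12.O.mul_apply]
        rw [h8 v hv.1, h14 v hv.2]
      · rw [hχ e T B h1 h2 h3 h4, ← h9, ← h13, ← isSquare_mul_iff (mul_ne_zero (pow_ne_zero _ hs0)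
          h15) (mul_ne_zero hs0 (mul_ne_zero h10 h11))]
        exact iff_of_eq (congrArg _ (by simp only [List.map_cons, List.prod_cons]; ring)))
  have h6 : ((L.map (H12.refl Q)).prod.1 : V →ₗ[F] V) = f :=
    ext_perp h.nondeg h3 fun v hv => (h4 v hv).trans (hs v hv).symm
  have h7 : (L.map fun v => Q v).prod ≠ 0 := List.prod_ne_zero fun h => by
    obtain ⟨v, hv, h⟩ := List.mem_map.mp h
    exact h1 v hv h
  have h8 := H66.prod_refl_mem_Om_iff hP hG L h1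
  suffices InOm Q f ↔ IsSquare (L.map fun v => Q v).prod by
    rw [this, ← h5, isSquare_mul_iff (pow_ne_zero _ hs0) h7]; tauto
  refine ⟨fun ⟨g, hg, h9⟩ => (h8.mp ?_).2, fun h => ⟨_, h8.mpr ⟨h2, h⟩, h6⟩⟩
  rwa [show (L.map (H12.refl Q)).prod = g from
    Subtype.ext (LinearEquiv.toLinearMap_injective (h6.trans h9.symm))]

theorem InOm.pow (h : InOm Q f) (k : ℕ) : InOm Q (f ^ k) := by
  obtain ⟨g, hg, rfl⟩ := h
  exact ⟨g ^ k, pow_mem hg k, coe_equiv_pow g.1 k⟩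

theorem finrank_map_sub_one (f : V →ₗ[F] V) :
    finrank F (fixS f) + finrank F ((⊤ : Submodule F V).map (f - 1)) = finrank F V := by
  have := finrank_inf_ker_add (f - 1) ⊤
  rwa [top_inf_eq, finrank_top, show LinearMap.ker (f - 1) = fixS f from by
    ext; simp [mem_fixS, sub_eq_zero]] at this

theorem inOm_invol (hP : (qP Q).B.SeparatingLeft) (h2 : (2 : F) ≠ 0) (hf : Iso (qP Q) f)
    (h : f ^ 2 = 1) : InOm Q f ↔ ∃ e, finrank F (movS 2 f) = 2 * e ∧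
      (Hyp (qP Q) (movS 2 f) ↔ IsSquare (-1 : F) ∨ Even e) := by
  have hG := H12.good_of_two_ne_zero hP h2
  have h0 : ((2 : ℕ) : F) ≠ 0 := by simpa using h2
  have key : ∀ e, finrank F (movS 2 f) = 2 * e → (InOm Q f ↔
      (Hyp (qP Q) (movS 2 f) ↔ IsSquare (-1 : F) ∨ Even e)) := fun e he => by
    have h3 := (orth_planes h2 (nondeg_movS hP h0 hf h) (he.trans (mul_comm _ _))).mono
      (Ψ := fun B => B ≤ movS 2 f ∧ ∃ u w, Q u ≠ 0 ∧ Q w ≠ 0 ∧ (qP Q).B u w = 0 ∧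
        (F ∙ u) ⊔ (F ∙ w) = B) fun B h1 _ h => ⟨h1, h⟩
    have h4 : ∀ B, (B ≤ movS 2 f ∧ ∃ u w, Q u ≠ 0 ∧ Q w ≠ 0 ∧ (qP Q).B u w = 0 ∧
        (F ∙ u) ⊔ (F ∙ w) = B) → finrank F B = 2 := by
      rintro _ ⟨-, u, w, h1, h3, h4, rfl⟩; exact finrank_pair (gram_orth h2 h1 h3 h4)
    rw [inOm_of_planes hP hG h3 (supp_movS hP h0 hf h) (s := -1) (by simp) (Hyp (qP Q)) Hyp.bot
      (fun e T B h1 h5 h6 h7 => quad_hyp_sup hP h1.nondeg h6 (by rw [h1.finrank_eq h4]; simp)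
        (by rw [h4 B h5]; simp) h7) ?_, isSquare_pow_iff (by simp)]
    · exact ⟨Iff.symm, Iff.symm⟩
    rintro _ ⟨h1, u, w, h5, h6, h7, rfl⟩
    refine ⟨inv_of_le_movS_two h1, u, mem_span_pair'.mpr ⟨1, 0, by simp⟩, w,
      mem_span_pair'.mpr ⟨0, 1, by simp⟩, h5, h6, fun v hv => ?_,
      by rw [hyp_pair_iff h2 h5 h6 h7, neg_one_mul]⟩
    rw [mem_movS_two.mp (h1 hv)]
    obtain ⟨a, b, rfl⟩ := mem_span_pair'.mp hv
    simp only [map_add, map_smul, map_neg, H12.refl_apply_self h5, H12.refl_apply_self h6,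
      H12.refl_apply_of_orth h7, H12.refl_apply_of_orth ((qP_symm u w).trans h7)]
    module
  refine ⟨fun h1 => ?_, fun ⟨e, he, h1⟩ => (key e he).mpr h1⟩
  obtain ⟨e, he⟩ := h1.even hP hG
  have h3 := finrank_map_sub_one f
  have h4 := finrank_fixS_add h0 h
  exact ⟨e, by omega, (key e (by omega)).mp h1⟩

theorem exists_invol (hT : (qP Q).Nondeg T) : ∃ f, Mov (qP Q) 2 T f :=
  (exists_mov_restrict Iso.one.neg (by simp) hT Inv.one.neg fun v _ =>
    mem_movS_two.mpr rfl).imp fun _ h => h.1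

theorem neg_type (hP : (qP Q).B.SeparatingLeft) (h2 : (2 : F) ≠ 0) (hf : Iso (qP Q) f)
    (h : ∀ v, f (f v) = -v) (hW : (qP Q).Nondeg W) (hWf : Inv f W) :
    ∃ e, finrank F W = 2 * e ∧ (Hyp (qP Q) W ↔ IsSquare (-1 : F) ∨ Even e) ∧
      ∀ t ≤ e, ∃ U ≤ W, (qP Q).Nondeg U ∧ Inv f U ∧ finrank F U = 2 * t := by
  obtain ⟨e, he⟩ := neg_planes hP h2 hf h hW hWf
  have h3 : ∀ u, Q u ≠ 0 → Q (f u) ≠ 0 := fun u hu => (quad_iso.mp hf u).symm ▸ hu
  have h4 : ∀ B, (∃ u, Q u ≠ 0 ∧ (F ∙ u) ⊔ (F ∙ f u) = B) → finrank F B = 2 := by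
    rintro _ ⟨u, hu, rfl⟩
    exact finrank_pair (gram_orth h2 hu (h3 u hu) (B_self_neg h2 hf (h u)))
  refine ⟨e, (he.finrank_eq h4).trans (mul_comm _ _), (he.hyp_iff hP ?_).2, fun t ht => ?_⟩
  · rintro _ - ⟨u, hu, rfl⟩
    refine ⟨by rw [h4 _ ⟨u, hu, rfl⟩]; simp, ?_⟩
    rw [hyp_pair_iff h2 hu (h3 u hu) (B_self_neg h2 hf (h u)), quad_iso.mp hf u, ← neg_one_mul,
      isSquare_mul_iff (by simp) (mul_ne_zero hu hu)]
    simp
  · obtain ⟨U, h5, h6⟩ := he.exists_le ht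
    exact ⟨U, h5, h6.nondeg, h6.inv (by rintro _ ⟨u, -, rfl⟩; exact inv_pair (c := -1) (by simp [h])),
      (h6.finrank_eq h4).trans (mul_comm _ _)⟩

theorem inOm_neg (hP : (qP Q).B.SeparatingLeft) (h2 : (2 : F) ≠ 0) (hf : Iso (qP Q) f)
    (h : ∀ v, f (f v) = -v) (he : finrank F V = 2 * e) : InOm Q f ↔ IsSquare (2 : F) ∨ Even e := by
  obtain ⟨e', h1⟩ := neg_planes hP h2 hf h (nondeg_top hP) Inv.top
  have h3 := h1.finrank_eq (d := 2) (by
    rintro _ ⟨u, hu, rfl⟩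
    exact finrank_pair (gram_orth h2 hu ((quad_iso.mp hf u).symm ▸ hu) (B_self_neg h2 hf (h u))))
  obtain rfl : e' = e := by rw [finrank_top] at h3; omega
  rw [inOm_of_planes hP (H12.good_of_two_ne_zero hP h2) h1 (supp_top hP) h2 (fun _ => True)
    trivial (by simp) ?_, iff_true, isSquare_pow_iff h2]
  rintro _ ⟨u, hu, rfl⟩
  have h4 := B_self_neg h2 hf (h u)
  have h5 : Q (u + f u) = 2 * Q u := by rw [qP_add, h4, quad_iso.mp hf u]; ring
  have h6 : polar Q u (u + f u) = 2 * Q u := by rw [← qP_B, map_add, h4, qP_self, add_zero]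
  have h7 : polar Q (f u) (u + f u) = 2 * Q u := by
    rw [← qP_B, map_add, qP_symm, h4, qP_self, zero_add, quad_iso.mp hf u]
  refine ⟨inv_pair (c := -1) (by simp [h]), u + f u, mem_span_pair'.mpr ⟨1, 1, by simp⟩, u,
    mem_span_pair'.mpr ⟨1, 0, by simp⟩, h5 ▸ mul_ne_zero h2 hu, hu, fun v hv => ?_,
    iff_true_intro ⟨2 * Q u, by rw [h5]; ring⟩⟩
  obtain ⟨a, b, rfl⟩ := mem_span_pair'.mp hv
  simp only [map_add, map_smul, map_neg, H12.refl_apply_self hu, h,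
    H12.refl_apply_of_orth ((qP_symm u (f u)).trans h4)]
  rw [H12.refl_apply, H12.refl_apply, h5, h6, h7, inv_mul_cancel₀ (mul_ne_zero h2 hu)]
  module

theorem cj_line_iff (hP : (qP Q).B.SeparatingLeft) {u w : V} (hu : Q u ≠ 0) (hw : Q w ≠ 0) :
    Cj (qP Q) (F ∙ u) (F ∙ w) ↔ IsSquare (Q u * Q w) := by
  refine ⟨fun ⟨g, hg, h⟩ => ?_, fun ⟨t, ht⟩ => ?_⟩
  · obtain ⟨a, ha⟩ := Submodule.mem_span_singleton.mp
      (h ▸ Submodule.mem_map_of_mem (Submodule.mem_span_singleton_self u) : g u ∈ F ∙ w)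
    have := quad_iso.mp (Iso.of_mem hg) u
    rw [LinearEquiv.coe_coe, ← ha, H12.Q_smul] at this
    exact ⟨a * Q w, by rw [← this]; ring⟩
  · have h0 : t ≠ 0 := by rintro rfl; exact mul_ne_zero hu hw (by simpa using ht)
    rw [← Submodule.span_singleton_smul_eq (IsUnit.mk0 _ (div_ne_zero hu h0)) w]
    exact cj_line hP hu (by rw [H12.Q_smul]; field_simp; linear_combination -ht)

theorem exists_neg (hP : (qP Q).B.SeparatingLeft) (h2 : (2 : F) ≠ 0) (he : finrank F V = 2 * e)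
    (h : Hyp (qP Q) ⊤ ↔ IsSquare (-1 : F) ∨ Even e) : ∃ f, Iso (qP Q) f ∧ ∀ v, f (f v) = -v := by
  have h1 := quad_rsum hP (Φ := fun B => ∃ g, Iso (qP Q) g ∧ Supp (qP Q) g B ∧
      ∀ v ∈ B, (g ^ 2) v = (-1 : F) • v) (IsSquare (-1 : F)) two_pos even_two (fun B h1 h3 h4 => by
    obtain ⟨u, hu, w, hw, h5, h6, h7⟩ := exists_orth_pair h2 h1 h3.ge
    obtain rfl : (F ∙ u) ⊔ (F ∙ w) = B := Submodule.eq_of_le_of_finrank_eq (pair_le hu hw)
      (by rw [h3, finrank_pair (gram_orth h2 h5 h6 h7)])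
    rw [hyp_pair_iff h2 h5 h6 h7, ← neg_one_mul, isSquare_mul_iff (by simp) (mul_ne_zero h5 h6)] at h4
    obtain ⟨g, h8, h9, -, h10⟩ := exists_swap_orth (nondeg_line h2 h5)
      ((Submodule.span_singleton_le_iff_mem _ _).mpr (mem_perp_singleton.mpr h7))
      ((cj_line_iff hP h5 h6).mpr (by tauto)) (c := -1) (by simp)
    exact ⟨g, h8, h9, fun v hv => by simpa [pow_two] using h10 v hv⟩) e ⊤ (nondeg_top hP)
    (by rw [finrank_top, he, mul_comm]) h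
  obtain ⟨g, h3, -, h4⟩ := h1.induction (C := fun _ B => ∃ g, Iso (qP Q) g ∧ Supp (qP Q) g B ∧
      ∀ v ∈ B, (g ^ 2) v = (-1 : F) • v) ⟨1, Iso.one, Supp.one, by simp⟩ (by
    rintro _ T B - ⟨g', h3, h4, h5⟩ - h6 ⟨g, h7, h8, h9⟩
    obtain ⟨h10, h11, h12⟩ := supp_mul hP h3 h8 h4 h6
    exact ⟨g * g', h7.mul h3, h10, pow_apply_sup (h8.inv hP h7) (h4.inv hP h3) h11 h12 h9 h5⟩)
  exact ⟨g, h3, fun v => by simpa [pow_two] using h4 v trivial⟩

end Fin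

/-- The arithmetic condition for an element with square `-1` in the commutator subgroup. -/
def NegEx (Q : QuadraticForm F V) : Prop := ∃ e, finrank F V = 2 * e ∧
  (Hyp (qP Q) ⊤ ↔ IsSquare (-1 : F) ∨ Even e) ∧ (IsSquare (2 : F) ∨ Even e)

variable [Fintype F]

theorem negEx_iff (hP : (qP Q).B.SeparatingLeft) (h2 : (2 : F) ≠ 0) :
    NegEx Q ↔ ∃ f, InOm Q f ∧ ∀ v, f (f v) = -v := by
  refine ⟨fun ⟨e, he, h1, h3⟩ => ?_, fun ⟨f, h1, h3⟩ => ?_⟩
  · obtain ⟨f, h4, h5⟩ := exists_neg hP h2 he h1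
    exact ⟨f, (inOm_neg hP h2 h4 h5 he).mpr h3, h5⟩
  · obtain ⟨e, he, h4, -⟩ := neg_type hP h2 h1.iso h3 (nondeg_top hP) Inv.top
    rw [finrank_top] at he
    exact ⟨e, he, h4, (inOm_neg hP h2 h1.iso h3 he).mp h1⟩

/-- Every element of `Ω` of projective order `r` has the property `T`. -/
def El (Q : QuadraticForm F V) (r : ℕ) (T : (V →ₗ[F] V) → Prop) : Prop :=
  ∀ f, InOm Q f → (∃ c : F, f ^ r = c • 1) → (∀ c : F, f ≠ c • 1) → T f

theorem el_iff_of_odd (hP : (qP Q).B.SeparatingLeft) (hG : H12.Good Q) [Nontrivial V] (hr : Odd r)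
    {T : (V →ₗ[F] V) → Prop} (hT : ∀ f, T (-f) → T f) :
    El Q r T ↔ ∀ f, Iso (qP Q) f → f ^ r = 1 → f ≠ 1 → T f :=
  forall_odd_iff hP hr _ T (fun _ => InOm.iso) hT fun _ => inOm_of_odd hP hG hr

theorem InOm.eq_one (hP : (qP Q).B.SeparatingLeft) (h2 : (2 : F) ≠ 0) (hn : Odd (finrank F V))
    {c : F} (h : InOm Q (c • 1)) : c = 1 := by
  have : Nontrivial V := Module.nontrivial_of_finrank_pos (R := F) hn.pos
  rcases sq_eq_one_of_pow (r := 1) hP h.iso (pow_one _) with h1 | rfl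
  · exact h1
  obtain ⟨e, h3, -⟩ := (inOm_invol hP h2 h.iso (by simp)).mp h
  rw [show movS 2 ((-1 : F) • (1 : V →ₗ[F] V)) = ⊤ from
    eq_top_iff.mpr fun v _ => mem_movS_two.mpr (by simp), finrank_top] at h3
  obtain ⟨k, hk⟩ := hn
  omega

theorem el_iff_odd_dim (hP : (qP Q).B.SeparatingLeft) (h2 : (2 : F) ≠ 0) (hn : Odd (finrank F V))
    {T : (V →ₗ[F] V) → Prop} : (∀ f, InOm Q f → f ^ r = 1 → f ≠ 1 → T f) ↔ El Q r T :=
  ⟨fun h f hf ⟨c, hc⟩ h1 => h f hf (by rw [hc, InOm.eq_one (c := c) hP h2 hn (hc ▸ hf.pow r), one_smul])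
    (by simpa using h1 1), fun h f hf h1 h3 => h f hf ⟨1, by rw [h1, one_smul]⟩ fun c hc =>
      h3 (by rw [hc, InOm.eq_one (c := c) hP h2 hn (hc ▸ hf), one_smul])⟩

theorem el_two_iff (hP : (qP Q).B.SeparatingLeft) (h2 : (2 : F) ≠ 0) [Nontrivial V]
    {T : (V →ₗ[F] V) → Prop} : El Q 2 T ↔
      (∀ f, InOm Q f → f ^ 2 = 1 → f ≠ 1 → f ≠ -1 → T f) ∧
        ∀ f, InOm Q f → (∀ v, f (f v) = -v) → T f := by
  refine ⟨fun h => ⟨fun f hf h1 h3 h4 => h f hf ⟨1, by rw [h1, one_smul]⟩ fun c hc => ?_,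
    fun f hf h1 => h f hf ⟨-1, LinearMap.ext fun v => by simp [pow_two, h1]⟩ fun c hc => ?_⟩,
    fun h f hf ⟨c, hc⟩ h1 => ?_⟩
  · rcases sq_eq_one_of_pow (r := 1) hP hf.iso ((pow_one _).trans hc) with rfl | rfl
    · exact h3 (by simpa using hc)
    · exact h4 (by simpa using hc)
  · obtain ⟨v, hv⟩ := exists_ne (0 : V)
    have h3 := h1 v
    have h4 : v = -v := by
      rcases sq_eq_one_of_pow (r := 1) hP hf.iso ((pow_one _).trans hc) with rfl | rfl <;>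
        simpa [hc] using h3
    exact hv ((smul_eq_zero.mp (show (2 : F) • v = 0 by
      rw [two_smul]; exact add_eq_zero_iff_eq_neg.mpr h4)).resolve_left h2)
  · rcases sq_eq_one_of_pow hP hf.iso hc with rfl | rfl
    · exact h.1 f hf (by simpa using hc) (by simpa using h1 1) (by simpa using h1 (-1))
    · exact h.2 f hf fun v => by simpa [pow_two] using congrArg (fun g : V →ₗ[F] V => g v) hc

theorem quad_nd_two (hP : (qP Q).B.SeparatingLeft) (h2 : (2 : F) ≠ 0) [Nontrivial V]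
    (hW : (qP Q).Nondeg W)
    (h : finrank F V = 2 * finrank F W → Even (finrank F W) ∧ ¬ Hyp (qP Q) ⊤) :
    El Q 2 (fun f => ∃ U, Cj (qP Q) W U ∧ Inv f U) ↔ (NegEx Q →
      ∃ e, finrank F W = 2 * e ∧ (Hyp (qP Q) W ↔ IsSquare (-1 : F) ∨ Even e)) := by
  have h0 : ((2 : ℕ) : F) ≠ 0 := by simpa using h2
  rw [el_two_iff hP h2, negEx_iff hP h2]
  refine ⟨fun h1 ⟨f, h3, h4⟩ => ?_, fun h1 => ⟨fun f hf h3 _ _ => ?_, fun f h3 h4 => ?_⟩⟩
  · obtain ⟨U, h5, h6⟩ := h1.2 f h3 h4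
    obtain ⟨e, h7, h8, -⟩ := neg_type hP h2 h3.iso h4 (h5.nondeg hW) h6
    exact ⟨e, h5.finrank_eq.trans h7, Iff.trans ⟨fun h => h.cj h5, fun h => h.cj h5.symm⟩ h8⟩
  · have h4 := nondeg_fixS hP h0 hf.iso h3
    have h5 := nondeg_movS hP h0 hf.iso h3
    have h6 := finrank_fixS_add h0 h3
    have h7 := (qP Q).finrank_perp_add hP W
    have key : ∀ N, (qP Q).Nondeg N → (∀ U ≤ N, Inv f U) → finrank F W < finrank F N ∨
        finrank F ((qP Q).perp W) < finrank F N → ∃ U, Cj (qP Q) W U ∧ Inv f U := by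
      rintro N h8 h9 (h10 | h10)
      · obtain ⟨U, h11, h12⟩ := exists_cj_le hP hW h8 h10
        exact ⟨U, h12, h9 U h11⟩
      · obtain ⟨U, h11, h12⟩ := exists_cj_le hP (hW.perp hP) h8 h10
        exact ⟨_, (qP Q).perp_perp hP W ▸ h12.perp, hf.iso.inv_perp hP (h9 U h11)⟩
    by_contra h8
    have h9 := mt (key _ h4 fun _ => inv_of_le_fixS) h8
    have h10 := mt (key _ h5 fun _ => inv_of_le_movS_two) h8
    obtain ⟨h11, h12⟩ := h (by omega)
    have h13 : finrank F W = finrank F (fixS f) := by omega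
    have h14 : finrank F W = finrank F (movS 2 f) := by omega
    rw [← fixS_sup_movS h0 h3, quad_hyp_sup hP h4 h5 (h13 ▸ h11) (h14 ▸ h11)
      (movS_le_perp h0 hf.iso)] at h12
    by_cases h15 : Hyp (qP Q) W ↔ Hyp (qP Q) (fixS f)
    · exact h8 ⟨_, quad_cj hP hW h4 h11 h13 h15, inv_fixS f⟩
    · exact h8 ⟨_, quad_cj hP hW h5 h11 h14 (by tauto), inv_movS 2 f⟩
  · obtain ⟨e, h5, h6⟩ := h1 ⟨f, h3, h4⟩
    obtain ⟨d, h7, -, h8⟩ := neg_type hP h2 h3.iso h4 (nondeg_top hP) Inv.top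
    obtain ⟨U, -, h9, h10, h11⟩ := h8 e (by
      have := Submodule.finrank_le W; rw [finrank_top] at h7; omega)
    obtain ⟨e', h12, h13, -⟩ := neg_type hP h2 h3.iso h4 h9 h10
    obtain rfl : e = e' := by omega
    exact ⟨U, quad_cj hP hW h9 ⟨e, by omega⟩ (by omega) (h6.trans h13.symm), h10⟩

theorem exists_ts_eigen {P : PQ F V (RingHom.id F)} (hP : P.B.SeparatingLeft) (h2 : (2 : F) ≠ 0)
    (hf : Iso P f) (h : ∀ v, f (f v) = -v) (h1 : IsSquare (-1 : F)) (hm : 2 * m ≤ finrank F V) :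
    ∃ W : Submodule F V, finrank F W = m ∧ P.TotSing W ∧ Inv f W := by
  obtain ⟨ι, hι⟩ := h1
  have hz : f ^ 2 = (-1 : F) • 1 := LinearMap.ext fun v => by simp [pow_two, h]
  have h3 : ∀ c : F, c * c = -1 → P.TotSing (LinearMap.ker (aeval f (X - C c))) :=
    fun c hc => totSing_of_eigen hf (c := c) (fun h => h2 (by
      simp only [RingHom.id_apply] at h; linear_combination hc - h)) fun v hv => by
        simpa [sub_eq_zero] using hv
  have h4 := finrank_inv_of_coprime (f := f) Inv.top (isCoprime_X_sub_C_of_isUnit_sub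
    (a := ι) (b := -ι) (IsUnit.mk0 _ fun h => h2 (by
      linear_combination (-2) * hι - ι * h))) fun w _ => by
    rw [show (X - C ι) * (X - C (-ι)) = X ^ 2 - C (-1) by rw [hι]; simp; ring,
      aeval_X_pow_sub_C hz]; rfl
  rw [top_inf_eq, top_inf_eq, finrank_top] at h4
  have h5 := (h3 (-ι) (by simp [hι])).two_mul_finrank_le hP
  obtain ⟨W, h6, h7⟩ := exists_le_finrank_eq (LinearMap.ker (aeval f (X - C ι))) (k := m)
    (by omega)
  exact ⟨W, h7, totSing_mono (h3 ι hι.symm) h6, Inv.of_eigen (c := ι) fun v hv => by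
    simpa [sub_eq_zero] using h6 hv⟩

theorem quad_ts_two (hP : (qP Q).B.SeparatingLeft) (h2 : (2 : F) ≠ 0) (hm : 2 * m < finrank F V)
    (hn : 3 ≤ finrank F V) :
    El Q 2 (fun f => ∃ W : Submodule F V, finrank F W = m ∧ (qP Q).TotSing W ∧ Inv f W) ↔
      IsSquare (-1 : F) ∨ ((2 * m + 2 < finrank F V ∨ (2 * m + 2 = finrank F V ∧
        ¬ Hyp (qP Q) ⊤)) ∧ (NegEx Q → Even m)) := by
  have h0 : ((2 : ℕ) : F) ≠ 0 := by simpa using h2
  have : Nontrivial V := Module.nontrivial_of_finrank_pos (R := F) (by omega)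
  have hns : ¬ IsSquare (-1 : F) → ∀ d : F, d ^ 2 ≠ -1 := fun h d hd =>
    h ⟨d, by rw [← hd, pow_two]⟩
  have hz : ∀ {f : V →ₗ[F] V}, (∀ v, f (f v) = -v) → f ^ 2 = (-1 : F) • 1 := fun h =>
    LinearMap.ext fun v => by simp [pow_two, h]
  rw [el_two_iff hP h2, negEx_iff hP h2]
  refine ⟨fun h => or_iff_not_imp_left.mpr fun h1 => ⟨?_, fun ⟨f, h3, h4⟩ => ?_⟩,
    fun h => ⟨fun f hf h3 _ _ => ?_, fun f hf h3 => ?_⟩⟩
  · obtain ⟨T, -, h3, h4, h5⟩ := exists_aniso_plane hP (nondeg_top hP) (by rwa [finrank_top])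
    obtain ⟨f, hf⟩ := exists_invol h3
    have h6 := hf.movS_eq hP h0
    have h7 := finrank_fixS_add h0 hf.2.1
    have h8 := nondeg_fixS hP h0 hf.1 hf.2.1
    rw [h6] at h7
    obtain ⟨W, rfl, h9, h10⟩ := h.1 f ((inOm_invol hP h2 hf.1 hf.2.1).mpr ⟨1, by rw [h6, h4],
      by simp [h6, h5, h1]⟩) hf.2.1 (hf.ne_one hP h0 (ne_bot_of_finrank (by omega))) (by
        rintro rfl
        rw [← h6, show movS 2 (-1 : V →ₗ[F] V) = ⊤ from
          eq_top_iff.mpr fun v _ => mem_movS_two.mpr rfl, finrank_top] at h4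
        omega)
    have h11 := finrank_eq_fix_add_mov h0 hf.2.1 h10
    have h12 := (quad_hasTS_iff hP h3).mp ⟨W ⊓ T, inf_le_right, totSing_mono h9 inf_le_left, rfl⟩
    have h13 := (quad_hasTS_iff hP h8).mp ⟨_, inf_le_right, totSing_mono h9 inf_le_left, rfl⟩
    rw [h6] at h11
    refine h13.imp (fun h => by have := h12.resolve_right fun h => h5 h.2; omega) fun h => ?_
    have := h12.resolve_right fun h => h5 h.2
    refine ⟨by omega, ?_⟩
    rw [← fixS_sup_movS h0 hf.2.1, h6, quad_hyp_sup hP h8 h3 h.2.even (by simp [h4])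
      (h6 ▸ movS_le_perp h0 hf.1)]
    simp [h.2, h5]
  · obtain ⟨W, rfl, -, h5⟩ := h.2 f h3 h4
    exact even_iff_two_dvd.mpr (dvd_finrank_of_irreducible (hns h1) (hz h4) h5)
  · obtain ⟨e, h4, h5⟩ := (inOm_invol hP h2 hf.iso h3).mp hf
    have h6 := nondeg_fixS hP h0 hf.iso h3
    have h7 := nondeg_movS hP h0 hf.iso h3
    have h8 := finrank_fixS_add h0 h3
    suffices ∃ t ≤ m, HasTS (qP Q) (movS 2 f) t ∧ HasTS (qP Q) (fixS f) (m - t) by
      obtain ⟨t, h9, ⟨U, h10, h11, h12⟩, h13⟩ := this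
      obtain ⟨W, h14, h15⟩ := exists_inv_totSing_add h0 hf.iso h13 h11 (inv_of_le_movS_two h10) h10
      exact ⟨W, by omega, h15⟩
    by_cases h9 : Hyp (qP Q) (movS 2 f)
    · refine ⟨min m e, min_le_left _ _, (h9.hasTS h4).of_le (min_le_right _ _), ?_⟩
      rcases le_total m e with h10 | h10
      · simpa [h10] using HasTS.zero
      · exact quad_hasTS hP h6 (by omega)
    have h10 : e ≠ 0 := by rintro rfl; simp [h5] at h9
    refine ⟨min m (e - 1), min_le_left _ _, quad_hasTS hP h7 (by omega), ?_⟩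
    rcases le_total m (e - 1) with h11 | h11
    · simpa [h11] using HasTS.zero
    refine (quad_hasTS_iff hP h6).mpr (((h.resolve_left fun h => h9 (h5.mpr (Or.inl h))).1).imp
      (by omega) fun h => ⟨by omega, ?_⟩)
    have h12 := h.2
    rw [← fixS_sup_movS h0 h3, quad_hyp_sup hP h6 h7 ⟨m + 1 - e, by omega⟩ ⟨e, by omega⟩
      (movS_le_perp h0 hf.iso)] at h12
    tauto
  by_cases h1 : IsSquare (-1 : F)
  · exact exists_ts_eigen hP h2 hf.iso h3 h1 hm.le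
  obtain ⟨k, rfl⟩ := (h.resolve_left h1).2 ⟨f, hf, h3⟩
  have hs := isSemisimple_of_pow h0 (neg_ne_zero.mpr one_ne_zero) (hz h3)
  obtain ⟨U, M, h4, h5, -, -, h6, h7, h8, h9⟩ := exists_core hP hs hf.iso (nondeg_top hP) Inv.top
  have h10 : finrank F M ≤ 2 := by
    by_contra h10
    obtain ⟨w, hw, hw0, h11⟩ := (quad_hasTS hP h7 (k := 1) (by omega)).exists_sing
    have h12 := h9 _ (pair_le hw (h5 w hw)) (inv_pair (c := -1) (by simp [h3]))
      (quad_totSing.mpr fun v hv => by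
        obtain ⟨a, b, rfl⟩ := mem_span_pair'.mp hv
        rw [Q_comb (B_self_neg h2 hf.iso (h3 w)), quad_iso.mp hf.iso, show Q w = 0 from h11]; ring)
    exact hw0 ((Submodule.mem_bot F).mp (h12 ▸ mem_span_pair'.mpr ⟨1, 0, by simp⟩))
  have h11 := dvd_finrank_of_irreducible (hns h1) (hz h3) Inv.top
  rw [finrank_top] at h8 h11
  obtain ⟨W, h12, h13, h14⟩ := exists_inv_finrank_mul hs (X_pow_sub_C_ne_zero two_pos (-1)) two_pos
    (fun k hk hd => by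
      rw [natDegree_eq_of_degree_eq (degree_eq_degree_of_associated (hk.associated_of_dvd
        (X_pow_sub_C_irreducible_of_prime Nat.prime_two (hns h1)) hd)), natDegree_X_pow_sub_C]) h4
    (fun w _ => by rw [aeval_X_pow_sub_C (hz h3)]; rfl) k (by omega)
  exact ⟨W, by omega, totSing_mono h6 h13, h12⟩

end H99
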