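import Cfsg.Agent.Lib.Elusive.QuadRow

/-!
Nonsingular points of an orthogonal space in characteristic two.
-/

set_option autoImplicit false
set_option linter.unusedSectionVars false

namespace H99

open Module H28 Polynomial QuadraticMap

variable {F V : Type*} [Field F] [AddCommGroup V] [Module F V] {Q : QuadraticForm F V}
  {f : V →ₗ[F] V} {W : Submodule F V} {r : ℕ} [FiniteDimensional F V] [Fintype F]

theorem point_iff : (finrank F W = 1 ∧ ∃ v ∈ W, Q v ≠ 0) ↔ ∃ v, Q v ≠ 0 ∧ (F ∙ v) = W :=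
  ⟨fun ⟨h, v, hv, h1⟩ => ⟨v, h1, Submodule.eq_of_le_of_finrank_eq
    ((Submodule.span_singleton_le_iff_mem _ _).mpr hv)
    (by rw [h, finrank_span_singleton (H12.ne_zero_of_Q_ne h1)])⟩, by
      rintro ⟨v, h, rfl⟩
      exact ⟨finrank_span_singleton (H12.ne_zero_of_Q_ne h), v,
        Submodule.mem_span_singleton_self v, h⟩⟩

theorem exists_point_iff (h2 : (2 : F) = 0) (hf : Iso (qP Q) f) :
    (∃ W : Submodule F V, (finrank F W = 1 ∧ ∃ v ∈ W, Q v ≠ 0) ∧ Inv f W) ↔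
      ¬ (qP Q).TotSing (fixS f) := by
  simp only [point_iff, quad_totSing, not_forall]
  refine ⟨?_, fun ⟨v, hv, h⟩ => ⟨_, ⟨v, h, rfl⟩, inv_of_le_fixS
    ((Submodule.span_singleton_le_iff_mem _ _).mpr hv)⟩⟩
  rintro ⟨_, ⟨v, h, rfl⟩, h1⟩
  obtain ⟨a, ha⟩ := Submodule.mem_span_singleton.mp (h1 v (Submodule.mem_span_singleton_self v))
  have h3 := quad_iso.mp hf v
  rw [← ha, H12.Q_smul] at h3
  have h4 : a = 1 := sub_eq_zero.mp (pow_eq_zero_iff two_ne_zero |>.mp (mul_right_cancel₀ h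
    (show (a - 1) ^ 2 * Q v = 0 * Q v by linear_combination h3 + (1 - a) * Q v * h2)))
  exact ⟨v, mem_fixS.mpr (by rw [← ha, h4, one_smul]), h⟩

theorem not_el_point (hP : (qP Q).B.SeparatingLeft) (hG : H12.Good Q) [Nontrivial V]
    (h2 : (2 : F) = 0) [hr : Fact r.Prime] (hr2 : r ≠ 2)
    (hΩ : r ∣ Nat.card {W : Submodule F V // finrank F W = 1 ∧ ∃ v ∈ W, Q v ≠ 0}) :
    ¬ El Q r fun f => ∃ W : Submodule F V, (finrank F W = 1 ∧ ∃ v ∈ W, Q v ≠ 0) ∧ Inv f W := by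
  rw [el_iff_of_odd hP hG (hr.1.odd_of_ne_two hr2) fun f ⟨U, h1, h2⟩ => ⟨U, h1, h2.of_neg⟩]
  have : CharP F 2 := CharTwo.of_one_ne_zero_of_two_eq_zero one_ne_zero h2
  refine fun h => not_dvd_card_sub hP (cast_ne_zero_of_ne hr2) _ ?_ ?_ (fun f h1 h3 => ?_) hΩ
  · rintro W _ ⟨g, hg, rfl⟩ ⟨h1, v, hv, h3⟩
    exact ⟨(LinearEquiv.finrank_map_eq g W).trans h1, g v, Submodule.mem_map_of_mem hv,
      (quad_iso.mp (Iso.of_mem hg) v).symm ▸ h3⟩
  · simp only [point_iff]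
    rintro _ _ ⟨u, hu, rfl⟩ ⟨v, hv, rfl⟩
    obtain ⟨t, ht⟩ := exists_sq_eq_of_two_eq_zero h2 (Q u * Q v)
    exact (cj_line_iff hP hu hv).mpr ⟨t, by rw [← ht, pow_two]⟩
  have h4 : ¬ (qP Q).TotSing (fixS f) := by
    rcases eq_or_ne f 1 with rfl | h4
    · obtain ⟨v, -, hv⟩ := exists_Q_ne (nondeg_top hP) top_ne_bot
      exact fun h => hv (h.1 v (mem_fixS.mpr rfl))
    · exact (exists_point_iff h2 h1).mp (h f h1 h3 h4)
  simp only [quad_totSing, not_forall] at h4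
  obtain ⟨v, hv, h4⟩ := h4
  exact ⟨_, point_iff.mpr ⟨v, h4, rfl⟩, Or.inl ((Submodule.span_singleton_le_iff_mem _ _).mpr hv)⟩

theorem el_point_iff (hP : (qP Q).B.SeparatingLeft) (hG : H12.Good Q) (h2 : (2 : F) = 0)
    [Nontrivial V] :
    (El Q 2 fun f => ∃ W : Submodule F V, (finrank F W = 1 ∧ ∃ v ∈ W, Q v ≠ 0) ∧ Inv f W) ↔
      ¬ (Hyp (qP Q) ⊤ ∧ finrank F V % 4 = 0) := by
  have : CharP F 2 := CharTwo.of_one_ne_zero_of_two_eq_zero one_ne_zero h2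
  rw [el_char_two hP h2]
  refine ⟨fun h ⟨⟨_, U, _, h1, h3⟩, h4⟩ => ?_, fun h f hf h1 _ => ?_⟩
  · rw [finrank_top] at h3
    obtain ⟨f, h5, h6⟩ := exists_at qP_symm h1 (Nat.even_iff.mpr (by omega))
    have h7 := inf_perp_eq_of_half hP (nondeg_top hP) le_top h1.le_perp (by rwa [finrank_top])
    rw [top_inf_eq, ← h6] at h7
    refine (exists_point_iff h2 h5.iso).mp (h f (h5.inOm hP hG) (h5.pow_char 2) ?_) (h7 ▸ h1)
    rintro rfl
    have := finrank_pos (R := F) (M := V)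
    rw [← h7, fixS_eq_top_iff.mpr rfl, finrank_top] at h3
    omega
  refine (exists_point_iff h2 hf.iso).mpr fun h3 => h ?_
  have h4 := finrank_map_sub_one f
  have h5 := h3.two_mul_finrank_le hP
  have h6 : (⊤ : Submodule F V).map (f - 1) ≤ fixS f := by
    rintro _ ⟨v, -, rfl⟩
    simpa [pow_two, sub_eq_zero, mem_fixS] using pow_char_apply (p := 2) h1 v trivial
  have h7 := Submodule.finrank_mono h6
  have h8 := Nat.even_iff.mp (hf.even hP hG)
  exact ⟨⟨nondeg_top hP, _, le_top, h3, by rw [finrank_top]; omega⟩, by omega⟩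

end H99
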