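import Cfsg.Agent.Lib.Elusive.Fld
import Cfsg.Agent.Lib.StarAlg.SpConj

/-!
Elements of prime order of an isometry group conjugate into a given class.
-/

set_option autoImplicit false
set_option linter.unusedSectionVars false

namespace H99

open Module Polynomial H28
open H65 (Similar)

section

variable {F V : Type*} [Field F] [AddCommGroup V] [Module F V] [FiniteDimensional F V]
  {σ : F →+* F} {P : PQ F V σ} {f y : End F V} {A B : End F V → Prop} {r : ℕ} {c : F}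

/-- Every element of `A` of order `r` modulo scalars has an `A`-conjugate satisfying `B`. -/
def ElA (A B : End F V → Prop) (r : ℕ) : Prop := ∀ f, A f → (∃ c : F, f ^ r = c • 1) →
  (∀ c : F, f ≠ c • 1) → ∃ g : V ≃ₗ[F] V, A g ∧ B (g.symm.conj f)

theorem Iso.symm_conj {g : V ≃ₗ[F] V} (hg : Iso P (g : End F V)) (hf : Iso P f) :
    Iso P (g.symm.conj f) := Iso.conj (P.Isom.inv_mem hg.mem) hf

theorem not_elA (hA : ∀ f, A f → Iso P f) (hf : A f) (h : f ^ r = 1) (hn : ∀ c : F, f ≠ c • 1)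
    (hB : ∀ y, Iso P y → Similar f y → ¬ B y) : ¬ ElA A B r := fun h1 =>
  (h1 f hf ⟨1, h.trans (one_smul F _).symm⟩ hn).elim fun g hg =>
    hB _ ((hA _ hg.1).symm_conj (hA _ hf)) (similar_symm_conj g f) hg.2

theorem exists_elt_of_relIndex {ι : Type} [Fintype ι] [DecidableEq ι] [Finite F] [Fact r.Prime]
    {K H : Subgroup (GL ι F)} {A : End F (ι → F) → Prop}
    (hA : ∀ x : GL ι F, x ∈ K ↔ A (Matrix.toLin' (x : Matrix ι ι F))) (h : r ∣ H.relIndex K) :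
    ∃ f, A f ∧ f ^ r = 1 ∧ f ≠ 1 := by
  obtain ⟨x, h1, h2, h3⟩ := exists_orderOf_of_dvd K (h.trans (H.subgroupOf K).index_dvd_card)
  refine ⟨_, (hA x).mp h1, ?_, fun h => h3 (glEquiv.injective ?_)⟩
  · rw [toLin'_gl]; exact coe_pow_eq_one (by rw [← map_pow, h2, map_one])
  · rw [map_one]; exact LinearEquiv.toLinearMap_injective h

theorem SS.exists_one [Fintype F] [Fact r.Prime] {j c : ℕ} (H : SS P r j c) (hf : Iso P f)
    (h : f ^ r = 1) (h1 : f ≠ 1) :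
    ∃ g, Iso P g ∧ g ^ r = 1 ∧ g ≠ 1 ∧ finrank F (movS r g) = c := by
  obtain ⟨B, -, h2, g, h3⟩ := H.exists_blk hf h h1
  have := H.pos
  exact ⟨g, h3.1, h3.2.1, h3.ne_one H.sep H.ord.ne (ne_bot_of_finrank (by omega)),
    by rw [h3.movS_eq H.sep H.ord.ne, h2]⟩

theorem exists_neg_dim (hP : P.B.SeparatingLeft) (h2 : (2 : F) ≠ 0) {W : Submodule F V}
    (hW : P.Nondeg W) : ∃ y, Iso P y ∧ y ^ 2 = 1 ∧ movS 2 y = W ∧
      finrank F (fixS y) + finrank F W = finrank F V := by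
  obtain ⟨y, h1⟩ := exists_neg_on hW
  have h3 : ((2 : ℕ) : F) ≠ 0 := by simpa using h2
  have h5 := finrank_fixS_add h3 h1.2.1
  rw [h1.movS_eq hP h3] at h5
  exact ⟨y, h1.1, h1.2.1, h1.movS_eq hP h3, h5⟩

theorem exists_transv (p : ℕ) [Fact p.Prime] [CharP F p] (hP : P.B.SeparatingLeft) {v : V}
    (hv0 : v ≠ 0) (hv : P.q v ∈ P.Λ) (hc : c ∈ P.Λ) (hc0 : c ≠ 0) :
    ∃ f, Iso P f ∧ f ^ p = 1 ∧ finrank F (fixS f) + 1 = finrank F V := by
  have h0 : P.ε * (P.ε * c) = c := by rw [← mul_assoc, P.εε, one_mul]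
  have h1 : σ (P.ε * c) * (P.ε * c) * P.q v + P.ε * (P.ε * c) ∈ P.Λ :=
    P.Λ.add_mem (P.norm_mem _ _ hv) (by rwa [h0])
  have h2 := P.self_eq_zero hv
  refine ⟨P.qrefl (P.ε * c) v, ⟨P.qrefl_B h1, P.qrefl_q h1⟩, ?_, ?_⟩
  · have h3 : (P.qrefl (P.ε * c) v - 1) ^ 2 = 0 := LinearMap.ext fun x => by
      simp [pow_two, P.qrefl_apply, h2]
    rw [← sub_eq_zero, ← sub_one_pow_char]
    exact pow_eq_zero_of_le (Fact.out : p.Prime).two_le h3
  · have h3 := P.finrank_perp_add hP (F ∙ v)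
    rw [finrank_span_singleton hv0] at h3
    rw [show fixS (P.qrefl (P.ε * c) v) = P.perp (F ∙ v) from Submodule.ext fun x => by
      simp [mem_fixS, mem_perp_singleton, P.qrefl_apply, hv0, hc0, P.ε_ne_zero]]
    omega

theorem fixS_neg : fixS (-f) = movS 2 f := Submodule.ext fun v => by
  rw [mem_fixS, mem_movS_two, LinearMap.neg_apply, neg_eq_iff_eq_neg]

end

variable {F V : Type*} [Field F] [AddCommGroup V] [Module F V] [FiniteDimensional F V]
  {P : PQ F V (RingHom.id F)} {f y : End F V} {B : End F V → Prop} {r : ℕ}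

theorem two_mul_fix_of_sim (hP : P.B.SeparatingLeft) (h2 : (2 : F) ≠ 0) (hf : Sim P (-1) f)
    (h : f ^ 2 = 1) : 2 * finrank F (fixS f) = finrank F V := by
  have h3 : (-1 : F) ≠ 1 := fun h => h2 (by linear_combination -h)
  have h4 := mt (hf.eq_one_of_fix hP) h3
  have h5 := mt (Sim.eq_one_of_fix (f := -f) (μ := -1) hP fun u v => by simpa using hf u v) h3
  have h6 := finrank_fixS_add (r := 2) (by simpa using h2) h
  rw [fixS_neg] at h5; omega

theorem similar_of_sq_neg (hP : P.B.SeparatingLeft) (h2 : (2 : F) ≠ 0) (hf : Iso P f)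
    (hy : Iso P y) (h : f ^ 2 = (-1 : F) • 1) (h' : y ^ 2 = (-1 : F) • 1) : Similar f y := by
  by_cases hs : IsSquare (-1 : F)
  · obtain ⟨a, ha⟩ := hs
    have h0 : a ≠ 0 := by rintro rfl; simp at ha
    have key : ∀ g : End F V, Iso P g → g ^ 2 = (-1 : F) • 1 →
        (a • g) ^ 2 = 1 ∧ 2 * finrank F (fixS (a • g)) = finrank F V := fun g hg h => by
      have h1 : (a • g) ^ 2 = 1 := by rw [_root_.smul_pow, h, smul_smul, pow_two, ← ha]; simp
      exact ⟨h1, two_mul_fix_of_sim hP h2 (by simpa [← ha] using hg.sim.smul a) h1⟩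
    obtain ⟨h3, h4⟩ := key f hf h
    obtain ⟨h5, h6⟩ := key y hy h'
    simpa [h0] using (similar_of_sq_one h3 h5 rfl (by omega)).smul a⁻¹
  · exact H65.similar_of_sq_eq_smul hs h h' rfl

theorem alt_transv (p : ℕ) [Fact p.Prime] [CharP F p] (hP : P.B.SeparatingLeft) (hΛ : P.Λ = ⊤)
    [Nontrivial V] : ∃ f, Iso P f ∧ f ^ p = 1 ∧ finrank F (fixS f) + 1 = finrank F V := by
  obtain ⟨v, hv⟩ := exists_ne (0 : V)
  exact exists_transv p hP hv (alt_q hΛ _) (alt_q hΛ 1) one_ne_zero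

theorem alt_neg (hP : P.B.SeparatingLeft) (hΛ : P.Λ = ⊤) (h2 : (2 : F) ≠ 0) {k : ℕ} (he : Even k)
    (hk : k ≤ finrank F V) :
    ∃ y, Iso P y ∧ y ^ 2 = 1 ∧ finrank F (fixS y) + k = finrank F V := by
  obtain ⟨W, -, h1, rfl⟩ := alt_exists_nondeg hP hΛ (nondeg_top hP) he (by rwa [finrank_top])
  obtain ⟨y, h3, h4, -, h5⟩ := exists_neg_dim hP h2 h1
  exact ⟨y, h3, h4, h5⟩

variable [Fintype F]

theorem alt_conj (hP : P.B.SeparatingLeft) (hΛ : P.Λ = ⊤) (hf : Iso P f) (hy : Iso P y) {N : ℕ}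
    (hN : (N : F) ≠ 0) (h : f ^ N = 1) (hs : Similar f y) :
    ∃ g : V ≃ₗ[F] V, Iso P g ∧ g.symm.conj f = y := by
  obtain ⟨e, he⟩ := hs
  obtain ⟨g, h1, h2⟩ := H66.exists_isometry_conj_alt P.B
    ⟨hP, fun x hx => hP x fun z => P.eq_zero_symm (hx z)⟩ (alt_self hΛ) f y N hN h hf.B hy.B e
    ((Module.End.isUnit_iff _).mpr e.bijective) (LinearMap.ext he)
  obtain ⟨g, h3, rfl⟩ := (alt_iso hΛ h1).exists_equiv hP
  exact ⟨g.symm, Iso.of_mem (P.Isom.inv_mem h3), LinearMap.ext fun v => by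
    simpa using LinearMap.congr_fun h2 (g.symm v)⟩

theorem alt_elA_two [Nontrivial V] (hP : P.B.SeparatingLeft) (hΛ : P.Λ = ⊤) (h2 : (2 : F) ≠ 0)
    (hA : ∀ t, 0 < t → 2 * t < finrank F V →
      ∃ y, Iso P y ∧ y ^ 2 = 1 ∧ finrank F (fixS y) = 2 * t ∧ B y)
    (hB : ∃ y, Iso P y ∧ y ^ 2 = (-1 : F) • 1 ∧ B y) : ElA (Iso P) B 2 := by
  have h3 : ((2 : ℕ) : F) ≠ 0 := by simpa using h2
  rintro f hf ⟨c, hc⟩ hn
  suffices ∃ y, Iso P y ∧ Similar f y ∧ B y by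
    obtain ⟨y, h4, h5, h6⟩ := this
    obtain ⟨g, h7, rfl⟩ := alt_conj hP hΛ hf h4 (N := 2 * 2) (by rw [Nat.cast_mul]; positivity)
      (by rcases sq_eq_one_of_pow hP hf hc with rfl | rfl <;> rw [pow_mul, hc] <;> simp) h5
    exact ⟨g, h7, h6⟩
  rcases sq_eq_one_of_pow hP hf hc with rfl | rfl
  · rw [one_smul] at hc
    obtain ⟨t, ht⟩ := (alt_hyp hP hΛ (nondeg_fixS hP h3 hf hc)).even
    have h4 := finrank_fixS_add h3 hc
    have h5 := finrank_movS_pos h3 hc fun h => hn 1 (by rw [h, one_smul])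
    have h6 := finrank_movS_pos (g := -f) h3 (by simpa using hc) fun h => hn (-1) (by simp [← h])
    rw [← fixS_neg, neg_neg] at h6
    obtain ⟨y, h7, h8, h9, h10⟩ := hA t (by omega) (by omega)
    exact ⟨y, h7, similar_of_sq_one hc h8 rfl (by omega), h10⟩
  · obtain ⟨y, h4, h5, h6⟩ := hB
    exact ⟨y, h4, similar_of_sq_neg hP h2 hf h4 hc h5, h6⟩

end H99
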