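import Cfsg.Agent.Lib.Elusive.SpEl
import Cfsg.Agent.Lib.Tensor.Fac
import Cfsg.Agent.Lib.Tensor.FormIdent

/-!
Elements of prime order and stabilisers of tensor decompositions.
-/

set_option autoImplicit false
set_option linter.unusedSectionVars false

namespace H99

open Module Polynomial H28 H11.Ten
open H65 (Similar kerDim piEnd)

variable {F U W V : Type*} [Field F] [AddCommGroup U] [Module F U] [AddCommGroup W] [Module F W]
  [AddCommGroup V] [Module F V] {T : TS F U W V} {s : End F U} {x : End F W} {y : End F V} {r : ℕ}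

/-- `y` is a tensor product of two maps. -/
def TB (T : TS F U W V) (y : End F V) : Prop := ∃ (s : End F U) (x : End F W), y = T.op s x

theorem op_smul (a b : F) : T.op (a • s) (b • x) = (a * b) • T.op s x :=
  T.lext fun u w => by simp [smul_smul, mul_comm]

theorem op_one : T.op 1 1 = (1 : End F V) := T.lext fun u w => by simp

theorem op_pow (k : ℕ) : T.op s x ^ k = T.op (s ^ k) (x ^ k) := by
  induction k with
  | zero => simp [op_one]
  | succ k ih => rw [pow_succ, ih, T.op_mul, pow_succ, pow_succ]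

theorem op_flip : T.op s x = T.flip.op x s := T.lext fun u w => (T.op_τ s x u w).trans
  (T.flip.op_τ x s w u).symm

theorem op_smul_one (c : F) : T.op (c • 1) x = T.op 1 (c • x) := T.lext fun u w => by simp

theorem TB.smul (y : End F V) (c : F) (_ : c ≠ 0) (h : TB T y) : TB T (c • y) := by
  obtain ⟨s, x, rfl⟩ := h
  exact ⟨c • s, x, by rw [← one_smul F x, op_smul, mul_one, one_smul]⟩

theorem cW_op (φ : Dual F W) (v : V) : T.cW φ (T.op s x v) = s (T.cW (φ ∘ₗ x) v) :=
  LinearMap.congr_fun (T.lext (f := T.cW φ ∘ₗ T.op s x) (g := s ∘ₗ T.cW (φ ∘ₗ x))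
    fun u w => by simp) v

theorem mem_ten_iff {ι : Type} [Fintype ι] [DecidableEq ι] {a b : ℕ} (ha : 0 < a) (hb : 0 < b)
    (e : ι ≃ Fin a × Fin b) (P g : GL ι F) : g ∈ Cfsg.Geo.tensorProductSubgroup a b e P ↔
      TB (tsOf e P) (Matrix.toLin' (g : Matrix ι ι F)) := by
  rw [tensorProductSubgroup_eq, H97.mem_pull, ← H97.toLE_coe]
  refine ⟨fun ⟨α, β, h⟩ => ⟨α, β, (tsOf e P).lext fun u w => by simpa using h u w⟩,
    fun ⟨s, x, h⟩ => ?_⟩
  have : Nonempty (Fin a) := ⟨⟨0, ha⟩⟩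
  have : Nonempty (Fin b) := ⟨⟨0, hb⟩⟩
  have key : ∀ u w, u ≠ 0 → w ≠ 0 → s u ≠ 0 ∧ x w ≠ 0 := fun u w hu hw => by
    rw [← not_or, ← (tsOf e P).τ_eq_zero, ← TS.op_τ, ← h]
    simp [TS.τ_eq_zero, hu, hw]
  obtain ⟨u₀, hu⟩ := exists_ne (0 : Fin a → F)
  obtain ⟨w₀, hw⟩ := exists_ne (0 : Fin b → F)
  exact ⟨.ofInjectiveEndo s ((injective_iff_map_eq_zero s).mpr fun u h =>
      by_contra fun h1 => (key u w₀ h1 hw).1 h),
    .ofInjectiveEndo x ((injective_iff_map_eq_zero x).mpr fun w h =>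
      by_contra fun h1 => (key u₀ w hu h1).2 h),
    fun u w => (LinearMap.congr_fun h _).trans (by simp)⟩

variable [FiniteDimensional F U] [FiniteDimensional F W] [FiniteDimensional F V]

variable (T) in
/-- Coordinates along a basis of the second factor. -/
noncomputable def colE : V ≃ₗ[F] (Fin (finrank F W) → U) :=
  .ofLinearMap (LinearMap.pi fun j => T.cW ((finBasis F W).coord j))
    (∑ j, T.τ.flip (finBasis F W j) ∘ₗ LinearMap.proj j)
    (LinearMap.ext fun f => funext fun j => by simp [Finsupp.single_apply])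
    (LinearMap.ext fun v => by simpa using (T.eq_sum (finBasis F W) v).symm)

theorem kerDim_op_one (p : F[X]) : kerDim (T.op s 1) p = finrank F W * kerDim s p := by
  rw [(show Similar (T.op s 1) (piEnd fun _ => s) from
    ⟨colE T, fun v => funext fun j => cW_op _ v⟩).kerDim_eq, H65.kerDim_piEnd]
  simp

theorem kerDim_one_op (p : F[X]) : kerDim (T.op 1 x) p = finrank F U * kerDim x p := by
  rw [op_flip, kerDim_op_one]

theorem mul_add_fix_le {A : Submodule F U} (h : ∀ C ≤ A, Inv s C → C = ⊥) :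
    finrank F W * finrank F A + finrank F (fixS (T.op s x)) ≤ finrank F V := by
  have h1 := LinearMap.finrank_range_of_inj (f := (colE T).symm.toLinearMap ∘ₗ
    A.subtype.compLeft (Fin (finrank F W))) ((colE T).symm.injective.comp
      A.injective_subtype.comp_left)
  rw [finrank_pi_fintype, Finset.sum_const, Finset.card_fin, smul_eq_mul] at h1
  rw [← h1, ← finrank_sup_of_disjoint]
  · exact Submodule.finrank_le _
  rw [Submodule.disjoint_def]
  rintro _ ⟨f, rfl⟩ hv
  generalize hw : ((colE T).symm.toLinearMap ∘ₗ A.subtype.compLeft _) f = v at hv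
  have h2 : LinearMap.range (T.cW.flip v) ≤ (LinearMap.range (T.cW.flip v)).map s := by
    rintro _ ⟨φ, rfl⟩
    exact ⟨_, ⟨φ ∘ₗ x, rfl⟩, by rw [LinearMap.flip_apply, ← cW_op, mem_fixS.mp hv]; rfl⟩
  have h3 := h (LinearMap.range (T.cW.flip v)) (by
    rintro _ ⟨φ, rfl⟩
    simpa [← hw, colE] using A.sum_mem fun j _ => A.smul_mem _ (f j).2)
    (inv_iff_map_le.mpr (Submodule.eq_of_le_of_finrank_le h2 (Submodule.finrank_map_le _ _)).ge)
  exact T.eq_zero_of_cW fun φ => (Submodule.mem_bot F).mp (h3 ▸ ⟨φ, rfl⟩)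

theorem scalar_of_fix (h : finrank F V < finrank F W + finrank F (fixS (T.op s x))) :
    ∃ c : F, s = c • 1 := by
  rcases subsingleton_or_nontrivial U with _ | _
  · exact ⟨0, Subsingleton.elim _ _⟩
  refine LinearMap.exists_eq_smul_id_of_forall_notLinearIndependent fun u hu => ?_
  have h0 := hu.ne_zero 0
  have h1 := mul_add_fix_le (T := T) (x := x) (s := s) (A := F ∙ u) fun C h1 h2 => by
    rw [eq_bot_iff]
    intro v hv
    obtain ⟨a, rfl⟩ := Submodule.mem_span_singleton.mp (h1 hv)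
    obtain ⟨b, hb⟩ := Submodule.mem_span_singleton.mp (h1 (h2 _ hv))
    rw [(LinearIndependent.pair_iff.mp hu b (-a) (by rw [hb]; simp)).2 |> neg_eq_zero.mp]
    simp
  rw [finrank_span_singleton (by simpa using h0)] at h1
  omega

theorem dvd_kerDim_of_fix (h : finrank F V < finrank F W + finrank F (fixS (T.op s x)))
    (p : F[X]) : finrank F U ∣ kerDim (T.op s x) p := by
  obtain ⟨c, rfl⟩ := scalar_of_fix h
  rw [op_smul_one, kerDim_one_op]; exact dvd_mul_right _ _

theorem not_tb {f : End F V} {m : ℕ} (h : finrank F (fixS f) + m = finrank F V)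
    (h1 : m < finrank F W) (h2 : ¬ finrank F U ∣ m) (y : End F V) (hs : Similar f y) :
    ¬ TB T y := by
  rintro ⟨s, x, rfl⟩
  rw [finrank_fixS_eq hs] at h
  have h3 : finrank F U ∣ finrank F (fixS (T.op s x)) := dvd_kerDim_of_fix (by omega) _
  exact h2 ((Nat.dvd_add_right h3).mp (h ▸ T.finrank_eq ▸ dvd_mul_right _ _))

variable [Nontrivial U] [Nontrivial W]

theorem scalar_of_op (h : T.op s x = 1) : ∃ c : F, c ≠ 0 ∧ s = c • 1 ∧ x = c⁻¹ • 1 := by
  have h1 := finrank_pos (R := F) (M := U)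
  have h2 := finrank_pos (R := F) (M := W)
  have : Nontrivial V := nontrivial_of_finrank_pos (R := F) (T.finrank_eq ▸ mul_pos h1 h2)
  obtain ⟨c, rfl⟩ := scalar_of_fix (T := T) (s := s) (x := x)
    (by rw [fixS_eq_top_iff.mpr h, finrank_top]; omega)
  obtain ⟨d, rfl⟩ := scalar_of_fix (T := T.flip) (s := x) (x := c • 1)
    (by rw [← op_flip, fixS_eq_top_iff.mpr h, finrank_top]; omega)
  have h3 : c * d = 1 := smul_left_injective F (one_ne_zero (α := End F V))
    (by simpa [op_smul, op_one] using h)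
  exact ⟨c, left_ne_zero_of_mul_eq_one h3, rfl, by rw [eq_inv_of_mul_eq_one_right h3]⟩

variable [Fintype F] [hr : Fact r.Prime] {i : ℕ}

theorem exists_op_pow (H : Ord F r i) (hi : i ≠ 1) (h : T.op s x ^ r = 1) :
    ∃ (s' : End F U) (x' : End F W), s' ^ r = 1 ∧ x' ^ r = 1 ∧ T.op s x = T.op s' x' := by
  obtain ⟨c, h1, h2, h3⟩ := scalar_of_op ((op_pow r).symm.trans h)
  obtain ⟨d, rfl⟩ := exists_pow_eq_of_not_dvd (mt H.eq_one_iff.mpr hi) c
  have h4 : d ≠ 0 := fun h => h1 (by rw [h, zero_pow hr.out.ne_zero])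
  exact ⟨d⁻¹ • s, d • x, smul_pow_eq_one h4 h2, by
    rw [_root_.smul_pow, h3, smul_smul, mul_inv_cancel₀ h1, one_smul], by
    rw [op_smul, inv_mul_cancel₀ h4, one_smul]⟩

theorem mul_le_mov (H : Ord F r i) (hs : s ^ r = 1) (h1 : s ≠ 1) (h : T.op s x ^ r = 1) :
    i ≤ finrank F U ∧ finrank F W * (i - 1) ≤ finrank F (movS r (T.op s x)) := by
  have h2 := Nat.le_of_dvd (finrank_movS_pos H.ne hs h1) (ord_dvd_finrank H (inv_movS r s) le_rfl)
  obtain ⟨A, h3, h4⟩ := exists_le_finrank_eq (movS r s) (k := i - 1) (by omega)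
  have h5 := mul_add_fix_le (T := T) (x := x) (A := A) fun C h5 h6 => eq_bot_of_finrank
    (Nat.eq_zero_of_dvd_of_lt (ord_dvd_finrank H h6 (h5.trans h3)) (by
      have := Submodule.finrank_mono h5; have := H.pos; omega))
  have h6 := finrank_fixS_add H.ne h
  exact ⟨H.le_finrank hs h1, by rw [← h4]; omega⟩

omit [Fintype F] in
theorem exists_pair_dg {ω : F} (h : ω ^ r = 1) (h1 : ω ≠ 1) (h2 : r ≠ 2) (hn : 2 ≤ finrank F V) :
    ∃ f : End F V, LinearMap.det f = 1 ∧ f ^ r = 1 ∧ finrank F (fixS f) + 2 = finrank F V ∧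
      kerDim f (X - C ω) = 1 := by
  classical
  obtain ⟨m, hm⟩ := Nat.exists_eq_add_of_le' hn
  obtain ⟨b⟩ := exists_basis_of_card (F := F) (V := V) (ι := Option (Option (Fin m))) (by simp [hm])
  have h0 : ω ≠ 0 := by rintro rfl; simp [hr.out.ne_zero] at h
  have h3 : ω⁻¹ ≠ ω := fun h3 => h1 ((pow_eq_one_iff_of_coprime
    ((Nat.coprime_primes hr.out Nat.prime_two).mpr h2)).mp ⟨h, by
      rw [pow_two]; nth_rw 1 [← h3]; exact inv_mul_cancel₀ h0⟩)
  refine ⟨dg b fun j => j.elim ω fun j => j.elim ω⁻¹ fun _ => 1, by simp [det_dg, h0],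
    (dg_pow_eq b (c := 1) ?_).trans (one_smul F _), ?_, ?_⟩
  · rintro (_ | _ | _) <;> simp [h]
  · rw [finrank_fixS_dg, Fintype.card_subtype, Finset.card_filter, Fintype.sum_option,
      Fintype.sum_option]
    simp [hm, h1]
  · rw [kerDim, aeval_dg, finrank_ker_dg, Fintype.card_subtype, Finset.card_filter,
      Fintype.sum_option, Fintype.sum_option]
    simp [sub_eq_zero, h3, h1.symm]

theorem ten_elB_iff (ha : 2 ≤ finrank F U) (hab : finrank F U < finrank F W)
    (hi : ∀ i, Ord F r i → i ≤ finrank F V) : ElB (TB T) r ↔ r = 2 ∧ finrank F U = 2 ∧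
      (2 : F) ≠ 0 ∧ padicValNat 2 (Fintype.card F - 1) ≤ padicValNat 2 (finrank F V) := by
  have hn := T.finrank_eq
  have h6 : 2 * 3 ≤ finrank F V := hn ▸ Nat.mul_le_mul ha (by omega)
  have : Nontrivial V := nontrivial_of_finrank_pos (R := F) (by omega)
  have h7 : ¬ finrank F U ∣ 1 := fun h => by have := Nat.le_of_dvd one_pos h; omega
  refine ⟨fun h => ?_, ?_⟩
  swap
  · rintro ⟨rfl, h1, h2, h3⟩
    refine elB_two TB.smul (fun y a h4 h5 _ => ?_) fun y z _ _ _ => ?_
    · obtain ⟨t, ht⟩ := even_mov_two h2 h4 h5 h3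
      have h8 := finrank_fixS_add (r := 2) (by simpa using h2) h4
      obtain ⟨x, h9, h10⟩ := exists_sq_one_fix (V := W) h2 (e := finrank F W - t) (by omega)
      refine ⟨T.op 1 x, by rw [op_pow, h9, one_pow, op_one], (kerDim_one_op _).trans ?_, _, _, rfl⟩
      rw [h1] at hn ⊢
      change 2 * finrank F (fixS x) = _
      omega
    · obtain ⟨s, hs⟩ := exists_pow_eq_smul_one (V := U) two_ne_zero z (k := 1) (by omega)
      exact ⟨T.op s 1, by rw [op_pow, hs, op_smul_one, one_pow, ← one_smul F (1 : End F U),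
        op_smul, op_one, one_mul], _, _, rfl⟩
  by_cases h0 : (r : F) = 0
  · have : CharP F r := (CharP.charP_iff_prime_eq_zero hr.out).mpr h0
    obtain ⟨f, h1, h2, h3, h4⟩ := exists_transvection (F := F) (V := V) r (by omega)
    exact absurd h (not_elB' h1 h2 h3 (not_tb h4 (by omega) h7))
  rcases eq_or_ne r 2 with rfl | h2
  · have h2 : (2 : F) ≠ 0 := by simpa using h0
    refine ⟨rfl, by_contra fun h1 => ?_, h2, by_contra fun h1 => ?_⟩
    · obtain ⟨f, h3, h4⟩ := exists_sq_one_fix (V := V) h2 (e := finrank F V - 2) (by omega)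
      have h5 := finrank_fixS_add h0 h3
      exact not_elB' (by rw [det_of_sq_one h2 h3, show finrank F (movS 2 f) = 2 by omega]; simp) h3
        (ne_smul_of_fix (by omega) (by omega)) (not_tb (m := 2) (by omega) (by omega) fun h => by
          have := Nat.le_of_dvd two_pos h; omega) h
    · obtain ⟨a, f, h3, h4, h5, h8⟩ := exists_refl_sl (V := V) h2 (by omega) (not_le.mp h1)
      exact not_elB_smul TB.smul h4 h3 h5 (not_tb h8 (by omega) h7) h
  have H : Ord F r _ := ⟨h0, rfl⟩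
  generalize orderOf (Fintype.card F : ZMod r) = i at H
  exfalso
  rcases eq_or_ne i 1 with h1 | h1
  · obtain ⟨ω, hω⟩ := exists_primitive (H.eq_one_iff.mp h1)
    obtain ⟨f, h3, h4, h5, h8⟩ := exists_pair_dg (V := V) hω.pow_eq_one (hω.ne_one hr.out.one_lt) h2
      (by omega)
    refine not_elB' h3 h4 (ne_smul_of_fix (by omega) (by omega)) ?_ h
    rintro _ h9 ⟨s, x, rfl⟩
    rw [finrank_fixS_eq h9] at h5
    rw [h9.kerDim_eq] at h8
    exact h7 (h8 ▸ dvd_kerDim_of_fix (by omega) _)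
  have h3 := hi i H
  have h4 := H.pos
  obtain ⟨f, h5, h8, h9, h10⟩ := exists_sl_fix (V := V) H h1 one_ne_zero (e := finrank F V - i)
    (by omega)
  refine not_elB' h5 h8 h9 ?_ h
  rintro _ h11 ⟨s, x, rfl⟩
  have h12 := pow_eq_one_of_similar h11 h8
  obtain ⟨s, x, h13, h14, h15⟩ := exists_op_pow H h1 h12
  rw [h15] at h11 h12
  have h16 := finrank_fixS_add h0 h12
  rw [← finrank_fixS_eq h11] at h16
  rcases eq_or_ne s 1 with rfl | h17
  · obtain ⟨t, ht⟩ := ord_dvd_finrank H (inv_movS r x) le_rfl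
    have h18 : finrank F (movS r (T.op 1 x)) = finrank F U * finrank F (movS r x) := kerDim_one_op _
    rw [ht, mul_left_comm, show finrank F (movS r (T.op 1 x)) = i * 1 by omega] at h18
    exact h7 ⟨t, Nat.eq_of_mul_eq_mul_left h4 h18⟩
  · obtain ⟨h18, h19⟩ := mul_le_mov H h13 h17 h12
    have := Nat.le_mul_of_pos_right (finrank F W) (show 0 < i - 1 by omega)
    omega

theorem ten_alt_elA_iff {P : PQ F V (RingHom.id F)} {PU : PQ F U (RingHom.id F)}
    {Q : QuadraticForm F W} (hP : P.B.SeparatingLeft) (hΛ : P.Λ = ⊤) (hU : PU.B.SeparatingLeft)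
    (hΛU : PU.Λ = ⊤) (hQ : (qP Q).B.SeparatingLeft) {κ : F} (hκ : κ ≠ 0)
    (hB : ∀ u w u' w', P.B (T.τ u w) (T.τ u' w') = κ * (PU.B u u' * (qP Q).B w w'))
    (h2 : (2 : F) ≠ 0) (hb : 3 ≤ finrank F W) (hex : ∃ f, Iso P f ∧ f ^ r = 1 ∧ f ≠ 1) :
    ElA (Iso P) (TB T) r ↔ r = 2 ∧ finrank F U = 2 := by
  have hn := T.finrank_eq
  obtain ⟨a, ha⟩ := (alt_hyp hU hΛU (nondeg_top hU)).even
  have ha0 := finrank_pos (R := F) (M := U)
  rw [finrank_top] at ha
  have h6 : 2 * 3 ≤ finrank F V := hn ▸ Nat.mul_le_mul (by omega) (by omega)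
  have : Nontrivial V := nontrivial_of_finrank_pos (R := F) (by omega)
  have h7 : ¬ finrank F U ∣ 1 := fun h => by have := Nat.le_of_dvd one_pos h; omega
  have hI : ∀ s x, Sim PU 1 s → Iso (qP Q) x → Iso P (T.op s x) := fun s x hs hx =>
    alt_iso hΛ (LinearMap.congr_fun₂ (T.lext (f := P.B.compl₁₂ (T.op s x) (T.op s x)) (g := P.B)
      fun u w => T.lext fun u' w' => by simp [hB, hs u u', hx.B]))
  refine ⟨fun h => ?_, ?_⟩
  swap
  · rintro ⟨rfl, h1⟩
    refine alt_elA_two hP hΛ h2 (fun t _ ht => ?_) ?_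
    · rw [h1] at hn
      obtain ⟨A, -, h3, h4⟩ := quad_exists_nondeg hQ h2 (nondeg_top hQ) (k := finrank F W - t)
        (by rw [finrank_top]; omega)
      obtain ⟨x, h5, h8, -, h9⟩ := exists_neg_dim hQ h2 h3
      refine ⟨T.op 1 x, hI _ _ Iso.one.sim h5, by rw [op_pow, h8, one_pow, op_one],
        (kerDim_one_op _).trans ?_, _, _, rfl⟩
      change _ * finrank F (fixS x) = _
      rw [h1]; omega
    · obtain ⟨s, h3, h4⟩ := exists_alt_sq hU hΛU (-1)
      exact ⟨T.op s 1, hI _ _ (by simpa using h4) Iso.one, by rw [op_pow, h3, op_smul_one, one_pow,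
        ← one_smul F (1 : End F U), op_smul, op_one, one_mul], _, _, rfl⟩
  by_cases h0 : (r : F) = 0
  · have : CharP F r := (CharP.charP_iff_prime_eq_zero hr.out).mpr h0
    obtain ⟨f, h1, h3, h4⟩ := alt_transv r hP hΛ
    exact absurd h (not_elA (fun _ => id) h1 h3 (ne_smul_of_fix (by omega) (by omega))
      fun y _ => not_tb h4 (by omega) h7 y)
  rcases eq_or_ne r 2 with rfl | hr2
  · refine ⟨rfl, by_contra fun h1 => ?_⟩
    obtain ⟨f, h3, h4, h5⟩ := alt_neg hP hΛ h2 even_two (by omega)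
    exact not_elA (fun _ => id) h3 h4 (ne_smul_of_fix (by omega) (by omega))
      (fun y _ => not_tb h5 (by omega) (fun h => by have := Nat.le_of_dvd two_pos h; omega) y) h
  have H : Ord F r _ := ⟨h0, rfl⟩
  generalize orderOf (Fintype.card F : ZMod r) = i at H
  obtain ⟨c, hc⟩ : ∃ c, c = if Even i then i else 2 * i := ⟨_, rfl⟩
  obtain ⟨f, h1, h3, h4⟩ := hex
  obtain ⟨f, h1, h3, h4, h5⟩ := (ss_id hP H hr2 hc).exists_one h1 h3 h4
  refine absurd h (not_elA (fun _ => id) h1 h3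
    (ne_smul_of_odd hP (hr.out.odd_of_ne_two hr2) h1 h3 h4) ?_)
  rintro _ h8 h9 ⟨s, x, rfl⟩
  have h10 := pow_eq_one_of_similar h9 h3
  have hi := H.pos
  rw [finrank_movS_eq h9] at h5
  have hc1 : i ≤ c ∧ c ≤ 2 * i ∧ (i % 2 = 0 → c = i) := by
    rw [hc, ← Nat.even_iff]; split_ifs with h <;> simp [h] <;> omega
  have key : ∀ x', T.op s x ≠ T.op 1 x' := fun x h => by
    rw [h] at h5 h8 h10
    obtain ⟨d, -, h11, h12⟩ := scalar_of_op ((op_pow r).symm.trans h10)
    obtain rfl : d = 1 := smul_left_injective F (one_ne_zero (α := End F U)) (by simpa using h11.symm)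
    obtain ⟨u, hu⟩ := exists_ne (0 : U)
    obtain ⟨u', -, hu'⟩ := exists_B_ne (nondeg_top hU) Submodule.mem_top hu
    obtain ⟨e, h13, -⟩ := (ss_id hQ H hr2 hc).fix_shape (iso_of_sim_quad h2 x fun w w' => by
      simpa [hB, hκ, hu'] using h8.B (T.τ u w) (T.τ u' w')) (by simpa using h12)
    have h14 : finrank F (movS r (T.op 1 x)) = finrank F U * finrank F (movS r x) := kerDim_one_op _
    rw [h13, h5, ← mul_assoc] at h14
    exact h7 ⟨e, Nat.eq_of_mul_eq_mul_right (show 0 < c by omega) (by rw [← h14, one_mul])⟩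
  rcases eq_or_ne i 1 with rfl | h11
  · have h11 := finrank_fixS_add h0 h10
    obtain ⟨d, rfl⟩ := scalar_of_fix (T := T) (s := s) (x := x) (by omega)
    exact key _ (op_smul_one d)
  obtain ⟨s', x', h12, h13, h14⟩ := exists_op_pow H h11 h10
  have h15 : s' ≠ 1 := fun h => key x' (h ▸ h14)
  rw [h14] at h5 h10
  obtain ⟨h16, h17⟩ := mul_le_mov H h12 h15 h10
  rcases eq_or_ne x' 1 with rfl | h18
  · have h18 : finrank F (movS r (T.op s' 1)) = finrank F W * finrank F (movS r s') :=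
      kerDim_op_one _
    have := Nat.mul_le_mul hb (Nat.le_of_dvd (finrank_movS_pos h0 h12 h15)
      (ord_dvd_finrank H (inv_movS r s') le_rfl))
    omega
  obtain ⟨h19, h20⟩ := mul_le_mov (T := T.flip) H h13 h18 (by rwa [← op_flip])
  rw [← op_flip, h5] at h20
  have h21 := Nat.mul_le_mul_right (i - 1) hb
  have h22 := Nat.mul_le_mul_right (i - 1) h19
  obtain ⟨j, rfl⟩ : ∃ j, i = j + 1 := ⟨i - 1, by omega⟩
  rw [Nat.add_sub_cancel] at *
  have h23 : j ≤ 2 := by omega
  interval_cases j <;> omega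

end H99
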